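import Cfsg.Statements.S1783
import Mathlib
import Cfsg.Agent.Lib.Misc.TI2
import Cfsg.Agent.Lib.Core.FStar
import Cfsg.Agent.Lib.Coprime.Basic
import Cfsg.Agent.Lib.PGroup.Omega

set_option autoImplicit false
open Cfsg

namespace Cfsg.Agent.S1783

open Cfsg.Lib

theorem le_pCore_of_frattini {X : Type*} [Group X] [Finite X]
    (hC : Subgroup.centralizer (pCore 2 X : Set X) ≤ pCore 2 X) {x : X}
    (hx : ∀ q ∈ pCore 2 X, x * q * x⁻¹ * q⁻¹ ∈ (frattini (pCore 2 X)).map (pCore 2 X).subtype) :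
    x ∈ pCore 2 X := by
  set Q := pCore 2 X with hQ
  have hQp : IsPGroup 2 Q := isPGroup_pCore
  set F := (frattini Q).map Q.subtype with hF
  have hFn : F.Normal := inferInstance
  let D : Subgroup X := (Subgroup.centralizer ((Q.map (QuotientGroup.mk' F) : Subgroup (X ⧸ F)) : Set (X ⧸ F))).comap
    (QuotientGroup.mk' F)
  have hDn : D.Normal := inferInstance
  have hD : ∀ y : X, y ∈ D ↔ ∀ q ∈ Q, y * q * y⁻¹ * q⁻¹ ∈ F := by
    intro y
    rw [Subgroup.mem_comap, Subgroup.mem_centralizer_iff]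
    constructor
    · intro h q hq
      have := h _ ⟨q, hq, rfl⟩
      rw [← QuotientGroup.eq_one_iff]
      simp only [QuotientGroup.mk'_apply] at this
      simp only [QuotientGroup.mk_mul, QuotientGroup.mk_inv, ← this]
      group
    · rintro h _ ⟨q, hq, rfl⟩
      have := (QuotientGroup.eq_one_iff _).2 (h q hq)
      simp only [QuotientGroup.mk_mul, QuotientGroup.mk_inv, mul_inv_eq_one, mul_inv_eq_iff_eq_mul] at this
      simpa using this.symm
  refine le_pCore hDn ?_ ((hD x).2 hx)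
  rw [isPGroup_iff_primeFactors_card_subset (by norm_num)]
  intro r hr
  have hrp := Nat.prime_of_mem_primeFactors hr
  have := Fact.mk hrp
  by_contra hr2
  have hne : r ≠ 2 := by rintro rfl; exact hr2 (by simp [Nat.prime_two])
  obtain ⟨σ, hσ⟩ := exists_prime_orderOf_dvd_card' r (Nat.dvd_of_mem_primeFactors hr)
  have hT : IsPGroup r (Subgroup.zpowers (σ : X)) :=
    h9_isPGroup_zpowers (k := 1) (by
      rw [pow_one, ← hσ, ← Subgroup.orderOf_coe, pow_orderOf_eq_one])
  have hcop : (Nat.card (Subgroup.zpowers (σ : X))).Coprime (Nat.card Q) :=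
    IsPGroup.coprime_card_of_ne r 2 hne _ _ hT hQp
  have hact : CoprimeAct (Subgroup.zpowers (σ : X)) Q :=
    ⟨Subgroup.le_normalizer_of_normal, hcop, Or.inl inferInstance⟩
  have h1 := hact.le_centralizer_of_commutator_le_frattini (by
    rw [Subgroup.commutator_comm, Subgroup.commutator_le]
    intro a ha q hq
    exact (hD a).1 ((Subgroup.zpowers_le.2 σ.2) ha) q hq)
  have h2 : (σ : X) ∈ Q := hC (Subgroup.le_centralizer_iff.1 h1 (Subgroup.mem_zpowers _))
  obtain ⟨k, hk⟩ := (IsPGroup.iff_orderOf.1 hQp) ⟨σ, h2⟩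
  rw [Subgroup.orderOf_mk, Subgroup.orderOf_coe, hσ] at hk
  exact hne ((Nat.prime_dvd_prime_iff_eq Nat.prime_two hrp).1 (by
    rw [hk]; apply dvd_pow_self
    rintro rfl
    exact hrp.one_lt.ne' hk)).symm

theorem family {X : Type*} [Group X] [Finite X] (A : Subgroup X)
    (hti : ∀ h : X, A.map (MulAut.conj h).toMonoidHom = A ∨ A.map (MulAut.conj h).toMonoidHom ⊓ A = ⊥)
    (hexp : ∃ a ∈ A, a * a ≠ 1) (P : Subgroup X) (hP : IsPGroup 2 P) (g h : X)
    (hg : A.map (MulAut.conj g).toMonoidHom ≤ P) (hh : A.map (MulAut.conj h).toMonoidHom ≤ P)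
    (hAc : ∀ a ∈ A, ∀ b ∈ A, a * b = b * a) {a b : X} (ha : a ∈ A) (hb : b ∈ A) :
    g * a * g⁻¹ * (h * b * h⁻¹) = h * b * h⁻¹ * (g * a * g⁻¹) := by
  by_cases hgh : A.map (MulAut.conj g).toMonoidHom = A.map (MulAut.conj h).toMonoidHom
  · have h1 := h9_conj_mem_conj g ha
    rw [hgh] at h1
    obtain ⟨c, hc, h2⟩ := h1
    have h3 : h * c * h⁻¹ = g * a * g⁻¹ := h2
    rw [← h3]
    calc h * c * h⁻¹ * (h * b * h⁻¹) = h * (c * b) * h⁻¹ := by group
      _ = _ := by rw [hAc c hc b hb]; group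
  refine h9_ti_family_commute {R | ∃ g : X, R = A.map (MulAut.conj g).toMonoidHom} ?_ ?_ ?_ P hP ?_
    _ ⟨g, rfl⟩ _ ⟨h, rfl⟩ hg hh hgh _ (h9_conj_mem_conj g ha) _ (h9_conj_mem_conj h hb)
  · rintro _ ⟨g, rfl⟩
    obtain ⟨a, ha, ha2⟩ := hexp
    refine ⟨_, h9_conj_mem_conj g ha, fun h => ha2 ?_⟩
    calc a * a = g⁻¹ * (g * a * g⁻¹ * (g * a * g⁻¹)) * g := by group
      _ = 1 := by rw [h]; group
  · rintro _ ⟨g, rfl⟩ _ ⟨h, rfl⟩
    rw [h9_card_conj, h9_card_conj]
  · rintro _ ⟨g, rfl⟩ _ ⟨h, rfl⟩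
    have e : A.map (MulAut.conj g).toMonoidHom =
        (A.map (MulAut.conj (h⁻¹ * g)).toMonoidHom).map (MulAut.conj h).toMonoidHom := by
      rw [h9_conj_conj]; congr; group
    rcases hti (h⁻¹ * g) with h1 | h1
    · left; rw [e, h1]
    · right; rw [e, ← Subgroup.map_inf _ _ _ (MulAut.conj h).injective, h1, Subgroup.map_bot]
  · rintro s - _ ⟨g, rfl⟩
    exact ⟨s * g, h9_conj_conj _ _ _⟩


/-- Let X be a finite group whose generalized Fitting subgroup equals its largest normal 2-subgroup Q, and let A be an abelian 2-subgroup of X such that every conjugate of A equals A or meets A trivially. Let B be the subgroup generated by the squares of the elements of A. Then B lies in Q, and if B is not an elementary abelian 2-group then the normal closure of B in X is commutative. -/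
theorem result {X : Type*} [Group X] [Finite X]
    (hX : Cfsg.generalizedFittingSubgroup X = Cfsg.pCore 2 X) (A : Subgroup X) (hA2 : IsPGroup 2 ↥A) (hAa : IsMulCommutative ↥A)
    (hti : ∀ h : X, A.map (MulAut.conj h).toMonoidHom = A ∨ A.map (MulAut.conj h).toMonoidHom ⊓ A = ⊥) :
    Subgroup.closure ((fun a : X => a ^ 2) '' (A : Set X)) ≤ Cfsg.pCore 2 X ∧
      (¬ Cfsg.IsElementaryAbelian 2 (Subgroup.closure ((fun a : X => a ^ 2) '' (A : Set X))) →
        IsMulCommutative ↥(Subgroup.normalClosure ((fun a : X => a ^ 2) '' (A : Set X)))) := by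
  have hC := (fstar_eq_pCore_iff_centralizer_le 2).1 hX
  have hAc : ∀ a ∈ A, ∀ b ∈ A, a * b = b * a := fun a ha b hb =>
    (pg_commute_of_isMulCommutative hAa ha hb).eq
  have hQp : IsPGroup 2 (pCore 2 X) := isPGroup_pCore
  have hQn : (pCore 2 X).Normal := inferInstance
  have h1 : Subgroup.closure ((fun a : X => a ^ 2) '' (A : Set X)) ≤ Cfsg.pCore 2 X := by
    rw [Subgroup.closure_le]
    rintro _ ⟨a, ha, rfl⟩
    by_cases ha2 : a * a = 1
    · simp only [pow_two, ha2]; exact Subgroup.one_mem _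
    apply le_pCore_of_frattini hC
    intro q hq
    have h2 := family A hti ⟨a, ha, ha2⟩ (A ⊔ pCore 2 X) (hA2.to_sup_of_normal_right hQp) 1 q
      (by rw [h9_conj_one]; exact le_sup_left) (by
        rintro _ ⟨x, hx, rfl⟩
        exact Subgroup.mul_mem _ (Subgroup.mul_mem _ (Subgroup.mem_sup_right hq) (Subgroup.mem_sup_left hx))
          (Subgroup.mem_sup_right (Subgroup.inv_mem _ hq))) hAc ha (A.inv_mem ha)
    have h3 : a * q * a⁻¹ * q⁻¹ ∈ pCore 2 X := Subgroup.mul_mem _ (hQn.conj_mem q hq a) (Subgroup.inv_mem _ hq)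
    refine ⟨(⟨_, h3⟩ : pCore 2 X) ^ 2, pg_pow_mem_frattini hQp _, ?_⟩
    show (a * q * a⁻¹ * q⁻¹) ^ 2 = a ^ 2 * q * (a ^ 2)⁻¹ * q⁻¹
    simp only [one_mul, inv_one, mul_one] at h2
    calc (a * q * a⁻¹ * q⁻¹) ^ 2 = a * (q * a⁻¹ * q⁻¹ * a) * (q * a⁻¹ * q⁻¹) := by rw [pow_two]; group
      _ = _ := by rw [← h2, pow_two]; group
  refine ⟨h1, fun h => ?_⟩
  set B := Subgroup.closure ((fun a : X => a ^ 2) '' (A : Set X)) with hB
  have hBA : B ≤ A := by
    rw [hB, Subgroup.closure_le]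
    rintro _ ⟨a, ha, rfl⟩
    exact A.pow_mem ha 2
  have hBti : ∀ h : X, B.map (MulAut.conj h).toMonoidHom = B ∨ B.map (MulAut.conj h).toMonoidHom ⊓ B = ⊥ := by
    intro g
    rcases hti g with h2 | h2
    · left
      rw [h9_conj_eq_iff_mem_normalizer] at h2 ⊢
      apply h9_mem_normalizer_of_conj_mem
      have : B.map (MulAut.conj g).toMonoidHom ≤ B := by
        rw [Subgroup.map_le_iff_le_comap, hB, Subgroup.closure_le]
        rintro _ ⟨a, ha, rfl⟩
        exact Subgroup.subset_closure ⟨g * a * g⁻¹, h9_conj_mem_of_mem_normalizer h2 ha, by simp⟩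
      exact fun x hx => this (h9_conj_mem_conj g hx)
    · right
      rw [eq_bot_iff, ← h2]
      exact inf_le_inf (Subgroup.map_mono hBA) hBA
  have hexp : ∃ b ∈ B, b * b ≠ 1 := by
    by_contra hcon
    push Not at hcon
    exact h ⟨pg_isMulCommutative_of_le hAa hBA, fun b hb => by rw [pow_two, hcon b hb]⟩
  have hle : ∀ g : X, B.map (MulAut.conj g).toMonoidHom ≤ pCore 2 X := by
    rintro g _ ⟨x, hx, rfl⟩
    exact hQn.conj_mem x (h1 hx) g
  apply Subgroup.isMulCommutative_closure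
  intro x hx y hy
  obtain ⟨a, ha, hax⟩ := Group.mem_conjugatesOfSet_iff.1 hx
  obtain ⟨b, hb, hby⟩ := Group.mem_conjugatesOfSet_iff.1 hy
  obtain ⟨g, rfl⟩ := isConj_iff.1 hax
  obtain ⟨k, rfl⟩ := isConj_iff.1 hby
  exact family B hBti hexp _ hQp g k (hle g) (hle k) (fun a ha b hb => hAc a (hBA ha) b (hBA hb))
    (Subgroup.subset_closure ha) (Subgroup.subset_closure hb)

end Cfsg.Agent.S1783
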