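import Cfsg.Statements.S0353
import Mathlib
import Cfsg.Agent.Lib.Steiner.Witt24

set_option autoImplicit false
open Cfsg

namespace Cfsg.Agent.S0353

/-- In an S(5, 8, 24), the symmetric difference of two blocks meeting in four points is a block. -/
theorem result {α : Type*} [Fintype α] [DecidableEq α] (hα : Fintype.card α = 24) {B : Set (Finset α)} (hB : Cfsg.IsSteinerSystem 5 8 B) {b c : Finset α} (hb : b ∈ B) (hc : c ∈ B) (h4 : (b ∩ c).card = 4) : symmDiff b c ∈ B := by
  apply Cfsg.Lib.Steiner.mem24_of_parity hα hB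
  · have := Cfsg.Lib.Steiner.card_symmDiff_add b c
    rw [hB.1 b hb, hB.1 c hc, h4] at this
    omega
  · intro r hr
    have h1 := Cfsg.Lib.Steiner.card_symmDiff_inter b c r
    have h2 := Cfsg.Lib.Steiner.par24 hα hB b hb r hr
    have h3 := Cfsg.Lib.Steiner.par24 hα hB c hc r hr
    omega

end Cfsg.Agent.S0353
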