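import Cfsg.Statements.S0355
import Mathlib
import Cfsg.Agent.Lib.Steiner.Basic

set_option autoImplicit false
open Cfsg

namespace Cfsg.Agent.S0355

/-- In a Steiner system S(4, 7, 23), two distinct blocks intersect in 1 or 3 points. -/
theorem result {α : Type*} [Fintype α] [DecidableEq α] (hα : Fintype.card α = 23) {B : Set (Finset α)} (hB : Cfsg.IsSteinerSystem 4 7 B) {b c : Finset α} (hb : b ∈ B) (hc : c ∈ B) (hbc : b ≠ c) : (b ∩ c).card = 1 ∨ (b ∩ c).card = 3 := by
  exact Cfsg.Lib.Steiner.inter23 hα hB hb hc hbc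

end Cfsg.Agent.S0355
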