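import Cfsg.Statements.S0371
import Cfsg.Agent.Lib.Golay.Mathieu

set_option autoImplicit false
open Cfsg

namespace Cfsg.Agent.S0371

open Cfsg.Lib.PC Cfsg.Lib.Golay in
theorem mul_two_mem : Equiv.optionCongr (Units.mulLeft (ZMod.unitOfCoprime 2 (by norm_num : Nat.Coprime 2 23))) ∈ Cfsg.M24 := by
  have h : R 983435072843990828779021698901151808
      (Equiv.optionCongr (Units.mulLeft (ZMod.unitOfCoprime 2 (by norm_num : Nat.Coprime 2 23)))) := by
    unfold R Cfsg.Lib.PC.Rep; decide +kernel
  exact h.mem_M24 (by decide +kernel)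

theorem pow_mem (n : ℕ) : Equiv.optionCongr (Units.mulLeft (ZMod.unitOfCoprime 2 (by norm_num : Nat.Coprime 2 23) ^ n)) ∈ Cfsg.M24 := by
  induction n with
  | zero =>
    convert Cfsg.M24.one_mem
    ext x y
    cases x <;> simp
  | succ n ih =>
    convert Cfsg.M24.mul_mem ih mul_two_mem
    ext x y
    cases x <;> simp [pow_succ, mul_assoc]

/-- Multiplication by a nonzero square residue modulo 23, fixing the extra point, lies in the group of the length-24 code. -/
theorem result (u : (ZMod 23)ˣ) (hu : IsSquare u) : Equiv.optionCongr (Units.mulLeft u) ∈ Cfsg.M24 := by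
  obtain ⟨r, rfl⟩ := hu
  have h : ∀ x : ZMod 23, x ≠ 0 → ∃ n : Fin 11, x * x = 2 ^ (n : ℕ) := by decide +kernel
  obtain ⟨n, hn⟩ := h r (by
    have : Fact (Nat.Prime 23) := ⟨by norm_num⟩
    exact r.ne_zero)
  have : r * r = ZMod.unitOfCoprime 2 (by norm_num : Nat.Coprime 2 23) ^ (n : ℕ) := by
    ext; simpa using hn
  rw [this]; exact pow_mem n

end Cfsg.Agent.S0371
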