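import Cfsg.Statements.S0384
import Cfsg.Agent.Lib.Golay.More

set_option autoImplicit false
open scoped Pointwise
open Cfsg

namespace Cfsg.Agent.S0384

/-- A dodecad stabiliser is sharply 5-transitive on the dodecad. -/
theorem result (d : Finset Cfsg.GolayPt) (hd : d ∈ Cfsg.dodecads) (x y : Fin 5 ↪ Cfsg.GolayPt) (hx : ∀ i, x i ∈ d) (hy : ∀ i, y i ∈ d) : ∃! g : MulAction.stabilizer Cfsg.M24 d, ∀ i, ((g : Cfsg.M24) : Equiv.Perm Cfsg.GolayPt) (x i) = y i := by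
  obtain ⟨g, hg, hgd, e⟩ := Cfsg.Lib.Golay.dodecad_tuple_trans hd le_rfl x y x.injective y.injective hx hy
  refine ⟨⟨⟨g, hg⟩, hgd⟩, e, fun h hh => ?_⟩
  have h1 : ((h : Cfsg.M24) : Equiv.Perm Cfsg.GolayPt) • d = d := h.2
  have : g⁻¹ * ((h : Cfsg.M24) : Equiv.Perm Cfsg.GolayPt) = 1 := by
    refine Cfsg.Lib.Golay.eq_one_of_fix_five hd x x.injective hx
      (Cfsg.M24.mul_mem (Cfsg.M24.inv_mem hg) h.1.2) ?_ fun i => ?_
    · rw [mul_smul, h1, inv_smul_eq_iff, hgd]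
    · rw [Equiv.Perm.mul_apply, hh i, Equiv.Perm.inv_eq_iff_eq, e i]
  exact Subtype.ext (Subtype.ext (inv_mul_eq_one.mp this).symm)

end Cfsg.Agent.S0384
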