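import Cfsg.Statements.S0385
import Cfsg.Agent.Lib.Golay.More

set_option autoImplicit false
open Cfsg

namespace Cfsg.Agent.S0385

/-- The 6-point intersections of octads with a fixed dodecad form a Steiner system S(5, 6, 12) on the dodecad. -/
theorem result (d : Finset Cfsg.GolayPt) (hd : d ∈ Cfsg.dodecads) : Cfsg.IsSteinerSystem 5 6 {h : Finset {p : Cfsg.GolayPt // p ∈ d} | ∃ o ∈ Cfsg.octads, (o ∩ d).card = 6 ∧ h = Finset.subtype (fun p => p ∈ d) o} := by
  have hsub : ∀ (o : Finset Cfsg.GolayPt) (s : Finset {p : Cfsg.GolayPt // p ∈ d}),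
      s ⊆ Finset.subtype (fun p => p ∈ d) o ↔ s.map (Function.Embedding.subtype _) ⊆ o := by
    intro o s
    constructor
    · intro h x hx
      obtain ⟨y, hy, rfl⟩ := Finset.mem_map.mp hx
      exact Finset.mem_subtype.mp (h hy)
    · intro h x hx
      exact Finset.mem_subtype.mpr (h (Finset.mem_map_of_mem _ hx))
  constructor
  · rintro _ ⟨o, -, h6, rfl⟩
    rw [Finset.card_subtype, Finset.filter_mem_eq_inter, h6]
  · intro s hs
    obtain ⟨o, ⟨ho, hso⟩, huniq⟩ := Cfsg.Lib.Golay.octads_steiner.2 (s.map (Function.Embedding.subtype _))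
      (by rw [Finset.card_map, hs])
    have h5 : 5 ≤ (o ∩ d).card := by
      rw [← hs, ← Finset.card_map (Function.Embedding.subtype _)]
      refine Finset.card_le_card (Finset.subset_inter hso fun x hx => ?_)
      obtain ⟨y, -, rfl⟩ := Finset.mem_map.mp hx
      exact y.2
    have h6 := Cfsg.Lib.Golay.card_inter_octad_dodecad ho hd
    refine ⟨_, ⟨⟨o, ho, by omega, rfl⟩, (hsub o s).mpr hso⟩, ?_⟩
    rintro _ ⟨⟨o', ho', -, rfl⟩, h⟩
    rw [huniq o' ⟨ho', (hsub o' s).mp h⟩]

end Cfsg.Agent.S0385
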