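import Cfsg.Statements.S0401
import Cfsg.Agent.Lib.Leech.Trans

set_option autoImplicit false
open Cfsg

namespace Cfsg.Agent.S0401

/-- Automorphisms of the lattice act transitively on vectors of sum of squares 48. -/
theorem result (v w : Cfsg.leechLattice) (hv : Cfsg.sqNorm (v : Cfsg.GolayPt → ℤ) = 48) (hw : Cfsg.sqNorm (w : Cfsg.GolayPt → ℤ) = 48) : ∃ g : Cfsg.Co0, g • v = w := by
  obtain ⟨g, hg⟩ := Cfsg.Lib.Leech.trans48 hv
  obtain ⟨g', hg'⟩ := Cfsg.Lib.Leech.trans48 hw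
  exact ⟨g'⁻¹ * g, by rw [mul_smul, hg, ← hg', inv_smul_smul]⟩

end Cfsg.Agent.S0401
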