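import Cfsg.Statements.S0402
import Cfsg.Agent.Lib.Leech.SimpleC

set_option autoImplicit false
open Cfsg

namespace Cfsg.Agent.S0402

/-- Stabiliser of a minimal vector is simple of order 42305421312000. -/
theorem result (v : Cfsg.leechLattice) (hv : Cfsg.sqNorm (v : Cfsg.GolayPt → ℤ) = 32) : Cfsg.IsCo2 (MulAction.stabilizer Cfsg.Co0 v) := by
  exact ⟨Cfsg.Lib.Leech.simple_co2 hv, Cfsg.Lib.Leech.card_co2 hv⟩

end Cfsg.Agent.S0402
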