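import Cfsg.Statements.S0406
import Cfsg.Agent.Lib.Leech.UniqueC

set_option autoImplicit false
open Matrix
open Cfsg

namespace Cfsg.Agent.S0406

/-- A rank-24 even lattice with no roots and the stated numbers of vectors of norms 4, 6, 8 is isomorphic to the Leech lattice. -/
theorem result (B : Matrix (Fin 24) (Fin 24) ℤ) (hsymm : B.IsSymm) (hpos : ∀ x : Fin 24 → ℤ, x ≠ 0 → 0 < x ⬝ᵥ (B *ᵥ x)) (heven : ∀ x : Fin 24 → ℤ, (2 : ℤ) ∣ x ⬝ᵥ (B *ᵥ x)) (h2 : ∀ x : Fin 24 → ℤ, x ⬝ᵥ (B *ᵥ x) ≠ 2) (h4 : {x : Fin 24 → ℤ | x ⬝ᵥ (B *ᵥ x) = 4}.ncard = 196560) (h6 : {x : Fin 24 → ℤ | x ⬝ᵥ (B *ᵥ x) = 6}.ncard = 16773120) (h8 : {x : Fin 24 → ℤ | x ⬝ᵥ (B *ᵥ x) = 8}.ncard = 398034000) : ∃ f : (Fin 24 → ℤ) ≃+ Cfsg.leechLattice, ∀ x : Fin 24 → ℤ, Cfsg.sqNorm ((f x : Cfsg.leechLattice) : Cfsg.GolayPt → ℤ) = 8 * (x ⬝ᵥ (B *ᵥ x)) := by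
  have hb : ∀ x y : Fin 24 → ℤ, Matrix.toBilin' B x y = x ⬝ᵥ (B *ᵥ y) := fun x y =>
    Matrix.toBilin'_apply' B x y
  have H : Cfsg.Lib.Leech.LeechLike (Matrix.toBilin' B) (AddEquiv.refl (Fin 24 → ℤ)) :=
    { symm := fun x y => by
        rw [hb, hb, Matrix.dotProduct_mulVec, ← Matrix.mulVec_transpose, hsymm.eq, dotProduct_comm]
      pos := fun x hx => by rw [hb]; exact hpos x hx
      even := fun x => by rw [hb]; exact heven x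
      no2 := fun x => by rw [hb]; exact h2 x
      h4 := by simpa only [hb] using h4
      h6 := by simpa only [hb] using h6
      h8 := by simpa only [hb] using h8 }
  obtain ⟨v, hv⟩ := Set.nonempty_of_ncard_ne_zero (s := {x | Matrix.toBilin' B x x = 8})
    (by rw [H.h8]; norm_num)
  obtain ⟨f, hf, -⟩ := H.exists_iso hv
  exact ⟨f, fun x => by rw [← hb]; exact hf x⟩

end Cfsg.Agent.S0406
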