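import Cfsg.Statements.S0434
import Cfsg.Agent.Lib.OrderChar.M11

set_option autoImplicit false
open Cfsg

namespace Cfsg.Agent.S0434

/-- a polycyclic sequence for the normaliser -/
def pcs : List (ℕ × ℕ) :=
  [(486073779993727295785104656607348768, 2), (796016564181052753634443650776041600, 8),
      (319920273256852664526877278293074112, 3), (316312581583819037724439905500868672, 3)]

open Cfsg.Lib.PC in
theorem key : ∀ c ∈ pcs, ∀ d ∈ pcs.drop 2, ∃ e < 9,
    comp 5 24 c.1 d.1 = comp 5 24 (evc 5 24 (pcs.drop 2) e) c.1 := by decide +kernel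

open Cfsg.Lib Cfsg.Lib.PC Cfsg.Lib.Golay Subgroup in
theorem concrete : ∃ P L : Subgroup (stabG [340831] 1), Nat.card P = 9 ∧ Nat.card L = 144 ∧
    L ≤ normalizer (P : Set (stabG [340831] 1)) := by
  obtain ⟨l, h1, h2⟩ := exists_repL (E := E) (k := 5) (H := stabG [340831] 1) pcs
    (fun c hc => by
      simp only [pcs, List.mem_cons, List.not_mem_nil, or_false] at hc
      rcases hc with rfl | rfl | rfl | rfl <;>
        exact I_stabG (I_M24 (by decide +kernel)) (by decide +kernel))
  have h3 := h1.isPC le32 (cert := [(0, [3, 16, 24]), (0, [7, 4]), (0, [1]), (0, [])])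
    (by decide +kernel)
  have h4 := h1.card_gen le32 h3 (by decide +kernel)
  have h5 := (h1.drop 2).card_gen le32 (h3.drop 2) (by decide +kernel)
  have h6 : gen (l.drop 2) ≤ gen l := gen_le_iff.mpr fun x hx => mem_gen_of_mem (List.mem_of_mem_drop hx)
  have h7 : gen l ≤ normalizer (gen (l.drop 2) : Set (Equiv.Perm GolayPt)) := by
    refine gen_le_iff.mpr fun x hx => mem_normalizer_fintype fun n hn => ?_
    refine (show gen (l.drop 2) ≤ (gen (l.drop 2)).comap (MulAut.conj x.1).toMonoidHom from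
      gen_le_iff.mpr fun y hy => ?_) hn
    obtain ⟨c, hc, hc'⟩ := h1.exists_code hx
    obtain ⟨d, hd, hd'⟩ := (h1.drop 2).exists_code hy
    obtain ⟨e, -, he⟩ := key c hc d hd
    have h8 := (hc'.comp hd').unique (by rw [he]; exact ((h1.drop 2).evc le32 e).comp hc')
    change x.1 * y.1 * x.1⁻¹ ∈ gen (l.drop 2)
    rw [h8, mul_inv_cancel_right]
    exact ev_mem_gen _ _
  refine ⟨(gen (l.drop 2)).subgroupOf _, (gen l).subgroupOf _, ?_, ?_, ?_⟩
  · rw [Nat.card_congr (subgroupOfEquivOfLe (h6.trans h2)).toEquiv, h5]; rfl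
  · rw [Nat.card_congr (subgroupOfEquivOfLe h2).toEquiv, h4]; rfl
  · rw [← subgroupOf_normalizer_eq (h6.trans h2)]
    exact subgroupOf_mono _ h7

/-- Sylow 3-normalisers in a simple group of order 7920 have order 144 (so there are 55 Sylow 3-subgroups). -/
theorem result {G : Type*} [Group G] [Finite G] (hG : Cfsg.IsM11 G) (P : Sylow 3 G) : Nat.card (Subgroup.normalizer ((P : Subgroup G) : Set G)) = 144 := by
  have := hG.1
  obtain ⟨e⟩ := Cfsg.Lib.OC.M11.equiv hG.2
  obtain ⟨Q, L, h1, h2, h3⟩ := concrete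
  have h4 : Nat.card (Q.map e.symm.toMonoidHom) = 3 ^ 2 := by
    rw [Subgroup.card_map_of_injective e.symm.injective, h1]; rfl
  have h5 : ¬ 3 ∣ (Q.map e.symm.toMonoidHom).index := by
    have := (Q.map e.symm.toMonoidHom).index_mul_card
    rw [h4, hG.2] at this
    omega
  have h6 := ((IsPGroup.of_card h4).toSylow h5).card_eq_index_normalizer
  have h7 : 144 ∣ Nat.card (Subgroup.normalizer
      ((Q.map e.symm.toMonoidHom : Subgroup G) : Set G)) := by
    rw [← h2, ← Subgroup.card_map_of_injective (f := e.symm.toMonoidHom) e.symm.injective]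
    exact Subgroup.card_dvd_of_le ((Subgroup.map_mono h3).trans (Subgroup.le_normalizer_map _))
  have h8 := (Subgroup.normalizer ((Q.map e.symm.toMonoidHom : Subgroup G) : Set G)).index_mul_card
  have h9 := (Subgroup.normalizer ((P : Subgroup G) : Set G)).index_mul_card
  have h10 := card_sylow_modEq_one 3 G
  have h11 := Cfsg.Lib.sm_card_sylow_ne_one (p := 3) (Cfsg.Lib.OC.M11.nc hG.2) (by rw [hG.2]; norm_num)
  obtain ⟨m, hm⟩ := h7
  erw [← h6] at h8
  erw [← P.card_eq_index_normalizer] at h9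
  rw [hm, hG.2] at h8
  rw [hG.2] at h9
  have key : ∀ n ∈ Nat.divisors 55, n % 3 = 1 % 3 → n ≠ 1 → n = 55 := by decide
  rw [key _ (Nat.mem_divisors.mpr ⟨⟨m, by linarith⟩, by norm_num⟩) h10 h11] at h9
  omega

end Cfsg.Agent.S0434
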