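import Cfsg.Statements.S0435
import Cfsg.Agent.Lib.OrderChar.M11
import Cfsg.Agent.Lib.Golay.M11L33

set_option autoImplicit false
open Cfsg

namespace Cfsg.Agent.S0435

/-- Involution centralisers in a simple group of order 7920 have order 48. -/
theorem result {G : Type*} [Group G] [Finite G] (hG : Cfsg.IsM11 G) (x : G) (hx : orderOf x = 2) : Nat.card (Subgroup.centralizer ({x} : Set G)) = 48 := by
  have := hG.1
  obtain ⟨e⟩ := Cfsg.Lib.OC.M11.equiv hG.2
  obtain ⟨l, z, h1, h2⟩ := Cfsg.Lib.Golay.invData_M11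
  obtain ⟨f⟩ := Cfsg.Lib.PC.nonempty_centralizer_equiv e x
  rw [Nat.card_congr f.toEquiv, Cfsg.Lib.sm_card_centralizer_of_isConj
    (h2.conj (e x) (by rw [MulEquiv.orderOf_eq, hx])), h2.cent,
    Nat.card_congr (Subgroup.subgroupOfEquivOfLe h2.le).toEquiv, h2.card, h1.rad]
  rfl

end Cfsg.Agent.S0435
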