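import Cfsg.Statements.S0592
import Cfsg.Agent.Lib.Quad.TwoQuad

set_option autoImplicit false
open Cfsg

namespace Cfsg.Agent.S0592

/-- Two quadratically acting generators of a linear group that is not a p-group, with the p'-part of the order of their product dividing q - 1, give a homomorphism onto a subgroup of SL(2, q) that is not a p-group. -/
theorem result {K : Type*} [Field K] [Fintype K] {p : ℕ} [Fact p.Prime] [CharP K p] {W : Type*} [AddCommGroup W] [Module K W] [FiniteDimensional K W] [Finite W] [Nontrivial W] (H : Subgroup (W ≃ₗ[K] W)) (a b : W ≃ₗ[K] W) (hH : H = Subgroup.closure {a, b}) (ha : ∀ w : W, a (a w - w) = a w - w) (hb : ∀ w : W, b (b w - w) = b w - w) (hnp : ¬ IsPGroup p H) (hk : ∃ e k : ℕ, orderOf (a * b) = p ^ e * k ∧ k ∣ Fintype.card K - 1) : ∃ φ : H →* Matrix.SpecialLinearGroup (Fin 2) K, ¬ IsPGroup p φ.range := by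
  classical
  have h1 : a ∈ H := hH ▸ Subgroup.subset_closure (by simp)
  have h2 : b ∈ H := hH ▸ Subgroup.subset_closure (by simp)
  let ρ : H →* Module.End K W := LinearEquiv.automorphismGroup.toLinearMapMonoidHom.comp H.subtype
  have hs : Subgroup.closure ({⟨a, h1⟩, ⟨b, h2⟩} : Set H) = ⊤ := by
    apply Subgroup.map_injective H.subtype_injective
    rw [MonoidHom.map_closure, Set.image_pair, ← MonoidHom.range_eq_map, Subgroup.range_subtype]
    exact hH.symm
  have hq : ∀ c : H, (∀ w : W, c.1 (c.1 w - w) = c.1 w - w) → (ρ c - 1) * (ρ c - 1) = 0 := by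
    intro c hc
    ext w
    exact sub_eq_zero.mpr (hc w)
  obtain ⟨e, k, hek, r, hr⟩ := hk
  have hq1 : 1 < Fintype.card K := Fintype.one_lt_card
  have hsp : (Polynomial.X ^ Fintype.card K - Polynomial.X : Polynomial K).Splits := by
    rw [Polynomial.splits_iff_card_roots, FiniteField.roots_X_pow_card_sub_X,
      FiniteField.X_pow_card_sub_X_natDegree_eq K hq1]
    rfl
  have hmon : (Polynomial.X ^ Fintype.card K - Polynomial.X : Polynomial K).Monic :=
    Polynomial.monic_X_pow_sub (by rw [Polynomial.degree_X]; exact_mod_cast hq1)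
  have : CharP (Module.End K W) p := charP_of_injective_algebraMap (algebraMap K _).injective p
  rcases Lib.Quad.two_quadratic_dichotomy (p := p) ρ hs (hq _ ha) (hq _ hb) (hmon.pow (n := p ^ e))
    (hsp.pow _) (by
      rw [map_pow, map_sub, map_pow, Polynomial.aeval_X,
        sub_pow_char_pow_of_commute _ _ (Commute.pow_self _ _), sub_eq_zero, ← pow_mul, ← map_pow,
        ← map_pow]
      congr 1
      apply Subtype.ext
      change (a * b) ^ _ = (a * b) ^ _
      have h3 : Fintype.card K = k * r + 1 := by omega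
      rw [h3, show (k * r + 1) * p ^ e = p ^ e * k * r + p ^ e by ring, pow_add, pow_mul, ← hek,
        pow_orderOf_eq_one, one_pow, one_mul]) with h | ⟨l, hl, φ, h3, h4⟩
  · refine absurd (fun g => ?_) hnp
    obtain ⟨k, hk⟩ := h g
    refine ⟨k, Subtype.ext (LinearEquiv.toLinearMap_injective ?_)⟩
    rw [← map_pow] at hk
    exact hk
  · exact ⟨φ, Lib.Quad.not_isPGroup_of_upT_loT one_ne_zero hl ⟨_, h3⟩ ⟨_, h4⟩⟩

end Cfsg.Agent.S0592
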