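import Cfsg.Statements.S0594
import Cfsg.Agent.Lib.Quad.Stab

set_option autoImplicit false
open Cfsg

namespace Cfsg.Agent.S0594

/-- For odd p, two quadratic generators of a faithful group that is not a p-group, one of which acts nontrivially on a normal subgroup of order prime to p, force p = 3 and a section isomorphic to SL(2,3). -/
theorem result {G : Type*} [Group G] [Finite G] {p : ℕ} [Fact p.Prime] (hp : p ≠ 2) (V H : Subgroup G) (hV : Cfsg.IsElementaryAbelian p V) (hHV : H ≤ Subgroup.normalizer (V : Set G)) (hf : H ⊓ Subgroup.centralizer (V : Set G) = ⊥) (a b : G) (hab : H = Subgroup.closure {a, b}) (ha : ⁅⁅V, Subgroup.zpowers a⁆, Subgroup.zpowers a⁆ = ⊥) (hb : ⁅⁅V, Subgroup.zpowers b⁆, Subgroup.zpowers b⁆ = ⊥) (hnp : ¬ IsPGroup p H) (Q : Subgroup G) (hQH : Q ≤ H) (hQn : H ≤ Subgroup.normalizer (Q : Set G)) (hQ : (Nat.card Q).Coprime p) (hQa : ⁅Q, Subgroup.zpowers a⁆ ≠ ⊥) : p = 3 ∧ ∃ (K L : Subgroup G) (hL :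 (L.subgroupOf K).Normal), K ≤ H ∧ Nonempty ((K ⧸ L.subgroupOf K) ≃* Matrix.SpecialLinearGroup (Fin 2) (ZMod 3)) := by
  obtain ⟨M, _, _, ⟨m⟩⟩ := Lib.Quad.exists_conjModel hV hHV
  have := m.finite
  have h1 : a ∈ H := hab ▸ Subgroup.subset_closure (by simp)
  have hN := Subgroup.normal_subgroupOf_of_le_normalizer hQn
  have hx : ∃ x ∈ Q, x * a ≠ a * x := by
    by_contra hcon
    push Not at hcon
    apply hQa
    rw [Subgroup.commutator_comm, Subgroup.commutator_eq_bot_iff_le_centralizer, Subgroup.zpowers_le]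
    exact fun x hx => hcon x hx
  obtain ⟨x, hx, hxa⟩ := hx
  obtain ⟨h3, ψ, hψ⟩ := Lib.Quad.three_of_quadratic_conj m.rep hp (m.rep_injective hf)
    (m.quadratic ⟨a, h1⟩ ha) (Q.subgroupOf H) ⊥ IsPGroup.of_bot hQ (fun r hr => Subtype.ext
      (congrArg (fun z : Q => (z : G)) (pow_card_eq_one' (x := (⟨r, hr⟩ : Q))))) (x := ⟨x, hQH hx⟩) hx (by
      intro hK
      obtain ⟨k, hk⟩ := hK ⟨(⟨a, h1⟩ : H)⁻¹ * (⟨x, hQH hx⟩ * ⟨a, h1⟩ * (⟨x, hQH hx⟩ : H)⁻¹),
        mul_mem (inv_mem (Subgroup.subset_closure (by simp))) (Subgroup.subset_closure (by simp))⟩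
      have h4 : (a⁻¹ * (x * a * x⁻¹)) ^ p ^ k = 1 := congrArg (fun z => (z.1 : G)) hk
      have h5 : a⁻¹ * (x * a * x⁻¹) ∈ Q := by
        have := mul_mem ((Subgroup.mem_normalizer_iff''.mp (hQn h1) x).mp hx) (inv_mem hx)
        simpa only [mul_assoc] using this
      have h6 : a⁻¹ * (x * a * x⁻¹) = 1 := by
        rw [← orderOf_eq_one_iff]
        exact Nat.eq_one_of_dvd_coprimes (hQ.pow_right k) (Subgroup.orderOf_dvd_natCard _ h5)
          (orderOf_dvd_of_pow_eq_one h4)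
      rw [inv_mul_eq_one, eq_mul_inv_iff_mul_eq] at h6
      exact hxa h6.symm)
  exact ⟨h3, Lib.Quad.exists_section_of_surjective ψ hψ⟩

end Cfsg.Agent.S0594
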