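import Cfsg.Statements.S0604
import Cfsg.Agent.Lib.Quad.Thompson

set_option autoImplicit false
open Cfsg

namespace Cfsg.Agent.S0604

/-- The Thompson subgroup of G is the join of the Thompson subgroups of its Sylow p-subgroups. -/
theorem result {G : Type*} [Group G] [Finite G] {p : ℕ} [Fact p.Prime] : Cfsg.thompsonSubgroup p G = ⨆ S : Sylow p G, Cfsg.thompsonSubgroupOf p (S : Subgroup G) := by
  exact Cfsg.Lib.Quad.thompson_eq_iSup_sylow

end Cfsg.Agent.S0604
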