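import Cfsg.Statements.S0618
import Cfsg.Agent.Lib.Quad.Holo

set_option autoImplicit false
open Cfsg

namespace Cfsg.Agent.S0618

/-- A p-separable group with trivial p'-core in which the Thompson factorization fails has p = 2 or 3, and J(G) induces on the normal closure of Ω₁(Z(S)) a group containing a normal SL(2, p). -/
theorem result {G : Type*} [Group G] [Finite G] {p : ℕ} [Fact p.Prime] (hsep : Cfsg.IsPSolvable p G) (hO : Cfsg.pPrimeCore p G = ⊥) (hnf : ¬ Cfsg.IsThompsonFactorizable p G) : (p = 2 ∨ p = 3) ∧ ∃ E : Subgroup G, Subgroup.centralizer ((⨆ S : Sylow p G, Cfsg.omegaOne p ((S : Subgroup G) ⊓ Subgroup.centralizer ((S : Subgroup G) : Set G))) : Set G) ≤ E ∧ E ≤ Cfsg.thompsonSubgroup p G ⊔ Subgroup.centralizer ((⨆ S : Sylow p G, Cfsg.omegaOne p ((S : Subgroup G) ⊓ Subgroup.centralizer ((S : Subgroup G) : Set G))) : Set G) ∧ Cfsg.thompsonSubgroup p G ⊔ Subgroup.centralizer ((⨆ S : Sylow p G, Cfsg.omegaOne p ((S : Subgroup G) ⊓ Subgroup.centralizer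 ((S : Subgroup G) : Set G))) : Set G) ≤ Subgroup.normalizer (E : Set G) ∧ ∃ hn : ((Subgroup.centralizer ((⨆ S : Sylow p G, Cfsg.omegaOne p ((S : Subgroup G) ⊓ Subgroup.centralizer ((S : Subgroup G) : Set G))) : Set G)).subgroupOf E).Normal, Nonempty ((↥E ⧸ (Subgroup.centralizer ((⨆ S : Sylow p G, Cfsg.omegaOne p ((S : Subgroup G) ⊓ Subgroup.centralizer ((S : Subgroup G) : Set G))) : Set G)).subgroupOf E) ≃* Matrix.SpecialLinearGroup (Fin 2) (ZMod p)) := by
  have hc := Lib.centralizer_pCore_le_of_isPSolvable hsep hO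
  obtain ⟨h1, E, h2, h3, h4, h5⟩ := Lib.Quad.exists_sl2_of_not_thompson_le hsep
    (Lib.Quad.ea_omegaZ_of_char hc) Lib.Quad.pCore_quotient_centralizer_omegaZ
    (fun h => hnf (Lib.Quad.factorizable_of_thompson_le h))
  have e : Subgroup.centralizer ((⨆ S : Sylow p G, Cfsg.omegaOne p ((S : Subgroup G) ⊓
      Subgroup.centralizer ((S : Subgroup G) : Set G))) : Set G) =
      Subgroup.centralizer (Lib.Quad.omegaZ p G : Set G) := by
    rw [Lib.Quad.omegaZ, Subgroup.iSup_eq_closure, Subgroup.centralizer_closure]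
    rfl
  rw [e]
  exact ⟨h1, E, h2, h3, h4, inferInstance, h5⟩

end Cfsg.Agent.S0618
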