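import Cfsg.Statements.S0621
import Cfsg.Agent.Lib.Quad.FFCoprime

set_option autoImplicit false
open Cfsg

namespace Cfsg.Agent.S0621

/-- Let K be p-separable with O_p'(K) = 1, normalized by an elementary abelian q-group X for a prime q not dividing the order of K. If the Thompson factorization fails in K, then p is 2 or 3 and the fixed points of X contain a plane W of order p² and a subgroup inducing SL(2, p) on it. -/
theorem result {G : Type*} [Group G] [Finite G] {p : ℕ} [Fact p.Prime] {q : ℕ} [Fact q.Prime] (K X : Subgroup G) (hXK : X ≤ Subgroup.normalizer (K : Set G)) (hX : Cfsg.IsElementaryAbelian q X) (hq : ¬ q ∣ Nat.card K) (hsep : Cfsg.IsPSolvable p ↥K) (hO : Cfsg.pPrimeCore p ↥K = ⊥) (hnf : ¬ Cfsg.IsThompsonFactorizable p ↥K) : (p = 2 ∨ p = 3) ∧ ∃ W D : Subgroup G, W ≤ K ⊓ Subgroup.centralizer (X : Set G) ∧ D ≤ K ⊓ Subgroup.centralizer (X : Set G) ∧ Cfsg.IsElementaryAbelian p W ∧ Nat.card W = p ^ 2 ∧ D ≤ Subgroup.normalizer (W : Set G) ∧ ∃ hn : ((Subgroup.centralizer (W : Set G)).subgroupOf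 D).Normal, Nonempty ((↥D ⧸ (Subgroup.centralizer (W : Set G)).subgroupOf D) ≃* Matrix.SpecialLinearGroup (Fin 2) (ZMod p)) := by
  obtain ⟨h1, W, D, h2, h3, h4, h5, h6, ψ, h7, h8⟩ :=
    (Lib.Quad.thompson_coprime_operator' hXK hX hq hsep hO).2
      (fun h => hnf (Lib.Quad.factorizable_of_thompson_le h))
  let e := D.equivMapOfInjective K.subtype K.subtype_injective
  have hk : (Subgroup.centralizer (W.map K.subtype : Set G)).subgroupOf (D.map K.subtype) =
      (ψ.comp e.symm.toMonoidHom).ker := by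
    ext x
    obtain ⟨d, rfl⟩ := e.surjective x
    rw [MonoidHom.mem_ker, MonoidHom.comp_apply, MulEquiv.coe_toMonoidHom, e.symm_apply_apply, h8]
    constructor
    · intro hd w hw
      exact Subtype.ext (hd _ ⟨w, hw, rfl⟩)
    · rintro hd _ ⟨w, hw, rfl⟩
      exact congrArg Subtype.val (hd w hw)
  have hn : ((Subgroup.centralizer (W.map K.subtype : Set G)).subgroupOf (D.map K.subtype)).Normal :=
    hk ▸ inferInstance
  refine ⟨h1, W.map K.subtype, D.map K.subtype,
    le_inf (Subgroup.map_subtype_le _) (Subgroup.map_le_iff_le_comap.mpr h2),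
    le_inf (Subgroup.map_subtype_le _) (Subgroup.map_le_iff_le_comap.mpr h3),
    Lib.Quad.ea_map _ h4, (Subgroup.card_map_of_injective K.subtype_injective).trans h5,
    (Subgroup.map_mono h6).trans (Subgroup.le_normalizer_map _), hn,
    ⟨(QuotientGroup.quotientMulEquivOfEq hk).trans
      (QuotientGroup.quotientKerEquivOfSurjective _ (h7.comp e.symm.surjective))⟩⟩

end Cfsg.Agent.S0621
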