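import Cfsg.Statements.S0624
import Cfsg.Agent.Lib.Quad.WS

set_option autoImplicit false
open Cfsg

namespace Cfsg.Agent.S0624

/-- The analogue of the ZJ-Theorem: in an action-p-stable group whose largest normal p-subgroup contains its centralizer, the characteristic subgroup W(S) of a Sylow p-subgroup S is normal. -/
theorem result {G : Type*} [Group G] [Finite G] {p : ℕ} [Fact p.Prime] (hst : Cfsg.IsActionPStable p G) (hc : Subgroup.centralizer (Cfsg.pCore p G : Set G) ≤ Cfsg.pCore p G) (S : Sylow p G) : (((Cfsg.stableNormalClosure p ↥(S : Subgroup G)).map (S : Subgroup G).subtype)).Normal := by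
  exact Cfsg.Lib.Quad.stableOf_normal hst hc S

end Cfsg.Agent.S0624
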