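import Cfsg.Statements.S0629
import Mathlib
import Cfsg.Agent.Lib.PGroup.Stable

set_option autoImplicit false
open Cfsg

namespace Cfsg.Agent.S0629

open Subgroup Cfsg.Lib

/-- A group in which the centralizer of a Sylow p-subgroup of O_{p',p}(G) is p-solvable is p-constrained. -/
theorem result {G : Type*} [Group G] [Finite G] {p : ℕ} [Fact p.Prime] (P : Sylow p ↥(Cfsg.pPrimePCore p G)) (hsol : Cfsg.IsPSolvable p ↥(Subgroup.centralizer (((P : Subgroup ↥(Cfsg.pPrimePCore p G)).map (Cfsg.pPrimePCore p G).subtype : Subgroup G) : Set G))) : Cfsg.IsPConstrained p G := by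
  rw [isPConstrained_iff]
  set f := QuotientGroup.mk' (Cfsg.pPrimeCore p G)
  have hc := (CoprimeAct.of_isPGroup (P.isPGroup'.map (Cfsg.pPrimePCore p G).subtype)
    not_dvd_card_pPrimeCore (le_normalizer_of_normal (H := Cfsg.pPrimeCore p G))).centralizer_map_mk'
  rw [map_sylow_pPrimePCore] at hc
  have h1 := isPSolvable_of_surjective _ (f.subgroupMap_surjective _) hsol
  rw [← hc] at h1
  set C := centralizer (Cfsg.pCore p (G ⧸ Cfsg.pPrimeCore p G) : Set (G ⧸ Cfsg.pPrimeCore p G))
  have hCs : C.IsSubnormal := Normal.isSubnormal inferInstance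
  have h2 : Cfsg.pPrimeCore p C = ⊥ := by
    rw [pPrimeCore_subgroup_eq_of_isSubnormal hCs, pPrimeCore_quotient_pPrimeCore, bot_subgroupOf]
  have h3 := centralizer_pCore_le_of_isPSolvable h1 h2
  rw [pCore_subgroup_eq_of_isSubnormal hCs] at h3
  intro x hx
  exact h3 (x := ⟨x, hx⟩) fun y hy => Subtype.ext (hx y hy)

end Cfsg.Agent.S0629
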