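import Cfsg.Statements.S0630
import Mathlib
import Cfsg.Agent.Lib.PGroup.Stable

set_option autoImplicit false
open Cfsg

namespace Cfsg.Agent.S0630

open Subgroup Cfsg.Lib

/-- p-constraint passes to and from the quotient by the largest normal subgroup of order prime to p. -/
theorem result {G : Type*} [Group G] [Finite G] {p : ℕ} [Fact p.Prime] : Cfsg.IsPConstrained p G ↔ Cfsg.IsPConstrained p (G ⧸ Cfsg.pPrimeCore p G) := by
  rw [isPConstrained_iff (G := G)]
  exact ⟨isPConstrained_of_centralizer_pCore_le,
    fun h => centralizer_pCore_le_of_isPConstrained h pPrimeCore_quotient_pPrimeCore⟩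

end Cfsg.Agent.S0630
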