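import Cfsg.Statements.S0633
import Cfsg.Agent.Lib.HH.Rep
import Cfsg.Agent.Lib.HH.Grp

set_option autoImplicit false
open Cfsg

namespace Cfsg.Agent.S0633

/-- Theorem B of Hall and Higman on the minimal polynomial of a p-element of order p^n in a p-solvable linear group on a nonzero vector space in characteristic p with no nontrivial normal p-subgroup: its degree is p^n, except when some p^n₀ - 1 (n₀ ≤ n) is a power of a prime q for which the Sylow q-subgroups are non-abelian, in which case the degree is at least p^(n-n₀)(p^n₀ - 1). -/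
theorem result {F : Type*} [Field F] {p : ℕ} [Fact p.Prime] [CharP F p] {V : Type*} [AddCommGroup V] [Module F V] [FiniteDimensional F V] [Nontrivial V] (H : Subgroup (V ≃ₗ[F] V)) [Finite H] (hsol : Cfsg.IsPSolvable p H) (hOp : Cfsg.pCore p H = ⊥) (x : V ≃ₗ[F] V) (hx : x ∈ H) (n : ℕ) (hn : orderOf x = p ^ n) (r : ℕ) (hr : minpoly F (x : Module.End F V) = (Polynomial.X - 1) ^ r) : r = p ^ n ∨ ∃ n₀ q m : ℕ, 1 ≤ n₀ ∧ n₀ ≤ n ∧ q.Prime ∧ 1 ≤ m ∧ p ^ n₀ - 1 = q ^ m ∧ (∀ Q : Sylow q H, ¬ IsMulCommutative Q) ∧ p ^ (n - n₀) * (p ^ n₀ - 1) ≤ r := by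
  let ρ : H →* Module.End F V := LinearEquiv.automorphismGroup.toLinearMapMonoidHom.comp H.subtype
  have hρ : Function.Injective ρ := fun a b h => Subtype.ext (LinearEquiv.toLinearMap_injective h)
  let x' : H := ⟨x, hx⟩
  have hx' : orderOf x' = p ^ n := by rw [← hn, ← Subgroup.orderOf_coe]
  have hX : (x : Module.End F V) ^ p ^ n = 1 := by
    change ρ x' ^ p ^ n = 1
    rw [← map_pow, ← hx', pow_orderOf_eq_one, map_one]
  have h0 : ((x : Module.End F V) - 1) ^ r = 0 := by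
    simpa [hr] using minpoly.aeval F (x : Module.End F V)
  have hle : r ≤ p ^ n := by
    have h1 : minpoly F (x : Module.End F V) ∣ (Polynomial.X - 1) ^ p ^ n := by
      apply minpoly.dvd
      simp [(Lib.HH.sub_one_pow_char p (x : Module.End F V) n).1, hX]
    rw [hr] at h1
    have h2 : (Polynomial.X - 1 : Polynomial F) = Polynomial.X - Polynomial.C 1 := by simp
    have := Polynomial.natDegree_le_of_dvd h1 (pow_ne_zero _ (h2 ▸ Polynomial.X_sub_C_ne_zero 1))
    simpa only [h2, Polynomial.natDegree_pow, Polynomial.natDegree_X_sub_C, mul_one] using this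
  rcases n with _ | e
  · left
    rcases r with _ | r
    · simp at h0
    · rw [pow_zero] at hle ⊢
      omega
  obtain ⟨q, Q, hq, hpq, hQ, hQ0, hxQ, hgen, hcl⟩ := Lib.HH.exists_special hsol hOp x' e hx'
  have := Fact.mk hq
  let σ : MulAut Q := Q.normalizerMonoidHom ⟨x', hxQ⟩
  have hσ : ∀ (j : ℕ) (g : Q), ((σ ^ j) g : H) = x' ^ j * g * (x' ^ j)⁻¹ := by
    intro j g
    rw [← map_pow]
    rfl
  obtain ⟨g, hg, hg1⟩ := (Subgroup.ne_bot_iff_exists_ne_one (H := Q)).mp hQ0 |>.elim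
    fun g h => (⟨g.1, g.2, fun h' => h (Subtype.ext h')⟩ : ∃ g ∈ Q, g ≠ 1)
  rcases Lib.HH.rep hpq hQ (fun a b c => Subtype.ext (hcl a a.2 b b.2 c c.2)) (ρ.comp Q.subtype)
    ⟨⟨g, hg⟩, fun h => hg1 (hρ (h.trans (map_one ρ).symm))⟩ (x : Module.End F V) σ
    (fun g => by
      change ρ x' * ρ g = ρ (σ g) * ρ x'
      have := hσ 1 g
      rw [pow_one, pow_one] at this
      rw [← map_mul, ← map_mul, this, inv_mul_cancel_right]) e hX
    (by
      ext g : 2
      rw [hσ, ← hx', pow_orderOf_eq_one]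
      simp)
    (fun S hS => by
      rw [eq_top_iff]
      intro g _
      obtain ⟨a, ha, hag⟩ := hgen (S.map Q.subtype) (fun g hg => ⟨_, hS ⟨g, hg⟩, by
        rw [map_mul, Subgroup.coe_subtype, hσ]; rfl⟩) g.2
      exact (Subtype.ext hag : a = g) ▸ ha) r h0 with h | ⟨h1, n₀, m, h2, h3, h4, h5, h6⟩
  · exact Or.inl (le_antisymm hle h)
  · refine Or.inr ⟨n₀, q, m, h2, h3, hq, h4, h5, fun P hP => h1 fun a b => ?_, h6⟩
    obtain ⟨P', hP'⟩ := hQ.exists_le_sylow
    have h7 := (P.equiv P').symm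
    apply Subtype.ext
    have h8 : (⟨a, hP' a.2⟩ : P') * ⟨b, hP' b.2⟩ = ⟨b, hP' b.2⟩ * ⟨a, hP' a.2⟩ :=
      h7.injective (by rw [map_mul, map_mul]; exact hP.is_comm.comm _ _)
    exact congrArg (fun z : P' => (z : H)) h8

end Cfsg.Agent.S0633
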