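import Cfsg.Statements.S0635
import Mathlib
import Cfsg.Agent.Lib.PGroup.Stable

set_option autoImplicit false
open Cfsg

namespace Cfsg.Agent.S0635

open Subgroup Cfsg.Lib
open scoped commutatorElement

/-- The p-length of a p-soluble group is at most the nilpotency class of its Sylow p-subgroups. -/
theorem result {G : Type*} [Group G] [Finite G] {p : ℕ} [Fact p.Prime] (hsol : Cfsg.IsPSolvable p G) (S : Sylow p G) : Cfsg.PLengthLE p (Group.nilpotencyClass ↥(S : Subgroup G)) G := by
  have hnil := S.isPGroup'.isNilpotent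
  have hle : ∀ (N : Subgroup G) [N.Normal] (K : Subgroup (G ⧸ N)),
      N ≤ K.comap (QuotientGroup.mk' N) := fun N _ K => by
    have := ker_le_comap (QuotientGroup.mk' N) K
    rwa [QuotientGroup.ker_mk'] at this
  have key : ∀ k : ℕ, (Subgroup.upperCentralSeries (S : Subgroup G) k).map (S : Subgroup G).subtype ≤
      (Cfsg.upperPSeries p G (2 * k)).1 := by
    intro k
    induction k with
    | zero => simp
    | succ k ih =>
      rintro _ ⟨x, hx, rfl⟩
      rw [show 2 * (k + 1) = 2 * k + 2 from rfl, pg_upperPSeries_even, mem_comap]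
      refine pg_upperPSeries_centralizer_le hsol k fun y hy => ?_
      obtain ⟨s, hs, rfl⟩ := pCore_le_sylow (S.mapSurjective (QuotientGroup.mk'_surjective _)) hy
      rw [eq_comm, ← commutatorElement_eq_one_iff_mul_comm, ← map_commutatorElement,
        QuotientGroup.mk'_apply, QuotientGroup.eq_one_iff, pg_upperPSeries_odd]
      refine hle _ _ (ih ⟨_, Subgroup.mem_upperCentralSeries_succ_iff.mp hx ⟨s, hs⟩, ?_⟩)
      simp [commutatorElement_def]
  have h1 := key (Group.nilpotencyClass (S : Subgroup G))
  rw [Subgroup.upperCentralSeries_nilpotencyClass, ← MonoidHom.range_eq_map, range_subtype] at h1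
  unfold Cfsg.PLengthLE
  rw [pg_upperPSeries_odd, pPrimeCore_eq_top_iff.mpr, comap_top]
  rw [← index_eq_card]
  exact ((Nat.Prime.coprime_iff_not_dvd Fact.out).mpr fun hd =>
    S.not_dvd_index (hd.trans (index_dvd_of_le h1))).symm

end Cfsg.Agent.S0635
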