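import Cfsg.Statements.S0642
import Mathlib
import Cfsg.Agent.Lib.PGroup.Omega

set_option autoImplicit false
open Cfsg

namespace Cfsg.Agent.S0642

open scoped commutatorElement

/-- Among finite 2-groups the regular ones are exactly the abelian ones. -/
theorem result {G : Type*} [Group G] [Finite G] (hG : IsPGroup 2 G) : Cfsg.IsRegularPGroup 2 G ↔ ∀ a b : G, a * b = b * a := by
  refine ⟨fun h a b => ?_, fun h => ⟨hG, fun a b n => ⟨1, one_mem _, ?_⟩⟩⟩
  · set H := Subgroup.closure ({a, b} : Set G) with hH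
    have ha : a ∈ H := Subgroup.subset_closure (by simp)
    have hb : b ∈ H := Subgroup.subset_closure (by simp)
    set K := Cfsg.powerClosure 2 1 ⁅H, H⁆ with hK
    have hHK : H ≤ Subgroup.normalizer (K : Set G) :=
      Cfsg.Lib.pg_le_normalizer_powerClosure (Subgroup.normalizer_commutator_ge_left H H)
    obtain ⟨c, hc, he⟩ := h.2 a b 1
    have hba : ⁅b, a⁆ ∈ K := by
      have e1 : b * a = a * b * (b * c * b⁻¹) := by
        have : a * (b * a) * b = a * (a * b * (b * c * b⁻¹)) * b := by
          calc a * (b * a) * b = (a * b) ^ 2 ^ 1 := by simp [pow_two, mul_assoc]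
            _ = _ := by rw [he]; simp [pow_two, mul_assoc]
        exact mul_left_cancel (mul_right_cancel this)
      have e2 : ⁅b, a⁆ = (a * b * b) * c * (a * b * b)⁻¹ := by
        rw [commutatorElement_def, e1]; group
      rw [e2]
      exact Cfsg.Lib.pg_conj_mem_of_mem_normalizer (hHK (mul_mem (mul_mem ha hb) hb)) hc
    have hle : ⁅H, H⁆ ≤ K := Cfsg.Lib.pg_commutator_closure_pair_le (hHK ha) (hHK hb)
      (Cfsg.Lib.pg_commutatorElement_mem_symm hba)
    by_contra hne
    have h1 : ⁅H, H⁆ ≠ ⊥ := fun h0 => hne (Cfsg.Lib.pg_commute_of_commutator_eq_bot h0 ha hb).eq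
    exact (Cfsg.Lib.pg_powerClosure_lt (hG.to_subgroup _) h1).not_ge hle
  · rw [mul_one, Commute.mul_pow (h a b)]

end Cfsg.Agent.S0642
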