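import Cfsg.Statements.S0644
import Mathlib
import Cfsg.Agent.Lib.PGroup.Regular

set_option autoImplicit false
open Cfsg

namespace Cfsg.Agent.S0644

/-- In a regular p-group the p^n-th powers of the elements of any subgroup H form a subgroup, whose derived subgroup is contained in the subgroup generated by the p^n-th powers of elements of the derived subgroup of H. -/
theorem result {G : Type*} [Group G] [Finite G] {p : ℕ} [Fact p.Prime] (hG : Cfsg.IsRegularPGroup p G) (H : Subgroup G) (n : ℕ) : {y : G | ∃ x ∈ H, y = x ^ (p ^ n)} = (Cfsg.powerClosure p n H : Set G) ∧ ⁅Cfsg.powerClosure p n H, Cfsg.powerClosure p n H⁆ ≤ Cfsg.powerClosure p n ⁅H, H⁆ := by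
  have hw := Cfsg.Lib.pg_weakRegular_of_isRegularPGroup hG
  constructor
  · ext y
    constructor
    · rintro ⟨x, hx, rfl⟩
      exact Cfsg.Lib.pg_pow_mem_powerClosure hx
    · intro hy
      obtain ⟨z, hz, rfl⟩ := hw.exists_pow_of_mem_powerClosure hG.1 n hy
      exact ⟨z, hz, rfl⟩
  · exact (Subgroup.commutator_mono le_rfl Cfsg.Lib.pg_powerClosure_le).trans
      (hw.commutator_powerClosure_le hG.1 n H)

end Cfsg.Agent.S0644
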