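import Cfsg.Statements.S0646
import Mathlib
import Cfsg.Agent.Lib.PGroup.CyclicIndex

set_option autoImplicit false
open Cfsg

namespace Cfsg.Agent.S0646

/-- Classification of non-abelian 2-groups with a cyclic maximal subgroup: dihedral, generalized quaternion, and for order at least 16 the modular group and the semidihedral group, each given by generators a (of index 2) and b with the stated relations. -/
theorem result {G : Type*} [Group G] [Finite G] (n : ℕ) (hn : 3 ≤ n) (hG : Nat.card G = 2 ^ n) (C : Subgroup G) (hC : IsCyclic C) (hCi : C.index = 2) (hna : ∃ x y : G, x * y ≠ y * x) : ∃ a b : G, orderOf a = 2 ^ (n - 1) ∧ b ∉ Subgroup.zpowers a ∧ ((b ^ 2 = 1 ∧ b * a * b⁻¹ = a⁻¹) ∨ (b ^ 2 = a ^ (2 ^ (n - 2)) ∧ b * a * b⁻¹ = a⁻¹) ∨ (4 ≤ n ∧ b ^ 2 = 1 ∧ b * a * b⁻¹ = a ^ (1 + 2 ^ (n - 2))) ∨ (4 ≤ n ∧ b ^ 2 = 1 ∧ b * a * b⁻¹ = a ^ (2 ^ (n - 2) - 1))) := by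
  obtain ⟨a, rfl⟩ := Cfsg.Lib.pg_exists_eq_zpowers_of_isCyclic hC
  obtain ⟨m, rfl⟩ := Nat.exists_eq_add_of_le' (show 2 ≤ n by omega)
  obtain ⟨b, h1, h2⟩ := Cfsg.Lib.pg_two_group_cyclic_index_two hG hCi hna
  refine ⟨a, b, Cfsg.Lib.pg_orderOf_eq_of_index (p := 2) (n := m + 1) hG hCi, h1, ?_⟩
  simp only [Nat.add_sub_cancel]
  rcases h2 with h | h | h | h
  · exact Or.inl h
  · exact Or.inr (Or.inl h)
  · exact Or.inr (Or.inr (Or.inl ⟨by omega, h.2.1, by rw [h.2.2, pow_add, pow_one]⟩))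
  · refine Or.inr (Or.inr (Or.inr ⟨by omega, h.2.1, ?_⟩))
    rw [h.2.2, inv_mul_eq_iff_eq_mul, ← pow_succ', Nat.sub_add_cancel Nat.one_le_two_pow]

end Cfsg.Agent.S0646
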