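import Cfsg.Statements.S0657
import Mathlib
import Cfsg.Agent.Lib.PGroup.QdSection

set_option autoImplicit false
open Cfsg

namespace Cfsg.Agent.S0657

open Subgroup Cfsg.Lib

/-- For odd p, a group that fails to be p-stable modulo its largest normal subgroup of order prime to p, and whose upper p-series does not stop there, has a section isomorphic to SL(2, p). -/
theorem result {G : Type*} [Group G] [Finite G] {p : ℕ} [Fact p.Prime] (hp : p ≠ 2) (hO : Cfsg.pPrimeCore p G < Cfsg.pPrimePCore p G) (hns : ¬ Cfsg.IsPStable p (G ⧸ Cfsg.pPrimeCore p G)) : ∃ (K L : Subgroup G) (hL : (L.subgroupOf K).Normal), K ≤ ⊤ ∧ Nonempty ((K ⧸ L.subgroupOf K) ≃* Matrix.SpecialLinearGroup (Fin 2) (ZMod p)) := by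
  have h0 : pCore p (G ⧸ pPrimeCore p G) ≠ ⊥ := fun h => hO.ne' (by
    rw [pPrimePCore, h, MonoidHom.comap_bot, QuotientGroup.ker_mk'])
  have key : PgHasSection (qd p) (G ⧸ pPrimeCore p G) := by
    by_contra hfree
    refine hns ⟨(Fact.out : p.Prime).odd_of_ne_two hp, h0, fun A P _ hP _ _ hn hq => ?_⟩
    rw [pPrimeCore_quotient_pPrimeCore, bot_sup_eq] at hn
    rw [pg_stable_conclusion_iff, normalizer_eq_top]
    intro a ha _
    rw [← pg_mk_mem_pCore_iff]
    by_contra h
    exact hfree (pg_hasSection_qd_of_not_stable hp P hP (le_bot_iff.mp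
      ((commutator_mono (commutator_mono le_rfl (zpowers_le.mpr ha)) (zpowers_le.mpr ha)).trans
        hq.le)) h)
  obtain ⟨K, L, h1, h2⟩ := ((pg_hasSection_sl2_of_qd key).of_surjective _
    (QuotientGroup.mk'_surjective _)).exists_quotient
  exact ⟨K, L, h1, le_top, h2⟩

end Cfsg.Agent.S0657
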