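import Cfsg.Statements.S0662
import Mathlib
import Cfsg.Agent.Lib.PGroup.Small

set_option autoImplicit false
open Cfsg

namespace Cfsg.Agent.S0662

open Subgroup Cfsg.Lib
open scoped commutatorElement

theorem card_subgroups_mul {Q : Type*} [Group Q] [Finite Q] {p : ℕ} [hp : Fact p.Prime]
    (h : ∀ x : Q, x ^ p = 1) :
    Nat.card {H : Subgroup Q // Nat.card H = p} * (p - 1) = Nat.card Q - 1 := by
  classical
  have := Fintype.ofFinite Q
  have := Fintype.ofFinite (Subgroup Q)
  have h1 := Finset.card_eq_sum_card_fiberwise (s := Finset.univ.erase (1 : Q))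
    (t := Finset.univ.filter fun H : Subgroup Q => Nat.card H = p) (f := fun x => zpowers x)
    (fun x hx => by
      exact Finset.mem_coe.mpr (Finset.mem_filter.mpr ⟨Finset.mem_univ _, by
        rw [Nat.card_zpowers]; exact orderOf_eq_prime (h x) (Finset.mem_erase.mp hx).1⟩))
  rw [Finset.card_erase_of_mem (Finset.mem_univ _), Finset.card_univ, ← Nat.card_eq_fintype_card,
    Finset.sum_const_nat (m := p - 1) fun H hH => ?_] at h1
  · rw [h1, Nat.subtype_card (Finset.univ.filter fun H : Subgroup Q => Nat.card H = p)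
      (fun H => by rw [Finset.mem_filter_univ])]
  · have hH' : Nat.card H = p := by simpa using hH
    have : (Finset.univ.erase (1 : Q)).filter (fun x => zpowers x = H) =
        (Finset.univ.filter (· ∈ H)).erase 1 := by
      ext x
      simp only [Finset.mem_filter, Finset.mem_erase, Finset.mem_univ, and_true, true_and,
        and_congr_right_iff]
      refine fun hx => ⟨fun e => e ▸ mem_zpowers x, fun hxH => eq_of_le_of_card_ge
        (zpowers_le.mpr hxH) ?_⟩
      rw [hH', Nat.card_zpowers, orderOf_eq_prime (h x) hx]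
    rw [this, Finset.card_erase_of_mem (by simp), ← hH',
      Nat.subtype_card (Finset.univ.filter (· ∈ H)) (by simp)]

/-- In a p-group of maximal class of order at least p³ the normal subgroups of index at least p² are exactly the terms of the lower central series, and there are exactly p + 1 normal subgroups of index p. -/
theorem result {G : Type*} [Group G] [Finite G] {p : ℕ} [Fact p.Prime] (n : ℕ) (hG : Nat.card G = p ^ n) (hcl : Group.nilpotencyClass G = n - 1) (hn : 3 ≤ n) : (∀ (N : Subgroup G) [N.Normal] (r : ℕ), 2 ≤ r → N.index = p ^ r → N = (⊤ : Subgroup G).lowerCentralSeries (r - 1)) ∧ Nat.card {N : Subgroup G // N.Normal ∧ N.index = p} = p + 1 := by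
  have hp : p.Prime := Fact.out
  have hP : IsPGroup p G := IsPGroup.of_card hG
  have := hP.isNilpotent
  set γ := (⊤ : Subgroup G).lowerCentralSeries with hγ
  have hγs : ∀ i, γ (i + 1) = ⁅γ i, ⊤⁆ := fun i => rfl
  have hne : ∀ i ≤ n - 2, γ i ≠ ⊥ := fun i hi h0 => by
    have := Subgroup.lowerCentralSeries_eq_bot_iff_nilpotencyClass_le.mp h0
    omega
  have hcardN : ∀ (N : Subgroup G) r, N.index = p ^ r → r ≤ n ∧ Nat.card N = p ^ (n - r) :=
    fun N r hr => by
      have h1 := N.card_mul_index
      rw [hr, hG] at h1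
      have h2 : r ≤ n := (Nat.pow_dvd_pow_iff_le_right hp.one_lt).mp (Dvd.intro_left _ h1)
      refine ⟨h2, Nat.eq_of_mul_eq_mul_right (pow_pos hp.pos r) ?_⟩
      rw [h1, ← pow_add, Nat.sub_add_cancel h2]
  have hlow : ∀ j ≤ n - 1, p ^ j ≤ Nat.card (γ (n - 1 - j)) := fun j hj => by
    induction j with
    | zero => exact Nat.card_pos
    | succ j ih =>
      have := pg_mul_card_le_of_lt (hP.to_subgroup _) (pg_commutator_lt (hP.to_subgroup _)
        (hP.to_subgroup ⊤) le_normalizer_of_normal (hne (n - 1 - (j + 1)) (by omega)))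
      rw [← hγs, show n - 1 - (j + 1) + 1 = n - 1 - j by omega] at this
      rw [pow_succ']
      exact (Nat.mul_le_mul_left p (ih (by omega))).trans this
  have hcomm : ∀ (N : Subgroup G) [N.Normal], IsMulCommutative (G ⧸ N) → γ 1 ≤ N :=
    fun N _ h => by
      rw [hγ, top_lowerCentralSeries_one]
      exact (Normal.quotient_commutative_iff_commutator_le).mp h
  have key : ∀ r, 2 ≤ r → ∀ (N : Subgroup G) [N.Normal], N.index = p ^ r → N = γ (r - 1) := by
    intro r hr
    induction r, hr using Nat.le_induction with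
    | base =>
      intro N _ hN
      refine (eq_of_le_of_card_ge (hcomm N ⟨⟨(IsPGroup.commGroupOfCardEqPrimeSq hN).mul_comm⟩⟩)
        ?_).symm
      have := hlow (n - 2) (by omega)
      rwa [show n - 1 - (n - 2) = 1 by omega, ← (hcardN N 2 hN).2] at this
    | succ r hr ih =>
      intro N _ hN
      obtain ⟨h1, h2⟩ := hcardN N _ hN
      obtain ⟨M, _, -, -, h3, h4⟩ := pg_exists_normal_step hP (K := N) (N := ⊤) (lt_top_iff_ne_top.mpr
        fun h => by
          rw [h, index_top] at hN
          exact absurd hN (Nat.one_lt_pow (by omega) hp.one_lt).ne)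
      have h5 : M.index = p ^ r := by
        have := M.card_mul_index
        rw [h3, h2, hG, ← pow_succ'] at this
        refine Nat.eq_of_mul_eq_mul_left (pow_pos hp.pos (n - (r + 1) + 1)) ?_
        rw [this, ← pow_add]
        congr 1; omega
      rw [ih M h5, ← hγs, show r - 1 + 1 = r by omega] at h4
      refine (eq_of_le_of_card_ge h4 ?_).symm
      have := hlow (n - (r + 1)) (by omega)
      rwa [show n - 1 - (n - (r + 1)) = r by omega, ← h2] at this
  refine ⟨fun N _ r hr hN => key r hr N hN, ?_⟩
  obtain ⟨M, _, -, hM⟩ := pg_exists_normal_le_card_eq hP ⊤ (n - 2) (by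
    rw [card_top, hG]; exact Nat.pow_le_pow_right hp.pos (Nat.sub_le n 2))
  have hMi : M.index = p ^ 2 := by
    have := M.card_mul_index
    rw [hM, hG, show n = n - 2 + 2 by omega, pow_add, Nat.add_sub_cancel] at this
    exact Nat.eq_of_mul_eq_mul_left (pow_pos hp.pos _) this
  have hMγ : M = γ 1 := key 2 le_rfl M hMi
  have hQ : Nat.card (G ⧸ M) = p ^ 2 := hMi
  have hnc : ¬ IsCyclic (G ⧸ M) := fun h => by
    have := pg_isCyclic_of_quotient_le_frattini M (by
      rw [hMγ, hγ, top_lowerCentralSeries_one]; exact pg_commutator_le_frattini hP)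
    refine hne 1 (by omega) ?_
    rw [hγ, top_lowerCentralSeries_one, _root_.commutator_def, commutator_self_eq_bot_iff]
    infer_instance
  have hexp : ∀ x : G ⧸ M, x ^ p = 1 := fun x => by
    obtain ⟨k, hk, e⟩ := (Nat.dvd_prime_pow hp).mp (hQ ▸ orderOf_dvd_natCard x)
    rw [← orderOf_dvd_iff_pow_eq_one, e]
    interval_cases k
    · simp
    · simp
    · exact absurd (isCyclic_of_orderOf_eq_card x (e.trans hQ.symm)) hnc
  have h1 := card_subgroups_mul hexp
  have h2 : Nat.card {N : Subgroup G // N.Normal ∧ N.index = p} =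
      Nat.card {H : Subgroup (G ⧸ M) // Nat.card H = p} := by
    have hle : ∀ N : Subgroup G, N.Normal → N.index = p → M ≤ N := fun N _ hN => by
      have := isCyclic_of_prime_card (α := G ⧸ N) hN
      rw [hMγ]
      exact hcomm N inferInstance
    have hidx : ∀ H : Subgroup (G ⧸ M), Nat.card H = p ↔ H.index = p := fun H => by
      have := H.card_mul_index
      rw [hQ, pow_two] at this
      exact ⟨fun h => Nat.eq_of_mul_eq_mul_left hp.pos (h ▸ this),
        fun h => Nat.eq_of_mul_eq_mul_right hp.pos (h ▸ this)⟩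
    symm
    refine Nat.card_eq_of_bijective (fun H => ⟨H.1.comap (QuotientGroup.mk' M), ?_⟩) ⟨?_, ?_⟩
    · have : (H.1.comap (QuotientGroup.mk' M)).index = p := by
        rw [index_comap_of_surjective _ (QuotientGroup.mk'_surjective M), (hidx _).mp H.2]
      exact ⟨pg_normal_of_index_eq hP this, this⟩
    · exact fun H H' e => Subtype.ext (comap_injective (QuotientGroup.mk'_surjective M)
        (congrArg Subtype.val e))
    · rintro ⟨N, hN1, hN2⟩
      have e : (N.map (QuotientGroup.mk' M)).comap (QuotientGroup.mk' M) = N :=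
        comap_map_eq_self (by rw [QuotientGroup.ker_mk']; exact hle N hN1 hN2)
      refine ⟨⟨N.map (QuotientGroup.mk' M), (hidx _).mpr ?_⟩, Subtype.ext e⟩
      rw [← index_comap_of_surjective _ (QuotientGroup.mk'_surjective M), e, hN2]
  rw [h2]
  rw [hQ, show p ^ 2 - 1 = (p + 1) * (p - 1) by rw [← Nat.sq_sub_sq, one_pow]] at h1
  exact Nat.eq_of_mul_eq_mul_right (Nat.sub_pos_of_lt hp.one_lt) h1

end Cfsg.Agent.S0662
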