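import Cfsg.Statements.S0663
import Mathlib
import Cfsg.Agent.Lib.PGroup.Small

set_option autoImplicit false
open Cfsg

namespace Cfsg.Agent.S0663

open Subgroup Cfsg.Lib

/-- A p-group acts uniserially on a p-group N of order p^n exactly when the iterated commutator chain from N has length n; in that case the chain terms are all the invariant subgroups of N and they are normal in N. -/
theorem result {L : Type*} [Group L] [Finite L] {p : ℕ} [Fact p.Prime] (N G : Subgroup L) (hN : IsPGroup p N) (hG : IsPGroup p G) (hGN : G ≤ Subgroup.normalizer (N : Set L)) (n : ℕ) (hn : Nat.card N = p ^ n) : ((∀ H : Subgroup L, H ≤ N → G ≤ Subgroup.normalizer (H : Set L) → H ≠ ⊥ → (⁅H, G⁆).relIndex H = p) ↔ Cfsg.iterCommutator N G (n - 1) ≠ ⊥ ∨ n = 0) ∧ ((∀ H : Subgroup L, H ≤ N → G ≤ Subgroup.normalizer (H : Set L) → H ≠ ⊥ → (⁅H, G⁆).relIndex H = p) → ∀ H : Subgroup L, H ≤ N → G ≤ Subgroup.normalizer (H : Set L) → (∃ i ≤ n, H = Cfsg.iterCommutator N G i) ∧ N ≤ Subgroup.normalizer (H : Set L)) := by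
  have hp : p.Prime := Fact.out
  set C := Cfsg.iterCommutator N G with hC
  have hC0 : C 0 = N := rfl
  have hCs : ∀ i, C (i + 1) = ⁅C i, G⁆ := fun i => rfl
  have hGC : ∀ i, G ≤ normalizer (C i : Set L) := fun i => by
    cases i with
    | zero => exact hGN
    | succ i => exact normalizer_commutator_ge_right _ _
  have hdec : ∀ i, C (i + 1) ≤ C i := fun i => le_normalizer_iff_commutator_le_left.mp (hGC i)
  have hCN : ∀ i, C i ≤ N := fun i => by
    induction i with
    | zero => exact le_rfl
    | succ i ih => exact (hdec i).trans ih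
  have hstep : ∀ i, C i ≠ ⊥ → p * Nat.card (C (i + 1)) ≤ Nat.card (C i) := fun i hi =>
    pg_mul_card_le_of_lt (hN.to_le (hCN i)) (pg_commutator_lt (hN.to_le (hCN i)) hG (hGC i) hi)
  have key : (∀ i ≤ n, Nat.card (C i) = p ^ (n - i)) → ∀ H : Subgroup L, H ≤ N →
      G ≤ normalizer (H : Set L) → ∃ i ≤ n, H = C i := by
    intro hcard H
    induction H using WellFoundedGT.induction with | ind H ih => ?_
    intro hHN hGH
    rcases hHN.eq_or_lt with rfl | hlt
    · exact ⟨0, n.zero_le, rfl⟩
    obtain ⟨M, h1, h2, h3, h4⟩ := pg_exists_invariant_step (hN.to_le inf_le_left) hG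
      (pg_le_normalizer_inf hGN (pg_le_normalizer_normalizer hGH)) (pg_lt_inf_normalizer hN hlt)
      inf_le_right hGH
    obtain ⟨i, hi, rfl⟩ := ih M h1 (h2.trans inf_le_left)
      (le_normalizer_iff_commutator_le_left.mpr (h4.trans h1.le))
    rw [hcard i hi] at h3
    have hi' : i < n := by
      by_contra h
      rw [Nat.sub_eq_zero_of_le (not_lt.mp h), pow_zero] at h3
      exact hp.ne_one (Nat.eq_one_of_mul_eq_one_right h3.symm)
    refine ⟨i + 1, hi', (eq_of_le_of_card_ge h4 ?_).symm⟩
    rw [← hCs, hcard _ hi']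
    rw [show n - i = n - (i + 1) + 1 by omega, pow_succ'] at h3
    exact (Nat.eq_of_mul_eq_mul_left hp.pos h3).ge
  have hU : (∀ H : Subgroup L, H ≤ N → G ≤ normalizer (H : Set L) → H ≠ ⊥ →
      (⁅H, G⁆).relIndex H = p) → ∀ i ≤ n, Nat.card (C i) = p ^ (n - i) := by
    intro h i hi
    induction i with
    | zero => exact hn
    | succ i ih =>
      have h1 := ih (by omega)
      have h2 := pg_card_eq_relIndex_mul_card (hdec i)
      rw [hCs, h _ (hCN i) (hGC i) (fun h0 => by
        rw [h0, card_bot] at h1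
        exact absurd h1.symm (Nat.one_lt_pow (by omega) hp.one_lt).ne'), h1,
        show n - i = n - (i + 1) + 1 by omega, pow_succ'] at h2
      exact (Nat.eq_of_mul_eq_mul_left hp.pos h2).symm
  refine ⟨⟨fun h => ?_, fun h H hHN hGH hH => ?_⟩, fun h H hHN hGH => ?_⟩
  · rcases n with _ | n
    · exact Or.inr rfl
    · refine Or.inl fun h0 => ?_
      have := hU h n n.le_succ
      rw [Nat.add_sub_cancel] at h0
      rw [h0, card_bot, Nat.add_sub_cancel_left, pow_one] at this
      exact hp.ne_one this.symm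
  · rcases n with _ | n
    · exact absurd (le_bot_iff.mp (hHN.trans (card_eq_one.mp hn).le)) hH
    have h := h.resolve_right n.succ_ne_zero
    rw [Nat.add_sub_cancel] at h
    have hne : ∀ i ≤ n, C i ≠ ⊥ := fun i hi h0 =>
      h (le_bot_iff.mp (h0 ▸ antitone_nat_of_succ_le hdec hi))
    have hup : ∀ i ≤ n + 1, Nat.card (C i) ≤ p ^ (n + 1 - i) := fun i hi => by
      induction i with
      | zero => exact hn.le
      | succ i ih =>
        have := (hstep i (hne i (by omega))).trans (ih (by omega))
        rw [show n + 1 - i = n + 1 - (i + 1) + 1 by omega, pow_succ'] at this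
        exact Nat.le_of_mul_le_mul_left this hp.pos
    have hlow : ∀ j ≤ n + 1, p ^ j ≤ Nat.card (C (n + 1 - j)) := fun j hj => by
      induction j with
      | zero => exact Nat.card_pos
      | succ j ih =>
        have := hstep (n + 1 - (j + 1)) (hne _ (by omega))
        rw [show n + 1 - (j + 1) + 1 = n + 1 - j by omega] at this
        rw [pow_succ']
        exact (Nat.mul_le_mul_left p (ih (by omega))).trans this
    have hcard : ∀ i ≤ n + 1, Nat.card (C i) = p ^ (n + 1 - i) := fun i hi => by
      refine le_antisymm (hup i hi) ?_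
      have := hlow (n + 1 - i) (by omega)
      rwa [show n + 1 - (n + 1 - i) = i by omega] at this
    obtain ⟨i, hi, rfl⟩ := key hcard H hHN hGH
    have hi' : i < n + 1 := by
      by_contra h'
      have := hcard i hi
      rw [Nat.sub_eq_zero_of_le (not_lt.mp h'), pow_zero] at this
      exact hH (card_eq_one.mp this)
    have h2 := pg_card_eq_relIndex_mul_card (hdec i)
    rw [hcard i hi, hcard _ hi', show n + 1 - i = n + 1 - (i + 1) + 1 by omega, pow_succ'] at h2
    exact (Nat.eq_of_mul_eq_mul_right (pow_pos hp.pos _) h2).symm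
  · have hcard := hU h
    obtain ⟨i, hi, rfl⟩ := key hcard H hHN hGH
    refine ⟨⟨i, hi, rfl⟩, ?_⟩
    obtain ⟨M, -, h1, h2, h3, h4⟩ := pg_exists_invariant_card_eq (K := ⊥) hN hG hGN bot_le
      le_normalizer_of_normal le_normalizer_of_normal (n - i) (by
        rw [card_bot, mul_one, hn]; exact Nat.pow_le_pow_right hp.pos (Nat.sub_le n i))
    obtain ⟨j, hj, rfl⟩ := key hcard M h1 h4
    rw [hcard j hj, card_bot, mul_one] at h2
    have := Nat.pow_right_injective hp.two_le h2
    obtain rfl : i = j := by omega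
    exact h3

end Cfsg.Agent.S0663
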