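import Cfsg.Statements.S0666
import Mathlib
import Cfsg.Agent.Lib.PGroup.FrobKernel
import Cfsg.Agent.Lib.PGroup.Omega

set_option autoImplicit false
open Cfsg

namespace Cfsg.Agent.S0666

open Subgroup Cfsg.Lib

/-- A Frobenius group acting on a nontrivial abelian group of order prime to that of its kernel, with the kernel acting without nontrivial fixed points, has a complement with a nontrivial fixed point. -/
theorem result {G : Type*} [Group G] [Finite G] (V F : Subgroup G) (hVab : IsMulCommutative V) (hV1 : V ≠ ⊥) (hFV : F ≤ Subgroup.normalizer (V : Set G)) (H : Subgroup ↥F) (hH : Cfsg.IsFrobeniusComplement H) (hcop : (Nat.card V).Coprime (Nat.card (Cfsg.frobeniusKernel H))) (hCK : V ⊓ Subgroup.centralizer (Subtype.val '' Cfsg.frobeniusKernel H : Set G) = ⊥) : V ⊓ Subgroup.centralizer ((H.map F.subtype : Subgroup G) : Set G) ≠ ⊥ := by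
  classical
  obtain ⟨K, hK, hKn⟩ := pg_frobenius_kernel hH
  rw [← hK] at hcop hCK
  have := Fintype.ofFinite F
  letI : CommGroup V := { (inferInstance : Group V) with mul_comm := hVab.is_comm.comm }
  let φ : F →* MulAut V := V.normalizerMonoidHom.comp (inclusion hFV)
  have hφ : ∀ (a : F) (v : V), (φ a v : G) = a * v * (a : G)⁻¹ := fun _ _ => rfl
  have hnorm : ∀ X : Subgroup F, V ⊓ centralizer (X.map F.subtype : Set G) = ⊥ →
      ∀ v : V, ∏ x : X, φ x v = 1 := fun X hX v => by
    have : ((∏ x : X, φ x v : V) : G) ∈ V ⊓ centralizer (X.map F.subtype : Set G) := by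
      refine mem_inf.mpr ⟨SetLike.coe_mem _, ?_⟩
      rintro _ ⟨y, hy, rfl⟩
      have : φ y (∏ x : X, φ x v) = ∏ x : X, φ x v := by
        rw [map_prod, ← Equiv.prod_comp (Equiv.mulLeft (⟨y, hy⟩ : X)) (fun x : X => φ x v)]
        exact Finset.prod_congr rfl fun x _ => by simp
      have := congrArg Subtype.val this
      rw [hφ, mul_inv_eq_iff_eq_mul] at this
      exact this
    rw [hX, mem_bot] at this
    exact Subtype.ext this
  intro hCH
  refine hV1 (eq_bot_iff.mpr fun v hv => ?_)
  have h1 : ∏ k : K, ∏ h : H, φ (k * h * (k : F)⁻¹) ⟨v, hv⟩ = 1 :=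
    Finset.prod_eq_one fun k _ => by
      have := congrArg (φ k) (hnorm H hCH (φ (k : F)⁻¹ ⟨v, hv⟩))
      rw [map_prod, map_one] at this
      simpa using this
  rw [Finset.prod_comm, ← Finset.mul_prod_erase _ _ (Finset.mem_univ 1),
    Finset.prod_eq_one (s := Finset.univ.erase 1) (fun h hh => by
      have hh1 : (h : F) ≠ 1 := fun e => (Finset.mem_erase.mp hh).1 (Subtype.ext e)
      let f : K → K := fun k => ⟨k * (h * (k : F)⁻¹ * (h : F)⁻¹),
        mul_mem k.2 (hKn.conj_mem _ (inv_mem k.2) _)⟩
      have hf : Function.Injective f := fun k k' e => by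
        have e' : (k : F) * (h * (k : F)⁻¹ * (h : F)⁻¹) = k' * (h * (k' : F)⁻¹ * (h : F)⁻¹) :=
          congrArg Subtype.val e
        have h2 : (k : F)⁻¹ * k' ∈ H := pg_mem_of_frobeniusComplement hH h.2 hh1 (by
          have : ((k : F)⁻¹ * k')⁻¹ * h * ((k : F)⁻¹ * k') = h := by
            calc _ = (k' : F)⁻¹ * (k * (h * (k : F)⁻¹ * (h : F)⁻¹)) * h * k' := by group
              _ = h := by rw [e']; group
          rw [this]; exact h.2)
        have h3 : (k : F)⁻¹ * k' ∈ Cfsg.frobeniusKernel H := hK ▸ mul_mem (inv_mem k.2) k'.2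
        rcases h3 with h3 | h3
        · exact Subtype.ext (inv_mul_eq_one.mp h3)
        · exact absurd (by simpa using h2) (h3 1)
      rw [← hnorm K hCK (φ h ⟨v, hv⟩),
        ← (Finite.injective_iff_bijective.mp hf).prod_comp (fun k : K => φ k (φ h ⟨v, hv⟩))]
      exact Finset.prod_congr rfl fun k _ => by simp [f]), mul_one] at h1
  simp only [OneMemClass.coe_one, mul_one, mul_inv_cancel, map_one, MulAut.one_apply,
    Finset.prod_const, Finset.card_univ, ← Nat.card_eq_fintype_card] at h1
  have := (powCoprime hcop).injective (h1.trans (one_pow _).symm)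
  exact congrArg Subtype.val this

end Cfsg.Agent.S0666
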