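import Cfsg.Statements.S0986
import Mathlib
import Cfsg.Agent.Lib.Small.Basic

set_option autoImplicit false
open Cfsg

namespace Cfsg.Agent.S0986

open Cfsg.Lib Subgroup


/-- Let P and Q be distinct Sylow p-subgroups of a finite group G chosen so that the order of P ∩ Q is as large as possible among intersections of two distinct Sylow p-subgroups, and let N be the normalizer of P ∩ Q. Then N has more than one Sylow p-subgroup, any two distinct Sylow p-subgroups of N intersect exactly in P ∩ Q, and each Sylow p-subgroup of N lies in exactly one Sylow p-subgroup of G. -/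
theorem result {G : Type*} [Group G] [Finite G] (p : ℕ) [Fact p.Prime] (P Q : Sylow p G) (hPQ : P ≠ Q) (hmax : ∀ P' Q' : Sylow p G, P' ≠ Q' → Nat.card ↥((P' : Subgroup G) ⊓ (Q' : Subgroup G)) ≤ Nat.card ↥((P : Subgroup G) ⊓ (Q : Subgroup G))) : 1 < Nat.card (Sylow p ↥(Subgroup.normalizer (((P : Subgroup G) ⊓ (Q : Subgroup G) : Subgroup G) : Set G))) ∧ (∀ S T : Sylow p ↥(Subgroup.normalizer (((P : Subgroup G) ⊓ (Q : Subgroup G) : Subgroup G) : Set G)), S ≠ T → (S : Subgroup _) ⊓ (T : Subgroup _) = ((P : Subgroup G) ⊓ (Q : Subgroup G)).subgroupOf (Subgroup.normalizer (((P : Subgroup G) ⊓ (Q : Subgroup G) : Subgroup G) : Set G))) ∧ ∀ S : Sylow p ↥(Subgroup.normalizer (((P : Subgroup G) ⊓ (Q : Subgroup G) : Subgroup G) : Set G)), ∃! T : Sylow p G, (S : Subgroup _).map (Subgroup.normalizer (((P : Subgroup G) ⊓ (Q : Subgroup G) : Subgroup G) : Set G)).subtype ≤ (T : Subgroup G) := by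
  set D := (P : Subgroup G) ⊓ Q with hD
  set N := normalizer (D : Set G) with hN
  have hDp : IsPGroup p D := P.isPGroup'.to_inf_left
  have huniq : ∀ (U : Subgroup G) (A B : Sylow p G), D < U → U ≤ A → U ≤ B → A = B := by
    intro U A B hU hA hB
    by_contra hne
    exact (tr_card_lt_of_lt hU).not_ge ((card_le_of_le (le_inf hA hB)).trans (hmax A B hne))
  have hP : D < (P : Subgroup G) ⊓ N := lt_inf_normalizer P.isPGroup'.isNilpotent
    (lt_of_le_of_ne inf_le_left fun e => hPQ (Sylow.ext (P.is_maximal' Q.isPGroup'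
      (e.ge.trans inf_le_right)).symm))
  have hQ : D < (Q : Subgroup G) ⊓ N := lt_inf_normalizer Q.isPGroup'.isNilpotent
    (lt_of_le_of_ne inf_le_right fun e => hPQ (Sylow.ext (Q.is_maximal' P.isPGroup'
      (e.ge.trans inf_le_left))))
  have hlt : ∀ S : Sylow p N, D < (S : Subgroup N).map N.subtype := by
    intro S
    have hS := IsSylowIn.of_sylow S
    refine lt_of_le_of_ne (hS.le_of_normalizes hDp le_normalizer hS.le) fun e => ?_
    have := Nat.le_of_dvd Nat.card_pos (hS.card_dvd P.isPGroup'.to_inf_left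
      (inf_le_right : (P : Subgroup G) ⊓ N ≤ N))
    rw [← e] at this
    exact (tr_card_lt_of_lt hP).not_ge this
  refine ⟨?_, fun S T hST => ?_, fun S => ?_⟩
  · rw [Finite.one_lt_card_iff_nontrivial]
    by_contra hnt
    rw [not_nontrivial_iff_subsingleton] at hnt
    obtain ⟨A, hA, hPA⟩ := exists_isSylowIn_ge (q := p) P.isPGroup'.to_inf_left
      (inf_le_right : (P : Subgroup G) ⊓ N ≤ N)
    obtain ⟨B, hB, hQB⟩ := exists_isSylowIn_ge (q := p) Q.isPGroup'.to_inf_left
      (inf_le_right : (Q : Subgroup G) ⊓ N ≤ N)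
    obtain ⟨A', rfl⟩ := hA.exists_sylow
    obtain ⟨B', rfl⟩ := hB.exists_sylow
    obtain rfl := Subsingleton.elim A' B'
    obtain ⟨R, hR⟩ := hA.isPGroup.exists_le_sylow
    exact hPQ ((huniq _ P R hP inf_le_left (hPA.trans hR)).trans
      (huniq _ Q R hQ inf_le_left (hQB.trans hR)).symm)
  · refine le_antisymm ?_ (le_inf ?_ ?_)
    · by_contra hne
      obtain ⟨A, hA⟩ := S.exists_comap_subtype_eq
      obtain ⟨B, hB⟩ := T.exists_comap_subtype_eq
      have h1 : D < ((S : Subgroup N) ⊓ T).map N.subtype := by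
        rw [map_inf _ _ _ N.subtype_injective]
        refine lt_of_le_of_ne (le_inf (hlt S).le (hlt T).le) fun e => hne ?_
        rw [← map_inf _ _ _ N.subtype_injective] at e
        exact map_le_iff_le_comap.mp e.ge
      have := huniq _ A B h1 (map_le_iff_le_comap.mpr (hA ▸ inf_le_left))
        (map_le_iff_le_comap.mpr (hB ▸ inf_le_right))
      exact hST (Sylow.ext (by rw [← hA, ← hB, this]))
    · intro x hx
      obtain ⟨y, hy, e⟩ := (hlt S).le hx
      rwa [← Subtype.ext e]
    · intro x hx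
      obtain ⟨y, hy, e⟩ := (hlt T).le hx
      rwa [← Subtype.ext e]
  · obtain ⟨R, hR⟩ := (S.isPGroup'.map N.subtype).exists_le_sylow
    exact ⟨R, hR, fun R' hR' => huniq _ R' R (hlt S) hR' hR⟩

end Cfsg.Agent.S0986
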