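import Cfsg.Statements.S0987
import Mathlib
import Cfsg.Agent.Lib.Small.Basic

set_option autoImplicit false
open Cfsg

namespace Cfsg.Agent.S0987

open Cfsg.Lib Subgroup


/-- If a finite group has order pqr for primes p < q < r, then its Sylow r-subgroups are normal. -/
theorem result {G : Type*} [Group G] [Finite G] (p q r : ℕ) (hp : p.Prime) (hq : q.Prime) [Fact r.Prime] (hpq : p < q) (hqr : q < r) (hG : Nat.card G = p * q * r) (R : Sylow r G) : (R : Subgroup G).Normal := by
  have hr : r.Prime := Fact.out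
  have := Fact.mk hp
  obtain ⟨P⟩ : Nonempty (Sylow p G) := inferInstance
  have hpq' : ¬ p ∣ q := fun h => hpq.ne ((Nat.prime_dvd_prime_iff_eq hp hq).mp h)
  have hpr' : ¬ p ∣ r := fun h => (hpq.trans hqr).ne ((Nat.prime_dvd_prime_iff_eq hp hr).mp h)
  have hP : Nat.card (P : Subgroup G) = p := sm_card_sylow_eq_prime
    (by rw [hG, mul_assoc]; exact dvd_mul_right _ _) (by
      rw [hG, mul_assoc, pow_two, mul_dvd_mul_iff_left hp.ne_zero, hp.dvd_mul]
      tauto) P
  have hmin : (Nat.card G).minFac = p := by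
    rw [hG]
    have h1 : (p * q * r).minFac.Prime := Nat.minFac_prime fun h =>
      hr.one_lt.ne' (Nat.eq_one_of_mul_eq_one_left h)
    have h2 := Nat.minFac_le_of_dvd hp.two_le (show p ∣ p * q * r from ⟨q * r, by ring⟩)
    have h3 := Nat.minFac_dvd (p * q * r)
    rw [h1.dvd_mul, h1.dvd_mul, Nat.prime_dvd_prime_iff_eq h1 hp, Nat.prime_dvd_prime_iff_eq h1 hq,
      Nat.prime_dvd_prime_iff_eq h1 hr] at h3
    omega
  have hc := (hasNormalPComplement_of_isCyclic P (isCyclic_of_prime_card hP) hmin).isComplement' P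
  have hK : Nat.card (pResidual p G) = q * r := by
    have := hc.card_mul_card
    rw [hP, hG] at this
    exact Nat.eq_of_mul_eq_mul_right hp.pos (by rw [this]; ring)
  have hR : (R : Subgroup G) ≤ pResidual p G := fun x hx => mem_pResidual_of_coprime (by
    have := R.isPGroup'.orderOf_coprime (n := p) ((Nat.coprime_primes hr hp).mpr (by omega)) ⟨x, hx⟩
    rwa [← orderOf_coe] at this)
  have h1 : Nat.card (Sylow r (pResidual p G)) = 1 := by
    have h2 := card_sylow_modEq_one r (pResidual p G)
    have h3 := (R.subtype hR).card_dvd_index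
    have h4 := (R.subtype hR : Subgroup (pResidual p G)).index_dvd_card
    have h5 := (R.subtype hR).not_dvd_index
    rw [hK] at h4
    have h6 := ((Nat.Coprime.symm ((hr.coprime_iff_not_dvd).mpr h5))).dvd_of_dvd_mul_right h4
    rcases (Nat.dvd_prime hq).mp (h3.trans h6) with h7 | h7
    · exact h7
    · rw [h7, Nat.ModEq, Nat.mod_eq_of_lt hqr, Nat.mod_eq_of_lt hr.one_lt] at h2
      exact absurd h2 hq.one_lt.ne'
  have h2 : Subsingleton (Sylow r (pResidual p G)) := (Nat.card_eq_one_iff_unique.mp h1).1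
  have h3 : ((R.subtype hR : Subgroup (pResidual p G)).map (pResidual p G).subtype).Normal :=
    inferInstance
  rwa [Sylow.coe_subtype, subgroupOf_map_subtype, inf_eq_left.mpr hR] at h3

end Cfsg.Agent.S0987
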