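import Cfsg.Statements.S0995
import Mathlib
import Cfsg.Agent.Lib.Small.Basic

set_option autoImplicit false
open Cfsg

namespace Cfsg.Agent.S0995

open Cfsg.Lib Subgroup


/-- Let G be a finite perfect group containing an element z of prime order p whose centralizer is the cyclic group it generates. Let t be the number of conjugacy classes of elements of order p. Then t divides p - 1, the number of Sylow p-subgroups has the form 1 + n * p, and |G| * t = (p - 1) * p * (1 + n * p). -/
theorem result {G : Type*} [Group G] [Finite G] (hperf : commutator G = ⊤) (p : ℕ) [Fact p.Prime] (z : G) (hz : orderOf z = p) (hC : Subgroup.centralizer ({z} : Set G) = Subgroup.zpowers z) : ∃ n t : ℕ, t = Nat.card {c : ConjClasses G // ∃ g : G, ConjClasses.mk g = c ∧ orderOf g = p} ∧ t ∣ p - 1 ∧ Nat.card (Sylow p G) = 1 + n * p ∧ Nat.card G * t = (p - 1) * p * (1 + n * p) := by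
  classical
  have hp : p.Prime := Fact.out
  obtain ⟨P, hzP⟩ := (IsPGroup.of_card (G := zpowers z) (p := p) (n := 1)
    (by rw [Nat.card_zpowers, hz, pow_one])).exists_le_sylow
  have hcz : Nat.card (zpowers z) = p := by rw [Nat.card_zpowers, hz]
  have hz1 : z ≠ 1 := by rintro rfl; exact hp.one_lt.ne (by simpa using hz)
  have hPz : (P : Subgroup G) = zpowers z := by
    refine le_antisymm ?_ hzP
    obtain ⟨w, hw, hwo, hwc⟩ := pg_exists_fixed_of_order_p P.isPGroup' P.isPGroup' le_normalizer
      (fun e => hz1 (mem_bot.mp (e ▸ hzP (mem_zpowers z))))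
    have h1 : w ∈ zpowers z := by
      rw [← hC, mem_centralizer_singleton_iff]
      exact (mem_centralizer_iff.mp hwc z (hzP (mem_zpowers z))).symm
    have hw1 : w ≠ 1 := by rintro rfl; exact hp.one_lt.ne (by simpa using hwo)
    rw [← hC, ← sm_centralizer_zpowers, sm_eq_zpowers_of_card_prime hcz h1 hw1,
      sm_centralizer_zpowers]
    intro u hu
    exact mem_centralizer_singleton_iff.mpr (mem_centralizer_iff.mp hwc u hu)
  have hP : Nat.card (P : Subgroup G) = p := by rw [hPz, hcz]
  have hcent : ∀ g : G, orderOf g = p → Nat.card (centralizer ({g} : Set G)) = p := by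
    intro g hg
    obtain ⟨Q, hQ⟩ := sm_exists_sylow_eq_zpowers hP hg
    obtain ⟨u, rfl⟩ := MulAction.exists_smul_eq G P Q
    rw [← sm_centralizer_zpowers, ← hQ, sm_coe_sylow_smul, centralizer_map_conj, card_map_conj,
      hPz, sm_centralizer_zpowers, hC, hcz]
  set T := {c : ConjClasses G // ∃ g : G, ConjClasses.mk g = c ∧ orderOf g = p} with hT
  have := Fintype.ofFinite T
  have h1 : Nat.card {g : G // orderOf g = p} * p = Nat.card T * Nat.card G := by
    let f : {g : G // orderOf g = p} → T := fun g => ⟨ConjClasses.mk g.1, g.1, rfl, g.2⟩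
    rw [← Nat.card_congr (Equiv.sigmaFiberEquiv f), Nat.card_sigma, Finset.sum_mul,
      Finset.sum_congr rfl (g := fun _ => Nat.card G)]
    · simp
    rintro ⟨_, g, rfl, hg⟩ _
    rw [← sm_card_isConj_mul g, hcent g hg]
    congr 1
    refine Nat.card_congr ⟨fun a => ⟨a.1.1, ?_⟩, fun a => ⟨⟨a.1, ?_⟩, ?_⟩, fun _ => rfl, fun _ => rfl⟩
    · exact (ConjClasses.mk_eq_mk_iff_isConj.mp (congrArg Subtype.val a.2)).symm
    · obtain ⟨u, e⟩ := isConj_iff.mp a.2
      rw [← e, ← hg]
      exact orderOf_injective (MulAut.conj u).toMonoidHom (MulAut.conj u).injective g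
    · exact Subtype.ext (ConjClasses.mk_eq_mk_iff_isConj.mpr a.2.symm)
  rw [sm_card_orderOf_eq_prime hP] at h1
  have h2 := card_sylow_modEq_one p G
  obtain ⟨n, hn⟩ := (Nat.modEq_iff_dvd' Nat.card_pos).mp h2.symm
  have hn' : Nat.card (Sylow p G) = 1 + n * p := by
    have : 0 < Nat.card (Sylow p G) := Nat.card_pos
    rw [mul_comm n p]; omega
  refine ⟨n, Nat.card T, rfl, ?_, hn', ?_⟩
  · have h3 := sm_card_eq_sylow_mul P
    rw [hPz, sm_centralizer_zpowers, hC, hcz] at h3
    refine ⟨(zpowers z).relIndex (normalizer (zpowers z : Set G)), ?_⟩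
    have hpos : 0 < Nat.card (Sylow p G) * p := Nat.mul_pos Nat.card_pos hp.pos
    apply Nat.eq_of_mul_eq_mul_left hpos
    rw [h3] at h1
    linarith
  · rw [← hn']; linarith

end Cfsg.Agent.S0995
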