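import Cfsg.Statements.S0996
import Mathlib
import Cfsg.Agent.Lib.Defect1.Few

set_option autoImplicit false
open Cfsg

namespace Cfsg.Agent.S0996

open Cfsg.Lib Subgroup
open scoped commutatorElement


theorem comm_sup {G : Type*} [Group G] (h : commutator G = ⊤) {K A : Subgroup G} [K.Normal]
    (hA : A ⊔ K = ⊤) : ⁅A, A⁆ ⊔ K = ⊤ := by
  have h1 : A.map (QuotientGroup.mk' K) = (⊤ : Subgroup G).map (QuotientGroup.mk' K) := by
    rw [← hA, Subgroup.map_sup, QuotientGroup.map_mk'_self, sup_bot_eq]
  have h2 : ⁅A, A⁆.map (QuotientGroup.mk' K) = (⊤ : Subgroup G).map (QuotientGroup.mk' K) := by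
    rw [map_commutator, h1, ← map_commutator, ← commutator_def, h]
  rwa [map_eq_map_iff, QuotientGroup.ker_mk', top_sup_eq] at h2

/-- Let G be a finite perfect group containing an element z of prime order p whose centralizer is the cyclic group it generates, and suppose the number 1 + n * p of Sylow p-subgroups satisfies n < (p + 3) / 2. Then p > 3 and G is isomorphic to the projective special linear group of dimension 2 over the field with p elements, or p - 1 is a power of 2 and G is isomorphic to that group over the field with p - 1 elements. -/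
theorem result {G : Type*} [Group G] [Finite G] (hperf : commutator G = ⊤) (p : ℕ) [Fact p.Prime] (z : G) (hz : orderOf z = p) (hC : Subgroup.centralizer ({z} : Set G) = Subgroup.zpowers z) (hn : 2 * Nat.card (Sylow p G) < (p + 1) * (p + 2)) : (∃ (F : Type) (_ : Field F) (_ : Fintype F), Fintype.card F = p ∧ 3 < p ∧ Nonempty (G ≃* Matrix.ProjectiveSpecialLinearGroup (Fin 2) F)) ∨ (∃ (m : ℕ) (F : Type) (_ : Field F) (_ : Fintype F), Fintype.card F = 2 ^ m ∧ p = 2 ^ m + 1 ∧ 3 < p ∧ Nonempty (G ≃* Matrix.ProjectiveSpecialLinearGroup (Fin 2) F)) := by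
  have hp : p.Prime := Fact.out
  have hi : ¬ p ∣ (zpowers z).index := fun h => by
    obtain ⟨K, h1, h2⟩ := Sylow.exists_subgroup_card_pow_succ (p := p) (n := 1) (H := zpowers z) (by
      rw [← (zpowers z).index_mul_card, d1_card_zpowers hz, pow_succ, pow_one]
      exact Nat.mul_dvd_mul_right h p) (by rw [d1_card_zpowers hz, pow_one])
    have h3 := card_le_of_le (hC ▸ le_centralizer_singleton_of_comm
      (IsPGroup.isMulCommutative_of_card_eq_prime_sq h1) (h2 (mem_zpowers z)))
    rw [h1, d1_card_zpowers hz, pow_succ, pow_one] at h3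
    nlinarith [hp.two_le]
  obtain ⟨P, hP⟩ := d1_exists_sylow hz hi
  have hC' : centralizer (zpowers z : Set G) = zpowers z := (sm_centralizer_zpowers z).trans hC
  have key : ∀ K : Subgroup G, K.Normal → normalizer (zpowers z : Set G) ⊔ K = ⊤ → K = ⊤ :=
      fun K _ h => by
    have h1 : ⁅normalizer (zpowers z : Set G), normalizer (zpowers z : Set G)⁆ ≤ zpowers z :=
      commutator_le.mpr fun a ha b hb => by
        have h2 : ⁅(⟨a, ha⟩ : normalizer (zpowers z : Set G)), ⟨b, hb⟩⁆ ∈ (d1Hom hz).ker := by
          rw [MonoidHom.mem_ker, map_commutatorElement, commutatorElement_eq_one_iff_mul_comm, mul_comm]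
        rwa [d1Hom_ker, mem_subgroupOf, hC] at h2
    have h2 := comm_sup hperf (eq_top_iff.mpr ((comm_sup hperf h).ge.trans (sup_le_sup_right h1 K)))
    rwa [commutator_eq_bot_iff_le_centralizer.mpr hC'.ge, bot_sup_eq] at h2
  have : Nontrivial G := ⟨z, 1, d1_ne_one hz⟩
  have : IsSimpleGroup G := ⟨fun K _ => or_iff_not_imp_right.mpr fun hK => by
    have h1 : ¬ p ∣ Nat.card K := fun h => by
      obtain ⟨y, hy, h1⟩ := sm_exists_mem_orderOf_eq hp K h
      obtain ⟨u, hu, h2, h3⟩ := OC.exists_conj_pow hz hi h1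
      obtain ⟨g, rfl⟩ := isConj_iff.mp h3
      refine hK (key K inferInstance (hP ▸ P.normalizer_sup_eq_top' ?_))
      rw [hP, sm_eq_zpowers_of_card_prime (d1_card_zpowers hz) hu h2, zpowers_le]
      exact Normal.conj_mem inferInstance y hy g
    have h2 : K ⊓ zpowers z = ⊥ := by
      exact (disjoint_of_coprime_natCard (by
        rw [d1_card_zpowers hz]; exact (hp.coprime_iff_not_dvd.mpr h1).symm)).eq_bot
    have h3 : K ⊓ normalizer (zpowers z : Set G) = ⊥ := eq_bot_iff.mpr fun k hk => h2.le ⟨hk.1, by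
      rw [SetLike.mem_coe, mem_toSubmonoid, ← hC, mem_centralizer_singleton_iff, ← mul_inv_eq_iff_eq_mul, ← mul_inv_eq_one]
      refine h2.le (mem_inf.mpr ⟨?_, mul_mem ((mem_normalizer_iff.mp hk.2 z).mp (mem_zpowers z))
        (inv_mem (mem_zpowers z))⟩)
      rw [mul_assoc, mul_assoc, ← mul_assoc z]
      exact mul_mem hk.1 (Normal.conj_mem inferInstance _ (inv_mem hk.1) z)⟩
    have h4 := sm_card_modEq_card_inf_centralizer (A := zpowers z) (T := K) (hP ▸ P.isPGroup')
      (by simp [normalizer_eq_top])
    rw [hC', h2, card_bot] at h4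
    have h5 : Nat.card (Sylow p G) = Nat.card K * (normalizer (zpowers z : Set G) ⊔ K).index := by
      have h5 := (normalizer (zpowers z : Set G) ⊔ K).card_mul_index
      rw [pg_card_eq_relIndex_mul_card_inf K, relIndex_sup_right, ← inf_relIndex_right, h3,
        relIndex_bot_left, inf_of_le_right le_sup_right,
        ← (normalizer (zpowers z : Set G)).card_mul_index, mul_assoc] at h5
      rw [Nat.eq_of_mul_eq_mul_left Nat.card_pos h5, ← hP]
      exact P.card_eq_index_normalizer
    have h6 := card_sylow_modEq_one p G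
    rw [h5] at h6 hn
    have h7 := sm_succ_le_of_modEq ((by simpa using h4.symm.mul_right _ : _ ≡ _ [MOD p]).trans h6) (Nat.pos_of_ne_zero
      FiniteIndex.index_ne_zero) fun e => hK (key K inferInstance (index_eq_one.mp e))
    by_contra h8
    have := Nat.mul_le_mul (sm_succ_le_of_modEq h4 Nat.card_pos fun e => h8 (card_eq_one.mp e)) h7
    nlinarith⟩
  have hG : ¬ IsMulCommutative G := fun h => top_ne_bot (key ⊥ inferInstance
    (by simp [normalizer_eq_top])).symm
  have h1 := sm_succ_le_card_sylow (sm_card_sylow_ne_one hG (hz ▸ orderOf_dvd_natCard z))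
  refine brauer_few hG hz hi hn ?_
  rw [d1_card_V_eq_one hz hi hC, mul_one]
  exact h1.trans (Nat.le_mul_of_pos_left _ (Nat.sub_pos_of_lt hp.one_lt))

end Cfsg.Agent.S0996
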