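import Cfsg.Statements.S0997
import Mathlib
import Cfsg.Agent.Lib.Defect1.Tuan

set_option autoImplicit false
open Cfsg

namespace Cfsg.Agent.S0997

open Cfsg.Lib Subgroup


/-- Let G be a non-cyclic finite simple group of order p * q^b * g₀, where p and q are distinct primes and g₀ < p - 1. Then either p has the form 2^m + 1 or 2^m - 1 and G is isomorphic to the projective special linear group of dimension 2 over the field with p elements, or p = 2^m + 1 > 3 and G is isomorphic to that group over the field with 2^m elements. -/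
theorem result {G : Type*} [Group G] [Finite G] [IsSimpleGroup G] (hG : ¬ IsCyclic G) (p q b g₀ : ℕ) (hp : p.Prime) (hq : q.Prime) (hpq : p ≠ q) (hG' : Nat.card G = p * q ^ b * g₀) (hg : g₀ < p - 1) : (∃ (m : ℕ) (F : Type) (_ : Field F) (_ : Fintype F), Fintype.card F = p ∧ (p = 2 ^ m + 1 ∨ p = 2 ^ m - 1) ∧ Nonempty (G ≃* Matrix.ProjectiveSpecialLinearGroup (Fin 2) F)) ∨ (∃ (m : ℕ) (F : Type) (_ : Field F) (_ : Fintype F), Fintype.card F = 2 ^ m ∧ p = 2 ^ m + 1 ∧ 3 < p ∧ Nonempty (G ≃* Matrix.ProjectiveSpecialLinearGroup (Fin 2) F)) := by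
  have : Fact p.Prime := ⟨hp⟩
  have hG1 := sm_not_comm_of_not_isCyclic hG
  have h0 : g₀ ≠ 0 := by rintro rfl; exact Nat.card_pos.ne' hG'
  obtain ⟨c, g, h1, rfl⟩ := Nat.exists_eq_pow_mul_and_not_dvd h0 q hq.one_lt.ne'
  obtain ⟨⟨m, hm⟩, x, hx, hi, hV, hn⟩ := brauer_tuan hG1 (b := b + c) (g := g) hq hpq
    (by rw [hG']; ring) ((Nat.le_mul_of_pos_left _ (pow_pos hq.pos c)).trans_lt hg) h1
  have h2 := sm_succ_le_card_sylow (sm_card_sylow_ne_one hG1 (hx ▸ orderOf_dvd_natCard x))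
  refine (brauer_few hG1 hx hi hn ?_).imp_left fun ⟨F, _, _, h3, _, h4⟩ => ⟨m, F, _, _, h3, hm, h4⟩
  rw [hV, mul_one]
  exact h2.trans (Nat.le_mul_of_pos_left _ (Nat.sub_pos_of_lt hp.one_lt))

end Cfsg.Agent.S0997
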