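import Cfsg.Statements.S0999
import Mathlib
import Cfsg.Agent.Lib.Defect1.Few

set_option autoImplicit false
open Cfsg

namespace Cfsg.Agent.S0999

open Cfsg.Lib Subgroup


/-- Let G be a non-cyclic finite simple group and p a prime divisor of its order with p^3 > |G|. Then p > 3 and G is isomorphic to the projective special linear group of dimension 2 over the field with p elements, or p - 1 is a power of 2 and G is isomorphic to that group over the field with p - 1 elements. -/
theorem result {G : Type*} [Group G] [Finite G] [IsSimpleGroup G] (hG : ¬ IsCyclic G) (p : ℕ) (hp : p.Prime) (hdvd : p ∣ Nat.card G) (hbig : Nat.card G < p ^ 3) : (∃ (F : Type) (_ : Field F) (_ : Fintype F), Fintype.card F = p ∧ 3 < p ∧ Nonempty (G ≃* Matrix.ProjectiveSpecialLinearGroup (Fin 2) F)) ∨ (∃ (m : ℕ) (F : Type) (_ : Field F) (_ : Fintype F), Fintype.card F = 2 ^ m ∧ p = 2 ^ m + 1 ∧ 3 < p ∧ Nonempty (G ≃* Matrix.ProjectiveSpecialLinearGroup (Fin 2) F)) := by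
  have : Fact p.Prime := ⟨hp⟩
  have hG' := sm_not_comm_of_not_isCyclic hG
  have h2 := hp.two_le
  have h1 := sm_succ_le_card_sylow (sm_card_sylow_ne_one hG' hdvd)
  obtain ⟨x, hx, hi⟩ := d1_exists_elt hdvd fun h => by
    have h3 := Nat.le_of_dvd Nat.card_pos (((hp.coprime_iff_not_dvd.mpr
      (not_dvd_card_sylow p G)).pow_left 2).mul_dvd_of_dvd_of_dvd h
        ((default : Sylow p G).card_dvd_index.trans (index_dvd_card _)))
    nlinarith
  have hc := d1_card_eq hx hi
  have he := d1_card_E_ne_one hG' hx hi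
  have he0 : 0 < Nat.card (d1E hx) := Nat.card_pos
  have hv0 : 0 < Nat.card (d1V p x) := Nat.card_pos
  have h3 : Nat.card (Sylow p G) * 2 * Nat.card (d1V p x) < p ^ 2 :=
    Nat.lt_of_mul_lt_mul_left (a := p) (by
      refine lt_of_le_of_lt ?_ (hbig.trans_eq (by ring))
      rw [hc, mul_comm _ p, ← mul_assoc, ← mul_assoc]
      gcongr; omega)
  refine brauer_few hG' hx hi (by nlinarith) ?_
  obtain ⟨q, rfl⟩ : ∃ q, p = q + 1 := ⟨p - 1, by omega⟩
  rw [Nat.add_sub_cancel]
  have h4 : Nat.card (d1V (q + 1) x) ≤ q := by nlinarith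
  nlinarith

end Cfsg.Agent.S0999
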