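import Cfsg.Statements.S1001
import Mathlib
import Cfsg.Agent.Lib.Defect1.Block

set_option autoImplicit false
open Cfsg

namespace Cfsg.Agent.S1001

open Cfsg.Lib Subgroup

theorem aux {G : Type*} [Group G] [Finite G] [IsSimpleGroup G] (hG : ¬ IsMulCommutative G)
    {p q r a b : ℕ} (hp : p.Prime) (hq : q.Prime) (hr : r.Prime) (hpq : p ≠ q) (hpr : p ≠ r)
    (hqr : q ≠ r) (h : Nat.card G = p * q ^ a * r ^ b) {x y : G} (hx : orderOf x = p)
    (hy : orderOf y = q) : ¬ Commute x y := fun hc => by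
  classical
  have := Fintype.ofFinite G
  have := Fact.mk hp
  have := Fact.mk hq
  have := Fact.mk hr
  have ho : orderOf (x * y) = p * q := by
    rw [hc.orderOf_mul_eq_mul_orderOf_of_coprime (by
      rw [hx, hy]; exact (Nat.coprime_primes hp hq).mpr hpq), hx, hy]
  have h1 := block_orthogonality' (p := q) (isIrrCharacter_one (G := G)) (x := x * y) (y := 1)
    (fun h => pRel_one_iff'.mp h (ho ▸ dvd_mul_left _ _))
  rw [← Finset.add_sum_erase (a := (⟨1, isIrrCharacter_one⟩ : IrrCharacter G)) _ _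
    (by exact Finset.mem_filter.mpr ⟨Finset.mem_univ _, SameBlock.refl _⟩)] at h1
  refine one_not_mem_nonunits (p := r) ?_
  simp only [Pi.one_apply, map_one, mul_one] at h1
  rw [eq_neg_of_add_eq_zero_left h1]
  refine neg_mem (sum_mem fun χ hχ => ?_)
  obtain ⟨hχ1, hχ2⟩ := Finset.mem_erase.mp hχ
  rw [coe_irrDeg, map_natCast]
  by_cases h0 : χ.1 (x * y) = 0
  · rw [h0, zero_mul]; exact zero_mem _
  refine mul_mem_nonunits_left (mem_pVal_of_isIntegral (χ.2.isCharacter.isIntegral _))
    ((natCast_mem_nonunits_iff _).mpr ?_)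
  by_contra hrd
  have hpd : ¬ p ∣ irrDeg χ := by
    rintro ⟨m, hm⟩
    refine h0 (eq_zero_of_defect_zero (p := p) (fun hd => ?_) (ho ▸ dvd_mul_right _ _))
    have h2 := Nat.mul_dvd_mul (dvd_mul_right p m) hd
    rw [← hm, Nat.mul_div_cancel' (irrDeg_dvd_card χ), h, mul_assoc,
      Nat.mul_dvd_mul_iff_left hp.pos] at h2
    exact hp.coprime_iff_not_dvd.mp ((((Nat.coprime_primes hp hq).mpr hpq).pow_right a).mul_right
      (((Nat.coprime_primes hp hr).mpr hpr).pow_right b)) h2
  have h2 := irrDeg_dvd_card χ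
  rw [h, mul_assoc] at h2
  have h3 := ((hr.coprime_iff_not_dvd.mpr hrd).symm.pow_right b).dvd_of_dvd_mul_right
    ((hp.coprime_iff_not_dvd.mpr hpd).symm.dvd_of_dvd_mul_left h2)
  obtain ⟨k, -, hk⟩ := (Nat.dvd_prime_pow hq).mp h3
  exact InB0.irrDeg_ne_pow hG (hy ▸ orderOf_dvd_natCard y) (Finset.mem_filter.mp hχ2).2 hχ1 k hk

/-- In a finite simple group whose order has the form p * 3^a * 2^b with p prime, the centralizer of any element of order p is the cyclic group it generates. -/
theorem result {G : Type*} [Group G] [Finite G] [IsSimpleGroup G] (p a b : ℕ) (hp : p.Prime) (hG : Nat.card G = p * 3 ^ a * 2 ^ b) (x : G) (hx : orderOf x = p) : Subgroup.centralizer ({x} : Set G) = Subgroup.zpowers x := by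
  have := Fact.mk hp
  have hle : zpowers x ≤ centralizer ({x} : Set G) := by
    rw [← sm_centralizer_zpowers]; exact (zpowers x).le_centralizer
  by_cases hc : IsMulCommutative G
  · let _ : CommGroup G := { (inferInstance : Group G) with mul_comm := hc.is_comm.comm }
    rcases (inferInstance : (zpowers x).Normal).eq_bot_or_eq_top with e | e
    · exact absurd (mem_bot.mp (e ▸ mem_zpowers x)) (d1_ne_one hx)
    · exact le_antisymm (e ▸ le_top) hle
  have hns : ¬ Group.IsSolvable G := fun hs => hc ⟨⟨IsSimpleGroup.comm_iff_isSolvable.mpr hs⟩⟩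
  have h2 : p ≠ 2 := by
    rintro rfl
    exact hns (burnside_solvable_of_card_dvd Nat.prime_three Nat.prime_two (a := a) (b := b + 1)
      (by rw [hG]; exact ⟨1, by ring⟩))
  have h3 : p ≠ 3 := by
    rintro rfl
    exact hns (burnside_solvable_of_card_dvd Nat.prime_three Nat.prime_two (a := a + 1) (b := b)
      (by rw [hG]; exact ⟨1, by ring⟩))
  have hcop : p.Coprime (3 ^ a * 2 ^ b) :=
    (((Nat.coprime_primes hp Nat.prime_three).mpr h3).pow_right a).mul_right
      (((Nat.coprime_primes hp Nat.prime_two).mpr h2).pow_right b)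
  have hi : (zpowers x).index = 3 ^ a * 2 ^ b := by
    have := (zpowers x).card_mul_index
    rw [d1_card_zpowers hx, hG, mul_assoc] at this
    exact Nat.eq_of_mul_eq_mul_left hp.pos this
  have hi' : ¬ p ∣ (zpowers x).index := hi ▸ hp.coprime_iff_not_dvd.mp hcop
  have hV : Nat.card (d1V p x) = 1 := by
    by_contra hne
    obtain ⟨s, hs, hsd⟩ := Nat.exists_prime_and_dvd hne
    obtain ⟨y, hy, hys⟩ := sm_exists_mem_orderOf_eq hs _ hsd
    have h4 : s ∣ p * 3 ^ a * 2 ^ b := hG ▸ hys ▸ orderOf_dvd_natCard y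
    have hcm := d1_commute (mem_zpowers x) hy
    rcases hs.dvd_mul.mp h4 with h | h
    · rcases hs.dvd_mul.mp h with h | h
      · rw [(Nat.prime_dvd_prime_iff_eq hs hp).mp h] at hsd
        exact not_dvd_card_d1V hx hi' hsd
      · rw [(Nat.prime_dvd_prime_iff_eq hs Nat.prime_three).mp (hs.dvd_of_dvd_pow h)] at hys
        exact aux hc hp Nat.prime_three Nat.prime_two h3 h2 (by norm_num) hG hx hys hcm
    · rw [(Nat.prime_dvd_prime_iff_eq hs Nat.prime_two).mp (hs.dvd_of_dvd_pow h)] at hys
      exact aux hc hp Nat.prime_two Nat.prime_three h2 h3 (by norm_num) (a := b) (b := a)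
        (by rw [hG]; ring) hx hys hcm
  refine (eq_of_le_of_card_ge hle ?_).symm
  rw [← card_d1V hx hi', hV, d1_card_zpowers hx, mul_one]

end Cfsg.Agent.S1001
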