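import Cfsg.Statements.S1002
import Mathlib
import Cfsg.Agent.Lib.Defect1.Sieve

set_option autoImplicit false
open Cfsg

namespace Cfsg.Agent.S1002

open Cfsg.Lib Subgroup


/-- No finite simple group has order 1004913 = 3^3 * 7 * 13 * 409. -/
theorem result {G : Type*} [Group G] [Finite G] [IsSimpleGroup G] : Nat.card G ≠ 1004913 := by
  intro h
  have := Fintype.ofFinite G
  obtain ⟨_, x, hx, hi, D, L, -, h2⟩ := sv_exists_data (p := 409) (v1 := false)
    (sm_not_comm_of_not_prime (G := G) (by rw [h]; norm_num)) (by rw [h]; decide +kernel) (by simp)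
  rw [h, show svSols 1004913 409 false = [] by decide +kernel] at h2
  exact List.not_mem_nil h2

end Cfsg.Agent.S1002
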