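import Cfsg.Statements.S1004
import Mathlib
import Cfsg.Agent.Lib.Small.Order168

set_option autoImplicit false
open Cfsg

namespace Cfsg.Agent.S1004

open Cfsg.Lib Subgroup


/-- Let G be a simple group of order 168 and T a Sylow 2-subgroup. Then T is dihedral of order 8, T is its own normalizer, and T is the centralizer of any non-identity element of T that commutes with every element of T. -/
theorem result {G : Type*} [Group G] [Finite G] [IsSimpleGroup G] (h : Nat.card G = 168) (T : Sylow 2 G) : Nonempty (↥(T : Subgroup G) ≃* DihedralGroup 4) ∧ Subgroup.normalizer ((T : Subgroup G) : Set G) = T ∧ ∀ z : G, z ∈ (T : Subgroup G) → z ≠ 1 → (∀ t ∈ (T : Subgroup G), t * z = z * t) → Subgroup.centralizer ({z} : Set G) = T := by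
  refine ⟨?_, (S168.data2 h T).2, fun z hz h1 hc => S168.cent_central h T hz h1 hc⟩
  obtain ⟨a, b, ha, hb, h4, hba, hc, hb2⟩ := S168.exists_dihedral_gens h T
  refine pg_nonempty_mulEquiv_dihedral (a := ⟨a, ha⟩) (b := ⟨b, hb⟩) ?_ (S168.card_sylow2 h T) ?_
    (Subtype.ext hb2) (Subtype.ext hc)
  · rw [← orderOf_coe]; exact h4
  · rintro ⟨k, hk⟩
    exact hba ⟨k, congrArg Subtype.val hk⟩

end Cfsg.Agent.S1004
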