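import Cfsg.Statements.S1006
import Mathlib
import Cfsg.Agent.Lib.Small.Order168

set_option autoImplicit false
open Cfsg

namespace Cfsg.Agent.S1006

open Cfsg.Lib Subgroup


/-- In a simple group of order 168 there are 56 elements of order 3, all conjugate; 42 elements of order 4, all conjugate; and 48 elements of order 7 falling into two conjugacy classes of size 24, an element of order 7 not being conjugate to its inverse. -/
theorem result {G : Type*} [Group G] [Finite G] [IsSimpleGroup G] (h : Nat.card G = 168) : Nat.card {g : G // orderOf g = 3} = 56 ∧ (∀ s t : G, orderOf s = 3 → orderOf t = 3 → IsConj s t) ∧ Nat.card {g : G // orderOf g = 4} = 42 ∧ (∀ s t : G, orderOf s = 4 → orderOf t = 4 → IsConj s t) ∧ Nat.card {g : G // orderOf g = 7} = 48 ∧ ∀ x : G, orderOf x = 7 → Nat.card {g : G // IsConj x g} = 24 ∧ ¬ IsConj x x⁻¹ := by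
  refine ⟨S168.count3 h, fun _ _ => S168.conj3 h, S168.count4 h, fun _ _ => S168.conj4 h,
    S168.count7 h, fun x hx => ⟨?_, fun hc => ?_⟩⟩
  · have := sm_card_isConj_mul x
    rw [S168.cent7 h hx, h] at this
    omega
  · obtain ⟨g, hg⟩ := isConj_iff.mp hc
    obtain ⟨P₀⟩ : Nonempty (Sylow 7 G) := inferInstance
    obtain ⟨P, hP⟩ := sm_exists_sylow_eq_zpowers (S168.card_sylow7 h P₀) hx
    have hN : g ∈ normalizer ((P : Subgroup G) : Set G) := by
      rw [hP]
      apply mem_normalizer_fintype
      rintro _ ⟨k, rfl⟩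
      exact ⟨-k, by simp only [← conj_zpow, hg, inv_zpow', neg_neg]⟩
    have h1 := orderOf_dvd_natCard _ hN
    rw [S168.card_normalizer7 h] at h1
    have h2 : ∀ n : ℕ, g ^ (2 * n) * x * (g ^ (2 * n))⁻¹ = x := by
      intro n
      induction n with
      | zero => simp
      | succ n ih =>
        have e : g ^ (2 * (n + 1)) = g * g * g ^ (2 * n) := by rw [mul_add, pow_add]; group
        rw [e, mul_inv_rev, mul_inv_rev]
        calc _ = g * (g * (g ^ (2 * n) * x * (g ^ (2 * n))⁻¹) * g⁻¹) * g⁻¹ := by group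
          _ = x := by rw [ih, hg, ← conj_inv, hg, inv_inv]
    have h3 := h2 11
    rw [show 2 * 11 = 21 + 1 from rfl, pow_succ, orderOf_dvd_iff_pow_eq_one.mp h1, one_mul, hg] at h3
    have h4 : x ^ 2 = 1 := by rw [pow_two]; nth_rewrite 1 [← h3]; simp
    have := orderOf_dvd_of_pow_eq_one h4
    rw [hx] at this
    norm_num at this

end Cfsg.Agent.S1006
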