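import Cfsg.Statements.S1008
import Mathlib
import Cfsg.Agent.Lib.Small.Order168b

set_option autoImplicit false
open Cfsg

namespace Cfsg.Agent.S1008

open Cfsg.Lib Subgroup


/-- In a simple group of order 168 every maximal subgroup is either isomorphic to the symmetric group of degree 4 or non-abelian of order 21; the maximal subgroups of order 21 form one conjugacy class and those isomorphic to the symmetric group of degree 4 form exactly two conjugacy classes. -/
theorem result {G : Type*} [Group G] [Finite G] [IsSimpleGroup G] (h : Nat.card G = 168) : (∀ M : Subgroup G, IsCoatom M → Nonempty (↥M ≃* Equiv.Perm (Fin 4)) ∨ (Nat.card ↥M = 21 ∧ ¬ IsMulCommutative ↥M)) ∧ (∀ M M' : Subgroup G, IsCoatom M → IsCoatom M' → Nat.card ↥M = 21 → Nat.card ↥M' = 21 → ∃ g : G, M' = M.map (MulAut.conj g).toMonoidHom) ∧ ∃ M₁ M₂ : Subgroup G, IsCoatom M₁ ∧ IsCoatom M₂ ∧ Nonempty (↥M₁ ≃* Equiv.Perm (Fin 4)) ∧ Nonempty (↥M₂ ≃* Equiv.Perm (Fin 4)) ∧ (∀ g : G, M₂ ≠ M₁.map (MulAut.conj g).toMonoidHom)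 ∧ ∀ M : Subgroup G, IsCoatom M → Nonempty (↥M ≃* Equiv.Perm (Fin 4)) → ∃ g : G, M = M₁.map (MulAut.conj g).toMonoidHom ∨ M = M₂.map (MulAut.conj g).toMonoidHom := by
  refine ⟨fun M hM => ?_, fun M M' hM hM' h1 h2 => ?_, ?_⟩
  · rcases S168.coatom_cases h hM with ⟨P, rfl⟩ | ⟨U, hU, rfl⟩
    · refine Or.inr ⟨S168.card_normalizer7 h P, fun hc => ?_⟩
      have h1 : normalizer ((P : Subgroup G) : Set G) ≤ centralizer ((P : Subgroup G) : Set G) :=
        fun g hg => mem_centralizer_iff.mpr fun y hy =>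
          congrArg Subtype.val (hc.is_comm.comm ⟨y, le_normalizer hy⟩ ⟨g, hg⟩)
      have := card_le_of_le h1
      rw [S168.card_normalizer7 h, (S168.data7 h P).2] at this
      omega
    · exact Or.inl (S168.iso_of_card h (S168.card_normalizer_klein h hU))
  · rcases S168.coatom_cases h hM with ⟨P, rfl⟩ | ⟨U, hU, rfl⟩
    swap
    · rw [S168.card_normalizer_klein h hU] at h1; omega
    rcases S168.coatom_cases h hM' with ⟨Q, rfl⟩ | ⟨U, hU, rfl⟩
    swap
    · rw [S168.card_normalizer_klein h hU] at h2; omega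
    obtain ⟨g, rfl⟩ := MulAction.exists_smul_eq G P Q
    exact ⟨g, by rw [sm_coe_sylow_smul, normalizer_map_conj]⟩
  · obtain ⟨T⟩ : Nonempty (Sylow 2 G) := inferInstance
    obtain ⟨U₁, U₂, hne, h1, h2, h3, h4, h5⟩ := S168.exists_two_kleins h T
    have c1 := S168.card_normalizer_klein h h3
    have c2 := S168.card_normalizer_klein h h4
    refine ⟨_, _, S168.isCoatom_of_card h c1, S168.isCoatom_of_card h c2, S168.iso_of_card h c1,
      S168.iso_of_card h c2, fun g e => hne ?_, fun M hM ⟨e⟩ => ?_⟩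
    · rw [← normalizer_map_conj] at e
      exact S168.klein_not_conj h T h1 h2 h3 h4
        (S168.klein_eq_of_normalizer_eq h h4 (sm_klein_map_conj h3 g) e).symm
    · rcases S168.coatom_cases h hM with ⟨P, rfl⟩ | ⟨U, hU, rfl⟩
      · have := Nat.card_congr e.toEquiv
        rw [S168.card_normalizer7 h, Nat.card_perm, Nat.card_fin] at this
        norm_num [Nat.factorial] at this
      obtain ⟨k, -, hk⟩ := (IsSylowIn.of_sylow_top T).exists_conj_le
        (IsPGroup.of_card (n := 2) hU.card_four) le_top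
      refine ⟨k⁻¹, ?_⟩
      rcases h5 _ hk (sm_klein_map_conj hU k) with e | e
      · left; rw [← normalizer_map_conj, ← e, map_conj_inv_map_conj]
      · right; rw [← normalizer_map_conj, ← e, map_conj_inv_map_conj]

end Cfsg.Agent.S1008
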