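import Cfsg.Statements.S1009
import Mathlib
import Cfsg.Agent.Lib.Small.Basic

set_option autoImplicit false
open Cfsg

namespace Cfsg.Agent.S1009

open Cfsg.Lib Subgroup


/-- Brodkey's Theorem: if a finite group has abelian Sylow p-subgroups, then there are two Sylow p-subgroups whose intersection equals the intersection of all Sylow p-subgroups. -/
theorem result {G : Type*} [Group G] [Finite G] (p : ℕ) [Fact p.Prime] (hab : ∀ P : Sylow p G, IsMulCommutative ↥(P : Subgroup G)) : ∃ P Q : Sylow p G, (P : Subgroup G) ⊓ (Q : Subgroup G) = ⨅ R : Sylow p G, (R : Subgroup G) := by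
  obtain ⟨⟨S, T⟩, hmin⟩ := exists_minimalFor_of_wellFoundedLT (fun _ : Sylow p G × Sylow p G => True)
    (fun a => Nat.card ↥((a.1 : Subgroup G) ⊓ a.2)) ⟨(default, default), trivial⟩
  refine ⟨S, T, le_antisymm (le_iInf fun R => ?_) (le_inf (iInf_le _ S) (iInf_le _ T))⟩
  set D := (S : Subgroup G) ⊓ T with hD
  have hc : ∀ U : Sylow p G, D ≤ U → (U : Subgroup G) ≤ normalizer (D : Set G) := by
    intro U hU
    have := hab U
    exact ((U : Subgroup G).le_centralizer.trans (centralizer_le hU)).trans
      (centralizer_le_normalizer _)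
  have hS := IsSylowIn.of_sylow_le S (hc S inf_le_left)
  obtain ⟨x, hx, hle⟩ := hS.exists_conj_le
    (U := (R : Subgroup G) ⊓ normalizer (D : Set G)) R.isPGroup'.to_inf_left inf_le_right
  have h1 : (T : Subgroup G) ⊓ (x • R : Sylow p G) ≤ D := by
    refine le_inf (fun y hy => hle ?_) inf_le_left
    rw [map_conj_inf, map_conj_eq_of_mem_normalizer (le_normalizer hx)]
    exact ⟨hy.2, hc T inf_le_right hy.1⟩
  have h2 := eq_of_le_of_card_ge h1 (hmin.le (j := (T, x • R)) trivial)
  have h3 : D ≤ (R : Subgroup G).map (MulAut.conj x).toMonoidHom := h2.ge.trans inf_le_right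
  rw [← inv_inv x, ← map_conj_le_iff, map_conj_eq_of_mem_normalizer (inv_mem hx)] at h3
  exact h3

end Cfsg.Agent.S1009
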