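import Cfsg.Statements.S1010
import Mathlib
import Cfsg.Agent.Lib.Defect1.Few
import Cfsg.Agent.Lib.Defect1.Sieve
import Cfsg.Agent.Lib.Coprime.Hall
import Cfsg.Agent.S1009

set_option autoImplicit false
open Cfsg

namespace Cfsg.Agent.S1010

open Cfsg.Lib Subgroup
open scoped commutatorElement


universe u

instance : Fact (Nat.Prime 5) := ⟨by norm_num⟩

theorem card_sylow_le {G : Type*} [Group G] [Finite G] {p : ℕ} [Fact p.Prime] (P : Sylow p G)
    {H : Subgroup G} (h : P ≤ H) :
    Nat.card (Sylow p H) = (normalizer ((P : Subgroup G) : Set G)).relIndex H := by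
  rw [(P.subtype h).card_eq_index_normalizer, ← Sylow.coe_coe, Sylow.coe_subtype,
    ← subgroupOf_normalizer_eq h, relIndex]

theorem card_sylow_quot {G : Type*} [Group G] [Finite G] {p : ℕ} [Fact p.Prime] {K : Subgroup G}
    [K.Normal] (h : ∀ P : Sylow p G, K ≤ normalizer ((P : Subgroup G) : Set G)) :
    Nat.card (Sylow p (G ⧸ K)) = Nat.card (Sylow p G) :=
  (Nat.card_eq_of_bijective _ ⟨fun P Q e => by
    have h1 := congrArg (fun R : Sylow p (G ⧸ K) => (R : Subgroup (G ⧸ K))) e
    simp only [Sylow.coe_mapSurjective, map_eq_map_iff, QuotientGroup.ker_mk'] at h1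
    exact Sylow.ext (Q.is_maximal' P.isPGroup'
      ((le_inf le_rfl (le_sup_left.trans (h1.ge.trans (sup_le le_normalizer (h P))))).trans
        ((Q.isPGroup'.inf_normalizer_sylow P).le.trans inf_le_right))),
    Sylow.mapSurjective_surjective (QuotientGroup.mk'_surjective K) p⟩).symm

theorem simple {G : Type*} [Group G] [Finite G] [IsSimpleGroup G] (P : Sylow 5 G)
    (hP : Nat.card (P : Subgroup G) = 5) (h : Nat.card (Sylow 5 G) = 21) : False := by
  have := Fintype.ofFinite G
  have hG : ¬ IsMulCommutative G := fun _ => by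
    rw [P.card_eq_index_normalizer, ← P.coe_coe, normalizer_eq_top, index_top] at h
    omega
  obtain ⟨x, h1, h2⟩ := sm_exists_ne_one_of_card_prime hP
  have hx := sm_orderOf_eq_of_card_prime hP h1 h2
  have hi : ¬ 5 ∣ (zpowers x).index := sm_eq_zpowers_of_card_prime hP h1 h2 ▸ P.not_dvd_index
  obtain ⟨D⟩ := d1_nonempty_data hx hi
  have he : Nat.card (d1E hx) ∣ 4 := Dvd.intro _ (card_d1E_mul_index hx)
  have he1 := d1_card_E_ne_one hG hx hi
  have hI : (centralizer ({x} : Set G)).index ∣ 4 * 21 := by
    rw [d1_index_centralizer hx hi, h]; exact Nat.mul_dvd_mul_right he _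
  have hV : Nat.card (d1V 5 x) = 1 := by
    by_contra hV
    have h3 := D.dvd_of_dvd_X (c := 7) fun χ hχ h1 => by
      obtain ⟨j, h3, h4⟩ := D.exists_deg_X hi hχ
      have h5 := h4 hG h1 hV
      have h6 := (D.dvd_X hχ).trans hI
      have := Nat.le_of_dvd (by norm_num) h6
      generalize irrDeg χ = z at *
      interval_cases z <;> split_ifs at h3 <;> omega
    obtain ⟨j, h4, h5⟩ := D.exists_deg_θ hi
    have h6 := h5 hG hV
    have h7 := D.d_dvd.trans hI
    have := Nat.le_of_dvd (by norm_num) h7
    have h8 : 10 ≤ D.d := by omega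
    clear h4
    generalize D.d = d at *
    rcases D.δ_eq with e | e <;> rw [e] at h3 <;> interval_cases d <;> omega
  have h3 := d1_card_eq hx hi
  rw [h, hV] at h3
  have := Nat.le_of_dvd (by norm_num) he
  generalize Nat.card (d1E hx) = e at *
  interval_cases e
  · omega
  · omega
  · exact card_ne_of_svCheck (by norm_num) (by decide +kernel) h3
  · omega
  · exact card_ne_of_svCheck (by norm_num) (by decide +kernel) h3

theorem aux (n : ℕ) : ∀ (G : Type u) [Group G] [Finite G], Nat.card G = n →
    Nat.card (Sylow 5 G) ≠ 21 := by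
  induction n using Nat.strong_induction_on with | _ n ih =>
  intro G _ _ hn h
  subst hn
  have h1 : ∀ (K : Subgroup G) [K.Normal] (P : Sylow 5 G),
      K ≤ normalizer ((P : Subgroup G) : Set G) → K = ⊥ := fun K _ P hK => by
    by_contra h1
    refine ih _ ?_ (G ⧸ K) rfl ((card_sylow_quot fun Q => ?_).trans h)
    · rw [← index_eq_card, ← K.index_mul_card]
      exact (Nat.lt_mul_iff_one_lt_right (Nat.pos_of_ne_zero FiniteIndex.index_ne_zero)).mpr
        ((one_lt_card_iff_ne_bot K).mpr h1)
    · obtain ⟨g, rfl⟩ := MulAction.exists_smul_eq G P Q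
      rw [sm_coe_sylow_smul, normalizer_map_conj, ← inv_inv g, ← map_conj_le_iff,
        map_conj_eq_of_mem_normalizer (by simp [normalizer_eq_top])]
      exact hK
  have h2 : ∀ P Q : Sylow 5 G, Q ≠ P → (Q : Subgroup G).relIndex P = 5 := fun P Q hQ => by
    obtain ⟨k, hk⟩ := P.isPGroup'.index ((Q : Subgroup G).subgroupOf P)
    have h3 := Nat.card_le_card_of_injective (Subtype.val : MulAction.orbit (P : Subgroup G) Q → _)
      Subtype.val_injective
    rw [sm_card_orbit_sylow P.isPGroup', h, relIndex, hk] at h3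
    rw [relIndex, hk]
    rcases k with _ | _ | k
    · exact absurd (Sylow.ext (P.is_maximal' Q.isPGroup' (relIndex_eq_one.mp hk))) hQ
    · rfl
    · rw [pow_succ, pow_succ] at h3; have := pow_pos (by norm_num : 0 < 5) k; omega
  have h3 : (⨅ R : Sylow 5 G, (R : Subgroup G)) = ⊥ := by
    have : (⨅ R : Sylow 5 G, (R : Subgroup G)).Normal := ⟨fun a ha g => mem_iInf.mpr fun R => by
      have := sm_mem_sylow_smul.mp (mem_iInf.mp ha (g⁻¹ • R))
      rwa [inv_inv] at this⟩
    exact h1 _ default ((iInf_le _ default).trans le_normalizer)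
  obtain ⟨P, Q, h4⟩ := S1009.result (G := G) 5 fun P => ⟨⟨fun a b => by
    rw [← commutatorElement_eq_one_iff_mul_comm, Subtype.ext_iff, OneMemClass.coe_one, ← mem_bot,
      ← h3, mem_iInf]
    intro Q
    by_cases hQ : Q = P
    · rw [hQ]; exact (⁅a, b⁆).2
    have h5 := h2 P Q hQ
    have : ((Q : Subgroup G).subgroupOf P).Normal := by
      obtain ⟨k, hk⟩ := P.isPGroup'.exists_card_eq
      refine normal_of_index_eq_minFac_card (h5.trans ?_)
      rw [hk, Nat.Prime.pow_minFac (by norm_num)]
      rintro rfl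
      have := Nat.le_of_dvd Nat.card_pos (relIndex_dvd_card (Q : Subgroup G) P)
      omega
    have := isCyclic_of_prime_card (α := P ⧸ (Q : Subgroup G).subgroupOf P) h5
    rw [← mem_subgroupOf, ← QuotientGroup.eq_one_iff, ← QuotientGroup.mk'_apply,
      map_commutatorElement, commutatorElement_eq_one_iff_mul_comm]
    exact mul_comm' _ _⟩⟩
  have hP : Nat.card (P : Subgroup G) = 5 := by
    by_cases hQ : Q = P
    · rw [hQ, inf_idem, h3] at h4
      rw [P.card_eq_index_normalizer, ← P.coe_coe, h4, normalizer_eq_top, index_top] at h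
      omega
    refine Eq.trans ?_ (h2 P Q hQ)
    rw [← inf_relIndex_right, inf_comm, h4, h3, relIndex_bot_left]
  have : Nontrivial G := (nontrivial_iff_exists_ne 1).mpr
    ((sm_exists_ne_one_of_card_prime hP).imp fun _ h => h.2)
  have hN : (normalizer ((P : Subgroup G) : Set G)).index = 21 :=
    P.card_eq_index_normalizer.symm.trans h
  have : IsSimpleGroup G := ⟨fun K _ => or_iff_not_imp_left.mpr fun hK => by
    have h5 : (P : Subgroup G) ⊔ K = ⊤ := by
      have h5 := relIndex_dvd_relIndex_of_le_normalizer (H := normalizer ((P : Subgroup G) : Set G))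
        (N := P ⊔ K) le_top le_top ((le_inf le_rfl (by simp [normalizer_eq_top])).trans
          (normalizer_inf_normalizer_le_normalizer_sup _ _))
      have h6 := card_sylow_le P (H := P ⊔ K) le_sup_left
      have h7 := card_sylow_modEq_one 5 ↥((P : Subgroup G) ⊔ K)
      rw [relIndex_top_right, hN, ← h6] at h5
      by_contra h8
      have h9 := ih _ ((Nat.lt_mul_iff_one_lt_right Nat.card_pos).mpr (one_lt_index_of_ne_top h8)
        |>.trans_eq (card_mul_index _)) _ rfl
      have h10 : Nat.card (Sylow 5 ↥((P : Subgroup G) ⊔ K)) ≠ 1 := fun e =>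
        hK (h1 K P (le_sup_right.trans (relIndex_eq_one.mp (h6 ▸ e))))
      have := Nat.le_of_dvd (by norm_num) h5
      unfold Nat.ModEq at h7
      generalize Nat.card (Sylow 5 ↥((P : Subgroup G) ⊔ K)) = m at *
      interval_cases m <;> omega
    have h6 : K.index ∣ 5 := by
      rw [← relIndex_top_right, ← h5, relIndex_sup_right]
      exact (relIndex_dvd_card _ _).trans hP.dvd
    by_contra h7
    have h8 : ¬ 5 ∣ Nat.card K := fun h8 => P.not_dvd_index (by
      have h9 := K.index_mul_card
      rw [((Nat.dvd_prime (by norm_num)).mp h6).resolve_left (mt index_eq_one.mp h7),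
        ← (P : Subgroup G).card_mul_index, hP, Nat.mul_right_inj (by norm_num)] at h9
      exact h9 ▸ h8)
    have : Fact (Nat.Prime 3) := ⟨by norm_num⟩
    obtain ⟨R, hR, h9⟩ := (CoprimeAct.of_isPGroup P.isPGroup' h8
      (by simp [normalizer_eq_top])).exists_isSylowIn 3
    have h10 := sm_card_modEq_card_inf_centralizer P.isPGroup' h9
    have h11 : R ⊓ centralizer ((P : Subgroup G) : Set G) =
        R ⊓ normalizer ((P : Subgroup G) : Set G) :=
      le_antisymm (inf_le_inf_left _ (centralizer_le_normalizer _)) fun r hr => ⟨hr.1, fun y hy => by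
        rw [← mul_inv_eq_iff_eq_mul, eq_comm, ← mul_inv_eq_one]
        refine (disjoint_of_coprime_natCard (H := P) (K := K) (by
          rw [hP]; exact (Nat.Prime.coprime_iff_not_dvd (by norm_num)).mpr h8)).le_bot
            (mem_inf.mpr ⟨?_, ?_⟩)
        · have := mul_mem (pg_conj_mem_of_mem_normalizer hr.2 hy) (inv_mem (show y ∈ (P : Subgroup G) from hy))
          simpa [mul_assoc] using this
        · have := mul_mem (hR.le hr.1) (‹K.Normal›.conj_mem _ (inv_mem (hR.le hr.1)) y)
          simpa [mul_assoc] using this⟩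
    obtain ⟨k, hk⟩ := hR.isPGroup.index ((normalizer ((P : Subgroup G) : Set G)).subgroupOf R)
    obtain ⟨j, hj⟩ := (hR.isPGroup.to_inf_left
      (K := normalizer ((P : Subgroup G) : Set G))).exists_card_eq
    have h12 := relIndex_mul_relIndex ⊥ (R ⊓ normalizer ((P : Subgroup G) : Set G)) R bot_le
      inf_le_left
    rw [relIndex_bot_left, relIndex_bot_left, inf_relIndex_left, relIndex, hk, hj] at h12
    rw [h11, ← h12, hj] at h10
    have h13 := Nat.ModEq.cancel_left_of_coprime (c := 3 ^ j) (by
      exact Nat.Coprime.pow_right _ (by norm_num)) (h10.trans (by rw [mul_one]))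
    have h14 := relIndex_le_of_le_right (H := normalizer ((P : Subgroup G) : Set G))
      (le_top : R ≤ ⊤) (by rw [relIndex_top_right, hN]; norm_num)
    rw [relIndex_top_right, hN, relIndex, hk] at h14
    have h15 : k = 0 := by
      rcases k with _ | _ | _ | k
      · rfl
      · exact absurd h13 (by decide)
      · exact absurd h13 (by decide)
      · rw [pow_succ, pow_succ, pow_succ] at h14; have := pow_pos (by norm_num : 0 < 3) k; omega
    have h16 := index_dvd_of_le (relIndex_eq_one.mp (hk.trans (by rw [h15, pow_zero])))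
    rw [hN, ← relIndex_mul_index hR.le] at h16
    rcases (Nat.Prime.dvd_mul (by norm_num)).mp (Dvd.dvd.trans (by norm_num : 3 ∣ 21) h16) with e | e
    · exact hR.not_dvd_relIndex e
    · exact absurd (e.trans h6) (by norm_num)⟩
  exact simple P hP h

/-- No finite group has exactly twenty-one Sylow 5-subgroups. -/
theorem result {G : Type*} [Group G] [Finite G] : Nat.card (Sylow 5 G) ≠ 21 := by
  exact aux _ G rfl

end Cfsg.Agent.S1010
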