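import Cfsg.Statements.S1013
import Mathlib
import Cfsg.Agent.Lib.Small.Basic

set_option autoImplicit false
open Cfsg

namespace Cfsg.Agent.S1013

open Cfsg.Lib Subgroup


/-- Let G be a transitive permutation group of prime degree p having more than one Sylow p-subgroup, and suppose a Sylow p-subgroup P has prime index in its normalizer. Then G is simple. -/
theorem result {α : Type*} [Fintype α] [DecidableEq α] {p : ℕ} [Fact p.Prime] (hα : Fintype.card α = p) (G : Subgroup (Equiv.Perm α)) [MulAction.IsPretransitive ↥G α] (P : Sylow p ↥G) (hn : 1 < Nat.card (Sylow p ↥G)) (ht : (((P : Subgroup ↥G).subgroupOf (Subgroup.normalizer ((P : Subgroup ↥G) : Set ↥G))).index).Prime) : IsSimpleGroup ↥G := by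
  have hp : p.Prime := Fact.out
  have hprim : MulAction.IsPreprimitive G α :=
    MulAction.IsPreprimitive.of_prime_card (by rw [Nat.card_eq_fintype_card, hα]; exact hp)
  have hne : Nonempty α := Fintype.card_pos_iff.mp (hα ▸ hp.pos)
  have key : ∀ K : Subgroup G, K.Normal → K ≠ ⊥ → p ∣ Nat.card K := by
    intro K hK hb
    have h1 : MulAction.IsPretransitive K α := by
      refine MulAction.IsQuasiPreprimitive.isPretransitive_of_normal fun e => hb ?_
      rw [eq_bot_iff]
      intro k hk
      refine mem_bot.mpr (Subtype.ext (Equiv.ext fun a => ?_))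
      exact (e ▸ Set.mem_univ a : a ∈ MulAction.fixedPoints K α) ⟨k, hk⟩
    obtain ⟨a⟩ := hne
    have h2 := (MulAction.stabilizer K a).index_dvd_card
    rwa [MulAction.index_stabilizer_of_transitive, Nat.card_eq_fintype_card, hα] at h2
  have h2 : ¬ p ^ 2 ∣ Nat.card G := fun hd => by
    have h3 := hd.trans (card_subgroup_dvd_card G)
    rw [Nat.card_perm, Nat.card_eq_fintype_card, hα] at h3
    obtain ⟨q, rfl⟩ : ∃ q, p = q + 1 := ⟨p - 1, by have := hp.pos; omega⟩
    rw [Nat.factorial_succ, pow_two, Nat.mul_dvd_mul_iff_left hp.pos, hp.dvd_factorial] at h3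
    omega
  have hnt : Nontrivial G := by
    by_contra hs
    rw [not_nontrivial_iff_subsingleton] at hs
    have : Subsingleton (Sylow p G) := ⟨fun a b => Sylow.ext (Subsingleton.elim _ _)⟩
    have := Finite.card_le_one_iff_subsingleton.mpr this
    omega
  have h1 : p ∣ Nat.card G := by
    have := key ⊤ inferInstance top_ne_bot
    rwa [card_top] at this
  have hP := sm_card_sylow_eq_prime h1 h2 P
  refine ⟨fun K hK => ?_⟩
  by_contra hcon
  push Not at hcon
  have hS := (IsSylowIn.of_sylow_top P).inf_of_le_normalizer (N := K) le_top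
    (normalizer_eq_top K).ge
  have hPK : (P : Subgroup G) ≤ K := by
    rw [← inf_eq_left]
    refine eq_of_le_of_card_ge inf_le_left ?_
    rw [hP]
    exact Nat.le_of_dvd Nat.card_pos (hS.dvd_card (key K hK hcon.1))
  rw [inf_eq_left.mpr hPK] at hS
  have h3 := relIndex_mul_relIndex (P : Subgroup G) (K ⊓ normalizer ((P : Subgroup G) : Set G))
    (normalizer ((P : Subgroup G) : Set G)) (le_inf hPK le_normalizer) inf_le_right
  rcases (Nat.dvd_prime ht).mp ⟨_, h3.symm⟩ with e | e
  · have e' := relIndex_eq_one.mp e
    obtain ⟨S, hS'⟩ := hS.exists_sylow'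
    have h4 : HasNormalPComplement p K := by
      refine hasNormalPComplement_of_normalizer_le_centralizer S fun g hg => ?_
      have h5 : (g : G) ∈ (P : Subgroup G) := by
        refine e' ⟨g.2, ?_⟩
        have := le_normalizer_map K.subtype ⟨g, hg, rfl⟩
        rwa [hS', subgroupOf_map_subtype, inf_eq_left.mpr hPK] at this
      have : IsCyclic (P : Subgroup G) := isCyclic_of_prime_card hP
      refine mem_centralizer_iff.mpr fun y hy => Subtype.ext ?_
      rw [hS'] at hy
      have h6 := congrArg Subtype.val
        (IsCyclic.commGroup.mul_comm (⟨y, hy⟩ : (P : Subgroup G)) ⟨g, h5⟩)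
      exact h6
    have h5 := hasNormalPComplement_iff_not_dvd.mp h4
    have h6 : (pResidual p K).map K.subtype = ⊥ := by
      by_contra hb
      have := key _ inferInstance hb
      rw [card_map_of_injective K.subtype_injective] at this
      exact h5 this
    obtain ⟨k, hk⟩ := pResidual_index (p := p) (G := K)
    rw [(map_eq_bot_iff_of_injective _ K.subtype_injective).mp h6, index_bot] at hk
    have h7 : K = P := P.is_maximal' (IsPGroup.of_card hk) hPK
    have : (P : Subgroup G).Normal := h7 ▸ hK
    have := Sylow.unique_of_normal P this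
    rw [Nat.card_unique] at hn
    omega
  · change _ = (P : Subgroup G).relIndex _ at e
    rw [e] at h3
    have h4 : (K ⊓ normalizer ((P : Subgroup G) : Set G)).relIndex
      (normalizer ((P : Subgroup G) : Set G)) = 1 :=
      (Nat.mul_eq_left ht.ne_zero).mp h3
    have h5 := (relIndex_eq_one.mp h4).trans inf_le_left
    have h6 := hS.le_sup_normalizer (H := ⊤) le_top (normalizer_eq_top K).ge
    exact hcon.2 (top_le_iff.mp (h6.trans (sup_le le_rfl (inf_le_right.trans h5))))

end Cfsg.Agent.S1013
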