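import Cfsg.Statements.S1015
import Mathlib
import Cfsg.Agent.Lib.Small.Basic

set_option autoImplicit false
open Cfsg

namespace Cfsg.Agent.S1015

open Cfsg.Lib Subgroup


/-- No finite simple group has order 1200 = 2^4 * 3 * 5^2. -/
theorem result {G : Type*} [Group G] [Finite G] [IsSimpleGroup G] : Nat.card G ≠ 1200 := by
  intro h
  have hG : ¬ IsMulCommutative G := sm_not_comm_of_not_prime (by rw [h]; norm_num)
  have : Fact (Nat.Prime 5) := ⟨by norm_num⟩
  obtain ⟨P⟩ : Nonempty (Sylow 5 G) := inferInstance
  have hc : ∀ Q : Sylow 5 G, Nat.card (Q : Subgroup G) = 5 ^ 2 := fun Q => by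
    rw [Q.card_eq_multiplicity, h]
    congr 1
    exact Nat.factorization_eq_of_coprime_left (a := 25) (b := 48) (by norm_num) (by simp) |>.trans
      (by rw [show 25 = 5 ^ 2 from rfl, Nat.Prime.factorization_pow (by norm_num)]; simp)
  have hidx : ∀ H : Subgroup G, H ≠ ⊤ → 10 ≤ H.index := by
    intro H hH
    have h1 := sm_card_dvd_factorial hH
    by_contra hlt
    have := h1.trans (Nat.factorial_dvd_factorial (show H.index ≤ 9 by omega))
    rw [h] at this
    norm_num [Nat.factorial] at this
  have hi : (P : Subgroup G).index = 48 := by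
    have := (P : Subgroup G).index_mul_card
    rw [hc, h] at this
    omega
  have hn : Nat.card (Sylow 5 G) = 16 := by
    have h1 := P.card_dvd_index
    have h2 := card_sylow_modEq_one 5 G
    have h3 := hidx _ (sm_normalizer_pgroup_ne_top hG P.isPGroup' (P.ne_bot_of_dvd_card (by rw [h]; norm_num)))
    rw [P.coe_coe, ← P.card_eq_index_normalizer] at h3
    rw [hi] at h1
    generalize Nat.card (Sylow 5 G) = n at *
    have := Nat.le_of_dvd (by norm_num) h1
    unfold Nat.ModEq at h2
    interval_cases n <;> simp_all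
  have h1 : ¬ ∀ R : Sylow 5 G, R ≠ P → 25 ∣ (R : Subgroup G).relIndex P := fun h' => by
    have := sm_card_sylow_modEq_one P h'
    rw [hn] at this
    exact absurd this (by decide)
  push Not at h1
  obtain ⟨R, hRP, hR⟩ := h1
  set D := (P : Subgroup G) ⊓ R with hD
  have hD1 : D ≠ ⊥ := by
    intro e
    have := pg_card_eq_relIndex_mul_card_inf (R : Subgroup G) P
    rw [← hD, e, card_bot, hc, mul_one] at this
    exact hR (this ▸ dvd_rfl)
  have hle : ∀ U : Sylow 5 G, D ≤ U → (U : Subgroup G) ≤ normalizer (D : Set G) := by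
    intro U hU
    have := IsPGroup.isMulCommutative_of_card_eq_prime_sq (hc U)
    exact ((U : Subgroup G).le_centralizer.trans (centralizer_le hU)).trans
      (centralizer_le_normalizer _)
  set N := normalizer (D : Set G) with hN
  have h2 := hidx N (sm_normalizer_pgroup_ne_top hG P.isPGroup'.to_inf_left hD1)
  have h3 := relIndex_mul_index (hle P inf_le_left)
  have h4 := (P.subtype (hle P inf_le_left)).card_dvd_index
  have h5 := card_sylow_modEq_one 5 N
  have h6 : Nat.card (Sylow 5 N) ≠ 1 := fun e => by
    have := (Nat.card_eq_one_iff_unique.mp e).1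
    exact hRP (Sylow.subtype_injective (Subsingleton.elim (R.subtype (hle R inf_le_right))
      (P.subtype (hle P inf_le_left))))
  rw [Sylow.coe_subtype, ← relIndex] at h4
  rw [hi] at h3
  have h7 : (P : Subgroup G).relIndex N ≤ 4 := by nlinarith
  have h8 := Nat.le_of_dvd (Nat.pos_of_ne_zero (by rintro e; simp [e] at h3)) h4
  unfold Nat.ModEq at h5
  omega

end Cfsg.Agent.S1015
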