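import Cfsg.Statements.S1017
import Mathlib
import Cfsg.Agent.Lib.Defect1.Sieve

set_option autoImplicit false
open Cfsg

namespace Cfsg.Agent.S1017

open Cfsg.Lib Subgroup


/-- No finite simple group has order 2016 = 2^5 * 3^2 * 7. -/
theorem result {G : Type*} [Group G] [Finite G] [IsSimpleGroup G] : Nat.card G ≠ 2016 := by
  exact card_ne_of_svCheck (by norm_num) (by decide +kernel)

end Cfsg.Agent.S1017
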