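import Cfsg.Statements.S1018
import Mathlib
import Cfsg.Agent.Lib.Small.Basic

set_option autoImplicit false
open Cfsg

namespace Cfsg.Agent.S1018

open Cfsg.Lib Subgroup


/-- Let P be a Sylow p-subgroup of order p of a finite group G, and consider the action of G on the left cosets of the normalizer N of P. Then every element of order p fixes exactly one coset, and an element of N that does not centralize P fixes at most as many cosets as there are orbits of P. -/
theorem result {G : Type*} [Group G] [Finite G] (p : ℕ) [Fact p.Prime] (P : Sylow p G) (hP : Nat.card ↥(P : Subgroup G) = p) : (∀ y : G, orderOf y = p → Nat.card (MulAction.fixedBy (G ⧸ Subgroup.normalizer ((P : Subgroup G) : Set G)) y) = 1) ∧ ∀ x : G, x ∈ Subgroup.normalizer ((P : Subgroup G) : Set G) → x ∉ Subgroup.centralizer ((P : Subgroup G) : Set G) → Nat.card (MulAction.fixedBy (G ⧸ Subgroup.normalizer ((P : Subgroup G) : Set G)) x) ≤ Nat.card (MulAction.orbitRel.Quotient ↥(P : Subgroup G) (G ⧸ Subgroup.normalizer ((P :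 Subgroup G) : Set G))) := by
  have hc : ∀ Q : Sylow p G, Nat.card (Q : Subgroup G) = p := fun Q =>
    (sm_card_sylow_eq_card Q P).trans hP
  set N := normalizer ((P : Subgroup G) : Set G) with hN
  have key : ∀ y g : G, orderOf y = p → (y • (g : G ⧸ N) = g ↔ g⁻¹ * y * g ∈ (P : Subgroup G)) := by
    intro y g hy
    rw [sm_smul_coset_eq_iff]
    refine ⟨fun h => ?_, fun h => le_normalizer h⟩
    have ho : orderOf (g⁻¹ * y * g) = p := by
      rw [← hy]
      simpa using orderOf_injective (MulAut.conj g⁻¹).toMonoidHom (MulAut.conj g⁻¹).injective y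
    have hpg : IsPGroup p (zpowers (g⁻¹ * y * g)) :=
      IsPGroup.of_card (n := 1) (by rw [Nat.card_zpowers, ho, pow_one])
    exact ((hpg.inf_normalizer_sylow P).le ⟨mem_zpowers _, h⟩).2
  refine ⟨fun y hy => ?_, fun x hx hxc => ?_⟩
  · obtain ⟨Q, hQ⟩ := sm_exists_sylow_eq_zpowers hP hy
    obtain ⟨g, rfl⟩ := MulAction.exists_smul_eq G P Q
    have hy1 : y ≠ 1 := by
      rintro rfl
      exact (Fact.out : p.Prime).one_lt.ne (by simpa using hy)
    have hg : g⁻¹ * y * g ∈ P := sm_mem_sylow_smul.mp (hQ.ge (mem_zpowers y))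
    rw [Nat.card_eq_one_iff_exists]
    refine ⟨⟨g, (key y g hy).mpr hg⟩, ?_⟩
    rintro ⟨q, hq⟩
    obtain ⟨h, rfl⟩ := QuotientGroup.mk_surjective q
    refine Subtype.ext (QuotientGroup.eq.mpr (Sylow.smul_eq_iff_mem_normalizer.mp ?_))
    have h1 : y ∈ h • P := sm_mem_sylow_smul.mpr ((key y h hy).mp hq)
    have h2 : h • P = g • P := Sylow.ext ((sm_eq_zpowers_of_card_prime (hc _) h1 hy1).trans hQ.symm)
    rw [mul_smul, ← h2, inv_smul_smul]
  · refine Nat.card_le_card_of_injective (fun a => Quotient.mk'' a.1) ?_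
    rintro ⟨a, ha⟩ ⟨b, hb⟩ h
    obtain ⟨u, hu⟩ := MulAction.orbitRel_apply.mp (Quotient.eq''.mp h)
    refine Subtype.ext ?_
    change (u : G) • b = a at hu
    change a = b
    by_cases hu1 : (u : G) = 1
    · rw [← hu, hu1, one_smul]
    have hPu := sm_eq_zpowers_of_card_prime hP u.2 hu1
    have h1 : ((u : G)⁻¹ * (x * u * x⁻¹)) ∈ (P : Subgroup G) :=
      mul_mem (inv_mem u.2) (pg_conj_mem_of_mem_normalizer hx u.2)
    have h2 : ((u : G)⁻¹ * (x * u * x⁻¹)) ≠ 1 := by
      intro e
      apply hxc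
      rw [hPu, sm_centralizer_zpowers, mem_centralizer_singleton_iff]
      calc x * u = u * ((u : G)⁻¹ * (x * u * x⁻¹)) * x := by group
        _ = _ := by rw [e, mul_one]
    have h3 : ((u : G)⁻¹ * (x * u * x⁻¹)) ∈ MulAction.stabilizer G b := by
      have ha' : x • a = a := ha
      have hb' : x⁻¹ • b = b := inv_smul_eq_iff.mpr (Eq.symm hb)
      rw [MulAction.mem_stabilizer_iff, mul_smul, mul_smul, mul_smul, hb', hu, ha', ← hu,
        inv_smul_smul]
    have h4 : (P : Subgroup G) ≤ MulAction.stabilizer G b := by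
      rw [sm_eq_zpowers_of_card_prime hP h1 h2]; exact zpowers_le_of_mem h3
    rw [← hu]; exact h4 u.2

end Cfsg.Agent.S1018
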