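import Cfsg.Statements.S1019
import Mathlib
import Cfsg.Agent.Lib.Small.Basic

set_option autoImplicit false
open Cfsg

namespace Cfsg.Agent.S1019

open Cfsg.Lib Subgroup


/-- Let H be a subgroup of a finite group G and x an element of H. In the action of G on the left cosets of H, the number of cosets fixed by x, multiplied by the size of the conjugacy class of x, equals the index of H multiplied by the number of conjugates of x that lie in H. -/
theorem result {G : Type*} [Group G] [Finite G] (H : Subgroup G) (x : G) (hx : x ∈ H) : Nat.card (MulAction.fixedBy (G ⧸ H) x) * Nat.card {g : G // IsConj x g} = H.index * Nat.card {g : G // IsConj x g ∧ g ∈ H} := by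
  have h1 := sm_card_fixedBy_mul_card H x
  have h2 := sm_card_isConj_mul x
  have h3 := H.index_mul_card
  have hpos : 0 < Nat.card H * Nat.card (centralizer ({x} : Set G)) :=
    Nat.mul_pos Nat.card_pos Nat.card_pos
  apply Nat.eq_of_mul_eq_mul_left hpos
  calc _ = (Nat.card H * Nat.card (MulAction.fixedBy (G ⧸ H) x)) *
        (Nat.card {g : G // IsConj x g} * Nat.card (centralizer ({x} : Set G))) := by ring
    _ = _ := by rw [h1, h2, ← h3]; ring

end Cfsg.Agent.S1019
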