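import Cfsg.Statements.S1022
import Mathlib
import Cfsg.Agent.S1001
import Cfsg.Agent.S0996
import Cfsg.Agent.Lib.PGroup.AbelSylow
import Cfsg.Agent.Lib.Coprime.Sylow
import Cfsg.Agent.Lib.Core.Rad

set_option autoImplicit false
open Cfsg

namespace Cfsg.Agent.S1022

open Cfsg.Lib Subgroup

universe u

instance fact19 : Fact (Nat.Prime 19) := ⟨by norm_num⟩

/-- elements of order 19 in `K` -/
def S {G : Type u} [Group G] (K : Subgroup G) : Set G := {g | orderOf g = 19 ∧ g ∈ K}

section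
variable {G : Type u} [Group G] [Finite G]

theorem card_P (hd : Nat.card G ∣ 459648) (h19 : 19 ∣ Nat.card G) (P : Sylow 19 G) :
    Nat.card (P : Subgroup G) = 19 :=
  sm_card_sylow_eq_prime h19 (fun h => by have := h.trans hd; norm_num at this) P

theorem n_dvd (hd : Nat.card G ∣ 459648) (h19 : 19 ∣ Nat.card G) :
    Nat.card (Sylow 19 G) * 19 ∣ Nat.card G := by
  obtain ⟨P⟩ : Nonempty (Sylow 19 G) := inferInstance
  rw [← (P : Subgroup G).index_mul_card, card_P hd h19 P]
  exact Nat.mul_dvd_mul_right P.card_dvd_index 19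

theorem n_cases (hd : Nat.card G ∣ 459648) (h19 : 19 ∣ Nat.card G) :
    Nat.card (Sylow 19 G) = 1 ∨ Nat.card (Sylow 19 G) = 96 ∨ Nat.card (Sylow 19 G) = 1008 := by
  have h1 : Nat.card (Sylow 19 G) ∣ 24192 :=
    Nat.dvd_of_mul_dvd_mul_right (by norm_num : 0 < 19) ((n_dvd hd h19).trans hd)
  have h2 : Nat.card (Sylow 19 G) % 19 = 1 := card_sylow_modEq_one 19 G
  generalize Nat.card (Sylow 19 G) = n at *
  have h3 : n ≤ 24192 := Nat.le_of_dvd (by norm_num) h1
  have h4 : ∀ k < 1274, 24192 % (19 * k + 1) = 0 → k = 0 ∨ k = 5 ∨ k = 53 := by decide +kernel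
  have h5 : n = 19 * (n / 19) + 1 := by omega
  have := h4 (n / 19) (by omega) (by rw [← h5]; exact Nat.mod_eq_zero_of_dvd h1)
  omega

theorem dvd_of_mem {K : Subgroup G} {x : G} (hx : orderOf x = 19) (hK : x ∈ K) :
    19 ∣ Nat.card K := hx ▸ K.orderOf_dvd_natCard hK

theorem ncard_S (hd : Nat.card G ∣ 459648) {K : Subgroup G} (h19 : 19 ∣ Nat.card K) :
    (S K).ncard = Nat.card (Sylow 19 K) * 18 := by
  obtain ⟨P⟩ : Nonempty (Sylow 19 K) := inferInstance
  have := sm_card_orderOf_eq_prime (card_P ((card_subgroup_dvd_card K).trans hd) h19 P)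
  rw [← this, ← Nat.card_coe_set_eq]
  refine Nat.card_congr ⟨fun g => ⟨⟨g.1, g.2.2⟩, by rw [orderOf_mk]; exact g.2.1⟩,
    fun g => ⟨g.1.1, by rw [orderOf_coe]; exact g.2, g.1.2⟩, fun _ => rfl, fun _ => rfl⟩

theorem ncard_S_top (hd : Nat.card G ∣ 459648) (h19 : 19 ∣ Nat.card G) :
    (S (⊤ : Subgroup G)).ncard = Nat.card (Sylow 19 G) * 18 := by
  obtain ⟨P⟩ : Nonempty (Sylow 19 G) := inferInstance
  have := sm_card_orderOf_eq_prime (card_P hd h19 P)
  rw [← this, ← Nat.card_coe_set_eq]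
  exact Nat.card_congr (Equiv.subtypeEquivRight fun g => by simp [S])

omit [Finite G] in
theorem S_mono {K L : Subgroup G} (h : K ≤ L) : S K ⊆ S L := fun _ hg => ⟨hg.1, h hg.2⟩

theorem mem_zpowers_of_one (hd : Nat.card G ∣ 459648) {K : Subgroup G} {x y : G}
    (hx : orderOf x = 19) (hxK : x ∈ K) (hy : orderOf y = 19) (hyK : y ∈ K)
    (h : Nat.card (Sylow 19 K) = 1) : y ∈ zpowers x := by
  have h1 := ncard_S hd (dvd_of_mem hx hxK)
  have h2 := ncard_S hd (dvd_of_mem hx (mem_zpowers x))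
  have h3 : Nat.card (Sylow 19 (zpowers x)) ≠ 0 := Nat.card_pos.ne'
  have h4 := Set.eq_of_subset_of_ncard_le (S_mono (zpowers_le.2 hxK)) (by omega) (Set.toFinite _)
  exact (h4.ge ⟨hy, hyK⟩).2

theorem mem_normalizer_of_one (hd : Nat.card G ∣ 459648) {K : Subgroup G} {x : G}
    (hx : orderOf x = 19) (hxK : x ∈ K) (h : Nat.card (Sylow 19 K) = 1) :
    K ≤ normalizer (zpowers x : Set G) := fun g hg => by
  refine mem_normalizer_fintype fun y hy => ?_
  obtain ⟨n, rfl⟩ := mem_zpowers_iff.1 hy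
  rw [← conj_zpow]
  refine zpow_mem (mem_zpowers_of_one hd hx hxK ?_ (mul_mem (mul_mem hg hxK) (inv_mem hg)) h) n
  rw [← hx]
  exact (MulAut.conj g).orderOf_eq x

theorem eq_one_of_S_le [IsSimpleGroup G] (hG : ¬ IsMulCommutative G) {x y : G}
    (hx : orderOf x = 19) (h : S ⊤ ⊆ S (centralizer ({y} : Set G))) : y = 1 := by
  have h1 : normalClosure ({x} : Set G) = ⊤ :=
    (normalClosure_normal.eq_bot_or_eq_top).resolve_left fun e => by
      have := e.le (subset_normalClosure (Set.mem_singleton x))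
      rw [mem_bot] at this
      rw [this, orderOf_one] at hx
      omega
  have h2 : normalClosure ({x} : Set G) ≤ centralizer ({y} : Set G) := by
    refine closure_le _ |>.2 fun z hz => ?_
    obtain ⟨a, ha, hc⟩ := Group.mem_conjugatesOfSet_iff.1 hz
    obtain rfl := Set.mem_singleton_iff.1 ha
    obtain ⟨c, rfl⟩ := isConj_iff.1 hc
    exact (h ⟨((MulAut.conj c).orderOf_eq a).trans hx, trivial⟩).2
  have h3 : y ∈ center G := mem_center_iff.2 fun g =>
    mem_centralizer_singleton_iff.1 (h2 (h1.ge (mem_top g)))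
  rcases (inferInstance : (center G).Normal).eq_bot_or_eq_top with e | e
  · rwa [e, mem_bot] at h3
  · exact absurd ⟨⟨fun a b => mem_center_iff.1 (e.ge (mem_top b)) a⟩⟩ hG

theorem ncard_modEq {q : ℕ} [Fact q.Prime] {y : G} (hy : orderOf y = q) :
    (S (⊤ : Subgroup G)).ncard ≡ (S (centralizer ({y} : Set G))).ncard [MOD q] := by
  classical
  let f : Function.End (S (⊤ : Subgroup G)) := fun g =>
    ⟨y * g.1 * y⁻¹, ((MulAut.conj y).orderOf_eq g.1).trans g.2.1, trivial⟩
  have hf : ∀ n : ℕ, ∀ g, ((f ^ n) g).1 = y ^ n * g.1 * (y ^ n)⁻¹ := fun n => by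
    induction n with
    | zero => intro g; simp [Function.End.one_def]
    | succ n ih =>
      intro g
      rw [pow_succ, pow_succ]
      change ((f ^ n) (f g)).1 = _
      rw [ih]
      simp [f, mul_assoc]
  have := Fintype.ofFinite (S (⊤ : Subgroup G))
  have h1 := Equiv.Perm.card_fixedPoints_modEq (f := f) (p := q) (n := 1) (by
    funext g
    refine Subtype.ext ?_
    rw [hf, pow_one, ← hy, pow_orderOf_eq_one]
    simp [Function.End.one_def])
  rw [← Nat.card_coe_set_eq, ← Nat.card_coe_set_eq]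
  rw [← Nat.card_eq_fintype_card, ← Nat.card_eq_fintype_card] at h1
  convert h1 using 1
  refine Nat.card_congr ⟨fun g => ⟨⟨g.1, g.2.1, trivial⟩, Subtype.ext ?_⟩,
    fun g => ⟨g.1.1, g.1.2.1, ?_⟩, fun _ => rfl, fun _ => rfl⟩
  · exact mul_inv_eq_iff_eq_mul.2 (mem_centralizer_singleton_iff.1 g.2.2).symm
  · exact mem_centralizer_singleton_iff.2
      (mul_inv_eq_iff_eq_mul.1 (congrArg Subtype.val g.2)).symm

theorem simple_ne (hd : Nat.card G ∣ 459648) (h19 : 19 ∣ Nat.card G) [IsSimpleGroup G] :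
    Nat.card (Sylow 19 G) ≠ 96 := fun hn => by
  have hG : ¬ IsMulCommutative G := sm_not_comm_of_not_prime fun hp => by
    have h1 := n_dvd hd h19
    rw [hn] at h1
    have h2 := (Nat.prime_dvd_prime_iff_eq Nat.prime_two hp).1 ((by norm_num : 2 ∣ 96 * 19).trans h1)
    rw [← h2] at h19
    omega
  obtain ⟨P⟩ : Nonempty (Sylow 19 G) := inferInstance
  obtain ⟨x, hxP, hx1⟩ := sm_exists_ne_one_of_card_prime (card_P hd h19 P)
  have hx := sm_orderOf_eq_of_card_prime (card_P hd h19 P) hxP hx1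
  by_cases h7 : 7 ∣ Nat.card G
  · obtain ⟨e, v, h1, h2, -, -, -, h3, -⟩ := sm_prime_sylow_data hG h19
      (fun h => by have := h.trans hd; norm_num at this) P
    have : Fact (Nat.Prime 7) := ⟨by norm_num⟩
    have h4 : 7 ∣ 19 * v := by
      rw [h1, hn] at h7
      have h5 : 7 ∣ e * (19 * v) := (Nat.Coprime.dvd_mul_left (by norm_num)).1 h7
      exact (Nat.Coprime.dvd_mul_left (Nat.Coprime.coprime_dvd_right h2 (by norm_num))).1 h5
    obtain ⟨⟨y, hyP⟩, hy⟩ := exists_prime_orderOf_dvd_card' 7 (h3 ▸ h4)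
    rw [orderOf_mk] at hy
    have hxy : x ∈ centralizer ({y} : Set G) :=
      mem_centralizer_singleton_iff.2 (mem_centralizer_iff.1 hyP x hxP)
    have h5 := ncard_modEq hy
    have h6 := ncard_S hd (dvd_of_mem hx hxy)
    have h8 := ncard_S_top hd h19
    have h9 := Set.ncard_le_ncard (S_mono (le_top : centralizer ({y} : Set G) ≤ ⊤)) (Set.toFinite _)
    rcases n_cases ((card_subgroup_dvd_card _).trans hd) (dvd_of_mem hx hxy) with h | h | h
    · rw [h6, h8, h, hn] at h5
      exact absurd h5 (by decide)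
    · have := eq_one_of_S_le hG hx (Set.eq_of_subset_of_ncard_le (S_mono le_top)
        (by rw [h6, h8, h, hn]) (Set.toFinite _)).ge
      rw [this, orderOf_one] at hy
      omega
    · omega
  · obtain ⟨m, hm⟩ := h19
    have h1 : m ∣ 7 * (3 ^ 3 * 2 ^ 7) :=
      Nat.dvd_of_mul_dvd_mul_left (by norm_num : 0 < 19) (hm ▸ hd)
    have h2 : m ∣ 3 ^ 3 * 2 ^ 7 := (Nat.Coprime.dvd_mul_left
      ((Nat.Prime.coprime_iff_not_dvd (by norm_num)).2 fun h => h7 (hm ▸ h.mul_left 19)).symm).1 h1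
    obtain ⟨a, b, ha, hb, rfl⟩ := exists_dvd_and_dvd_of_dvd_mul h2
    obtain ⟨i, -, rfl⟩ := (Nat.dvd_prime_pow Nat.prime_three).1 ha
    obtain ⟨j, -, rfl⟩ := (Nat.dvd_prime_pow Nat.prime_two).1 hb
    have hC := Cfsg.Agent.S1001.result 19 i j (by norm_num) (hm.trans (mul_assoc ..).symm) x hx
    rcases Cfsg.Agent.S0996.result (sm_commutator_eq_top hG) 19 x hx hC (by rw [hn]; norm_num) with
      ⟨F, _, _, hF, -, ⟨e⟩⟩ | ⟨k, F, _, _, -, hk, -⟩
    · have h3 := card_eq_card_quotient_mul_card_subgroup (center (Matrix.SpecialLinearGroup (Fin 2) F))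
      rw [h9_card_sl2, pg_card_center_sl2 (h9_two_ne_zero_of_odd_card (by rw [hF]; decide)), hF] at h3
      have h4 : Nat.card G = Nat.card (Matrix.SpecialLinearGroup (Fin 2) F ⧸
        center (Matrix.SpecialLinearGroup (Fin 2) F)) := Nat.card_congr e.toEquiv
      have h5 : Nat.card G = 3420 := by omega
      rw [h5] at hd
      norm_num at hd
    · have h3 : 2 ^ k = 18 := by omega
      have := Nat.prime_three.dvd_of_dvd_pow (h3 ▸ (by norm_num : 3 ∣ 18))
      omega

theorem mem_of_coprime {K : Subgroup G} [K.Normal] {y : G} (h : K.index.Coprime (orderOf y)) :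
    y ∈ K :=
  zpowers_le.2 (K.pow_index_mem y) (mem_zpowers_pow_iff.2 h)

theorem card_lt {K : Subgroup G} (h : K ≠ ⊤) : Nat.card K < Nat.card G := by
  rw [← K.index_mul_card]
  exact lt_mul_of_one_lt_left Nat.card_pos (one_lt_index_of_ne_top h)

end

theorem ne96 (n : ℕ) : ∀ (G : Type u) [Group G] [Finite G], Nat.card G = n →
    Nat.card G ∣ 459648 → 19 ∣ Nat.card G → Nat.card (Sylow 19 G) ≠ 96 := by
  induction n using Nat.strong_induction_on with
  | _ n ih =>
  intro G _ _ hn hd h19 h96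
  have hnorm : ∀ K : Subgroup G, K.Normal → 19 ∣ Nat.card K → K = ⊤ := fun K hK hK19 => by
    by_contra hne
    refine ih _ (hn ▸ card_lt hne) K rfl ((card_subgroup_dvd_card K).trans hd) hK19 ?_
    have h1 : ¬ 19 ∣ K.index := fun h => by
      have := (Nat.mul_dvd_mul h hK19).trans (K.index_mul_card ▸ hd)
      norm_num at this
    have h2 : S K = S ⊤ := (S_mono le_top).antisymm fun y hy => ⟨hy.1, mem_of_coprime (by
      rw [hy.1]; exact ((Nat.Prime.coprime_iff_not_dvd (by norm_num)).2 h1).symm)⟩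
    have h3 := ncard_S hd hK19
    rw [h2, ncard_S_top hd h19] at h3
    omega
  by_cases hs : IsSimpleGroup G
  · exact simple_ne hd h19 h96
  have : Nontrivial G := Finite.one_lt_card_iff_nontrivial.1
    (lt_of_lt_of_le (by norm_num) (Nat.le_of_dvd Nat.card_pos h19))
  obtain ⟨N, hN, h1, h2⟩ : ∃ N : Subgroup G, N.Normal ∧ N ≠ ⊥ ∧ N ≠ ⊤ := by
    by_contra h
    refine hs ⟨fun N hN => ?_⟩
    by_contra h'
    exact h ⟨N, hN, fun e => h' (.inl e), fun e => h' (.inr e)⟩
  have hQd : Nat.card (G ⧸ N) ∣ 459648 := (card_quotient_dvd_card N).trans hd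
  have hQ19 : 19 ∣ Nat.card (G ⧸ N) := by
    rw [card_eq_card_quotient_mul_card_subgroup N] at h19
    exact ((Nat.Prime.dvd_mul (by norm_num)).1 h19).resolve_right fun h => h2 (hnorm N hN h)
  have hQ : Nat.card (Sylow 19 (G ⧸ N)) = 1 := by
    have h3 := Nat.card_le_card_of_surjective _
      (Sylow.mapSurjective_surjective (QuotientGroup.mk'_surjective N) 19)
    have h4 := ih _ (by
      rw [← hn, card_eq_card_quotient_mul_card_subgroup N]
      exact lt_mul_of_one_lt_right Nat.card_pos (N.one_lt_card_iff_ne_bot.2 h1)) (G ⧸ N) rfl hQd hQ19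
    have := n_cases hQd hQ19
    omega
  obtain ⟨P⟩ : Nonempty (Sylow 19 G) := inferInstance
  have hi : N.index = 19 := by
    have := (Nat.card_eq_one_iff_unique.1 hQ).1
    let R := P.mapSurjective (QuotientGroup.mk'_surjective N)
    have h3 : (R : Subgroup (G ⧸ N)).Normal := Sylow.normal_of_subsingleton R
    have h4 := hnorm ((R : Subgroup (G ⧸ N)).comap (QuotientGroup.mk' N)) inferInstance
      ((card_P hd h19 P).symm.dvd.trans (card_dvd_of_le (le_comap_map _ _)))
    have h5 : (R : Subgroup (G ⧸ N)) = ⊤ := by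
      rw [← map_comap_eq_self_of_surjective (QuotientGroup.mk'_surjective N) (R : Subgroup (G ⧸ N)),
        h4, map_top_of_surjective _ (QuotientGroup.mk'_surjective N)]
    rw [index_eq_card, ← card_top, ← h5, card_P hQd hQ19]
  obtain ⟨T⟩ : Nonempty (Sylow 2 G) := inferInstance
  obtain ⟨k, hk⟩ := T.isPGroup'.exists_card_eq
  have hTN : (T : Subgroup G) ≤ N := fun y hy => mem_of_coprime (by
    rw [hi]
    exact Nat.Coprime.coprime_dvd_right (hk ▸ (T : Subgroup G).orderOf_dvd_natCard hy)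
      (Nat.Coprime.pow_right _ (by norm_num)))
  have h3 : 19 ∣ Nat.card (normalizer ((T : Subgroup G) : Set G)) := by
    rw [← hi, ← relIndex_top_right, ← T.normalizer_sup_eq_top' hTN, relIndex_sup_right]
    exact relIndex_dvd_card _ _
  obtain ⟨⟨x, hxT⟩, hx⟩ := exists_prime_orderOf_dvd_card' 19 h3
  rw [orderOf_mk] at hx
  have hxK : x ∈ zpowers x ⊔ (T : Subgroup G) := mem_sup_left (mem_zpowers x)
  have hKd := (card_subgroup_dvd_card (zpowers x ⊔ (T : Subgroup G))).trans hd
  have h4 := (n_dvd hKd (dvd_of_mem hx hxK)).trans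
    (card_sup_dvd_mul_of_le_normalizer (zpowers_le.2 hxT))
  rw [Nat.card_zpowers, hx, hk, mul_comm 19] at h4
  have h5 : ¬ 3 ∣ Nat.card (Sylow 19 ↥(zpowers x ⊔ (T : Subgroup G))) := fun h => by
    have := Nat.prime_three.dvd_of_dvd_pow
      (h.trans (Nat.dvd_of_mul_dvd_mul_right (by norm_num) h4))
    omega
  have h6 := mem_normalizer_of_one hd hx hxK (by
    have := n_cases hKd (dvd_of_mem hx hxK)
    omega)
  obtain ⟨R, hR⟩ := sm_exists_sylow_eq_zpowers (card_P hd h19 P) hx
  have h7 := index_dvd_of_le (le_sup_right.trans h6)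
  rw [← hR, Sylow.coe_coe, ← R.card_eq_index_normalizer, h96] at h7
  exact T.not_dvd_index ((by norm_num : 2 ∣ 96).trans h7)

/-- No finite simple group has order 459648 = 2^7 * 3^3 * 7 * 19. -/
theorem result {G : Type*} [Group G] [Finite G] [IsSimpleGroup G] : Nat.card G ≠ 459648 := by
  intro hc
  have hd : Nat.card G ∣ 459648 := hc.dvd
  have h19 : 19 ∣ Nat.card G := by rw [hc]; norm_num
  have hG : ¬ IsMulCommutative G := sm_not_comm_of_not_prime (by rw [hc]; norm_num)
  obtain ⟨P⟩ : Nonempty (Sylow 19 G) := inferInstance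
  obtain ⟨x, hxP, hx1⟩ := sm_exists_ne_one_of_card_prime (card_P hd h19 P)
  have hx := sm_orderOf_eq_of_card_prime (card_P hd h19 P) hxP hx1
  have hPx := sm_eq_zpowers_of_card_prime (card_P hd h19 P) hxP hx1
  obtain ⟨e, v, h1, h2, -, -, h3, -, h4⟩ := sm_prime_sylow_data hG h19 (by rw [hc]; norm_num) P
  have hn : Nat.card (Sylow 19 G) = 1008 := by
    have := n_cases hd h19
    have := ne96 _ G rfl hd h19
    omega
  have key : ∀ t : G, t ≠ 1 → ∀ y, orderOf y = 19 → x ∈ centralizer ({t} : Set G) →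
      y ∈ centralizer ({t} : Set G) → y ∈ zpowers x := fun t ht y hy hxt hyt => by
    refine mem_zpowers_of_one hd hx hxt hy hyt ?_
    have hKd := (card_subgroup_dvd_card (centralizer ({t} : Set G))).trans hd
    rcases n_cases hKd (dvd_of_mem hx hxt) with h | h | h
    · exact h
    · exact absurd h (ne96 _ _ rfl hKd (dvd_of_mem hx hxt))
    · exact absurd (eq_one_of_S_le hG hx (Set.eq_of_subset_of_ncard_le (S_mono le_top)
        (by rw [ncard_S hd (dvd_of_mem hx hxt), ncard_S_top hd h19, h, hn]) (Set.toFinite _)).ge) ht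
  set N := normalizer ((P : Subgroup G) : Set G) with hN
  have hNc : Nat.card N = 456 := by
    have h5 := N.index_mul_card
    rw [hN, Sylow.coe_coe, ← P.card_eq_index_normalizer, hn, hc, ← Sylow.coe_coe, ← hN] at h5
    omega
  obtain ⟨T', hT'⟩ := Sylow.exists_subgroup_card_pow_prime (G := N) 2 (n := 3) (by rw [hNc]; norm_num)
  set T := T'.map N.subtype with hT
  have hTc : Nat.card T = 8 := by rw [hT, card_map_of_injective N.subtype_injective, hT']; norm_num
  have hTN : T ≤ N := map_subtype_le T'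
  have hTp : IsPGroup 2 T := IsPGroup.of_card (n := 3) hTc
  obtain ⟨U, hU⟩ := hTp.exists_le_sylow
  have hUc : Nat.card (U : Subgroup G) = 128 := by
    rw [U.card_eq_multiplicity, hc]
    have : (459648 : ℕ).factorization 2 = 7 := by
      rw [show (459648 : ℕ) = 2 ^ 7 * 3591 by norm_num, Nat.factorization_mul (by norm_num)
        (by norm_num), Finsupp.add_apply, Nat.prime_two.factorization_pow,
        Nat.factorization_eq_zero_of_not_dvd (by norm_num)]
      simp
    rw [this]; norm_num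
  obtain ⟨s, hsU, hsT, hs⟩ := exists_mem_normalizer_not_mem (P := U) (U := T)
    U.isPGroup'.isNilpotent (lt_of_le_of_ne hU fun e => by rw [e, hUc] at hTc; omega)
  have hUN : (U : Subgroup G) ⊓ N = T := by
    refine (eq_of_le_of_card_ge (le_inf hU hTN) ?_).symm
    have h5 := Nat.dvd_gcd (card_dvd_of_le (inf_le_left : (U : Subgroup G) ⊓ N ≤ U))
      (card_dvd_of_le (inf_le_right : (U : Subgroup G) ⊓ N ≤ N))
    rw [hUc, hNc] at h5
    rw [hTc]
    exact Nat.le_of_dvd (by norm_num) h5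
  set C := centralizer ((P : Subgroup G) : Set G) with hC
  have hT0 : 4 ≤ Nat.card ↥(C ⊓ T) := by
    have h5 : C.relIndex T ∣ 18 := by
      refine Dvd.dvd.trans ?_ h2
      have : (C.subgroupOf N).Normal := normal_subgroupOf_centralizer_normalizer _
      rw [← h4, ← relIndex_subgroupOf hTN]
      exact relIndex_dvd_index_of_normal _ _
    have h6 : C.relIndex T ∣ 8 := hTc ▸ relIndex_dvd_card C T
    have h7 := Nat.le_of_dvd (by norm_num) (Nat.dvd_gcd h5 h6)
    have h8 := relIndex_mul_card (inf_le_right : C ⊓ T ≤ T)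
    rw [inf_relIndex_right, hTc] at h8
    norm_num at h7
    by_contra h9
    have := Nat.mul_le_mul h7 (Nat.le_of_lt_succ (not_le.1 h9))
    omega
  set B := (C ⊓ T).map (MulAut.conj s).toMonoidHom with hB
  have hBT : B ≤ T := by
    rintro _ ⟨y, hy, rfl⟩
    exact (mem_normalizer_iff.1 hsT y).1 hy.2
  have hBc : Nat.card B = Nat.card ↥(C ⊓ T) := card_map_of_injective (MulAut.conj s).injective
  have hne : (C ⊓ T) ⊓ B ≠ ⊥ := fun h => by
    have h5 := relIndex_mul_card (inf_le_right : C ⊓ T ≤ T)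
    have h6 : (C ⊓ T).relIndex B ≤ (C ⊓ T).relIndex T :=
      relIndex_le_of_le_right hBT FiniteIndex.index_ne_zero
    rw [← inf_relIndex_right, h, relIndex_bot_left, hBc] at h6
    rw [hTc] at h5
    have := Nat.mul_le_mul (hT0.trans h6) hT0
    omega
  obtain ⟨⟨w, hw1, y, hy, hyw⟩, hw⟩ := (ne_bot_iff_exists_ne_one.1 hne)
  have hw' : w ≠ 1 := fun e => hw (Subtype.ext e)
  have h5 := key w hw' (s * x * s⁻¹) (((MulAut.conj s).orderOf_eq x).trans hx)
    (mem_centralizer_singleton_iff.2 (mem_centralizer_iff.1 hw1.1 x hxP)) (by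
      rw [mem_centralizer_singleton_iff, ← hyw]
      have := mem_centralizer_iff.1 hy.1 x hxP
      simp only [MulEquiv.coe_toMonoidHom, MulAut.conj_apply, conj_mul, this])
  refine hs (hUN.le ⟨hsU, ?_⟩)
  rw [SetLike.mem_coe, hN, hPx]
  refine mem_normalizer_fintype fun z hz => ?_
  obtain ⟨m, rfl⟩ := mem_zpowers_iff.1 hz
  rw [← conj_zpow]
  exact zpow_mem h5 m

end Cfsg.Agent.S1022
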