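import Cfsg.Statements.S1258
import Mathlib
import Cfsg.Agent.Lib.Core.FStar

set_option autoImplicit false
open Cfsg

namespace Cfsg.Agent.S1258
open Cfsg.Lib

/-- If the central quotient of a finite group X is non-abelian simple, then X = X' Z(X) and the commutator subgroup X' is quasisimple. -/
theorem result {X : Type*} [Group X] [Finite X] (hs : IsSimpleGroup (X ⧸ Subgroup.center X)) (hna : ¬ IsMulCommutative (X ⧸ Subgroup.center X)) : commutator X ⊔ Subgroup.center X = ⊤ ∧ Cfsg.IsQuasisimple ↥(commutator X) := by
  have hq : IsQuasisimple (⊤ : Subgroup (X ⧸ Subgroup.center X)) :=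
    (isQuasisimple_of_isSimpleGroup hna).of_equiv Subgroup.topEquiv.symm
  have h := isQuasisimple_commutator_comap (QuotientGroup.mk' (Subgroup.center X))
    (by rw [QuotientGroup.range_mk']) hq
    (by rw [QuotientGroup.ker_mk', Subgroup.commutator_center_left])
  rw [Subgroup.comap_top] at h
  refine ⟨?_, h.1⟩
  have := congrArg (Subgroup.comap (QuotientGroup.mk' (Subgroup.center X))) h.2
  rwa [Subgroup.comap_map_eq, QuotientGroup.ker_mk', Subgroup.comap_top] at this

end Cfsg.Agent.S1258
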