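import Cfsg.Statements.S1267
import Mathlib
import Cfsg.Agent.Lib.Core.PCompOf

set_option autoImplicit false
open Cfsg

namespace Cfsg.Agent.S1267
open Cfsg.Lib

/-- Let G be finite and P ≤ O_p(G). Then E(N_G(P)) = E(G). -/
theorem result {G : Type*} [Group G] [Finite G] (p : ℕ) [Fact p.Prime] (P : Subgroup G) (hP : P ≤ Cfsg.pCore p G) : (Cfsg.layer ↥(Subgroup.normalizer ((P : Subgroup G) : Set G))).map (Subgroup.normalizer ((P : Subgroup G) : Set G)).subtype = Cfsg.layer G := by
  have h1 : layer G ≤ Subgroup.centralizer (P : Set G) :=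
    le_centralizer_of_commutator_eq_bot (commutator_eq_bot_of_le le_rfl hP (commutator_layer_pCore p))
  refine le_antisymm (layerOf_le fun K hKN hK => ?_)
    (layer_le_layerOf (h1.trans (Subgroup.centralizer_le_normalizer _)))
  have hPp : IsPGroup p P := isPGroup_pCore.to_le hP
  have h2 : K ≤ Subgroup.centralizer (pCore p G : Set G) := by
    refine le_trans ?_ (le_centralizer_of_commutator_eq_bot
      (commutator_pLayerOf_sup_normalizer_pCore hPp))
    refine (le_layerOf hKN hK).trans ?_
    rw [← Subgroup.map_sup]
    exact Subgroup.map_mono layer_le_pLayer_sup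
  have h3 : Subgroup.centralizer (pCore p G : Set G) ≤ Subgroup.normalizer (P : Set G) :=
    (centralizer_antitone hP).trans (Subgroup.centralizer_le_normalizer _)
  exact (isComponent_of_subgroupOf h2 (Subgroup.Normal.isSubnormal inferInstance)
    (isComponent_subgroupOf_of_le h2 h3 hK)).le_layer

end Cfsg.Agent.S1267
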