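import Cfsg.Statements.S1269
import Mathlib
import Cfsg.Agent.Lib.Core.Local

set_option autoImplicit false
open Cfsg

namespace Cfsg.Agent.S1269
open Cfsg.Lib

/-- Let G be finite with O_{p'}(G) = 1, P a p-subgroup, N = N_G(P), and x an element of the preimage in N of E(N / O_{p'}(N)). Then x normalizes every component L of G. -/
theorem result {G : Type*} [Group G] [Finite G] (p : ℕ) [Fact p.Prime] (hO : Cfsg.pPrimeCore p G = ⊥) (P : Subgroup G) (hP : IsPGroup p ↥P) (L : Subgroup G) (hL : Cfsg.IsComponent L) (x : G) (hx : x ∈ (((Cfsg.layer (↥(Subgroup.normalizer ((P : Subgroup G) : Set G)) ⧸ Cfsg.pPrimeCore p ↥(Subgroup.normalizer ((P : Subgroup G) : Set G)))).comap (QuotientGroup.mk' (Cfsg.pPrimeCore p ↥(Subgroup.normalizer ((P : Subgroup G) : Set G))))).map (Subgroup.normalizer ((P : Subgroup G) : Set G)).subtype)) : L.map (MulAut.conj x).toMonoidHom = L := by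
  rw [map_subtype_comap_layer, pLayerOf_normalizer_eq hP, pPrimeCoreOf_normalizer_eq hP] at hx
  exact map_conj_eq_of_mem_normalizer (pLayerOf_sup_centralizer_le_normalizer hO hP hL hx)

end Cfsg.Agent.S1269
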