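import Cfsg.Statements.S1271
import Mathlib
import Cfsg.Agent.Lib.Core.Balance

set_option autoImplicit false
open Cfsg

namespace Cfsg.Agent.S1271
open Cfsg.Lib

open Subgroup

/-- Let G be finite with O_{p'}(G) = 1. Suppose that for every component L of G and every subgroup H ≥ L in which L is normal, the quotient H / C_H(L) is balanced for the prime p. Then G is balanced for p. -/
theorem result {G : Type*} [Group G] [Finite G] (p : ℕ) [Fact p.Prime] (hO : Cfsg.pPrimeCore p G = ⊥) (h : ∀ L : Subgroup G, Cfsg.IsComponent L → ∀ H : Subgroup G, L ≤ H → (L.subgroupOf H).Normal → ∀ [((Subgroup.centralizer (L : Set G)).subgroupOf H).Normal], Cfsg.IsBalancedFor p (↥H ⧸ (Subgroup.centralizer (L : Set G)).subgroupOf H)) : Cfsg.IsBalancedFor p G := by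
  intro x hx
  rw [hO, le_bot_iff]
  refine eq_bot_of_centralizes_fstar hO (coprime_card_pPrimeCoreOf _)
    (commutator_centralizerPPrimeCore_pCore hx) fun K hK => ?_
  by_cases hne : ⁅K, zpowers x⁆ = K
  swap
  · exact commutator_centralizerPPrimeCore_eq_bot hO hx hK hne
  set Y := centralizerPPrimeCore p x with hY
  have hxK : zpowers x ≤ normalizer (K : Set G) := le_normalizer_iff_commutator_le_left.mpr hne.le
  have hYK : Y ≤ normalizer (K : Set G) := centralizerPPrimeCore_le_normalizer hO hx hK
  set H := K ⊔ (Y ⊔ zpowers x) with hH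
  have hHK : H ≤ normalizer (K : Set G) := sup_le le_normalizer (sup_le hYK hxK)
  have hKH : K ≤ H := le_sup_left
  have hxH : x ∈ H := mem_sup_right (mem_sup_right (mem_zpowers x))
  have hYH : Y ≤ H := le_sup_left.trans le_sup_right
  have := normal_subgroupOf_of_le_normalizer (le_normalizer_centralizer hHK)
  have hb := h K hK H hKH (normal_subgroupOf_of_le_normalizer hHK)
  set f := QuotientGroup.mk' ((centralizer (K : Set G)).subgroupOf H) with hf
  have hs : Function.Surjective f := QuotientGroup.mk'_surjective _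
  have hx' : orderOf (⟨x, hxH⟩ : H) = p := by rw [← hx, ← orderOf_coe]
  have h1 := map_centralizerPPrimeCore_le hO hK hx' (hxK (mem_zpowers x)) hKH
    (sup_le_sup_left (le_inf le_sup_right (sup_le (map_subtype_le _)
      (zpowers_le.mpr (mem_centralizer_singleton_iff.mpr rfl)))) _) hHK f hs
    (QuotientGroup.ker_mk' _).le
  have h2 : orderOf (f ⟨x, hxH⟩) = p := by
    refine orderOf_eq_prime (by rw [← map_pow, ← hx', pow_orderOf_eq_one, map_one]) fun e => ?_
    rw [← MonoidHom.mem_ker, QuotientGroup.ker_mk'] at e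
    exact hK.ne_bot (hne ▸ commutator_eq_bot_symm
      (commutator_eq_bot_iff_le_centralizer.mpr (zpowers_le.mpr e)))
  have h3 := h1.trans (hb _ h2)
  have hne' : (K.subgroupOf H).map f ≠ ⊥ := by
    rw [Ne, Subgroup.map_eq_bot_iff, QuotientGroup.ker_mk']
    exact fun e => hK.isQuasisimple.not_le_centralizer (le_of_subgroupOf_le hKH e)
  have hq : IsPQuasi p ((K.subgroupOf H).map f) :=
    ((hK.isPComponent (hK.dvd_card_of_pPrimeCore_eq_bot hO)).subgroupOf hKH).isPQuasi.map_of_ne_bot
      f hne'
  have h4 := (((hK.subgroupOf hKH).map_of_ne_bot hs hne').le_or_commutator_eq_bot_of_le_normalizer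
    (N := pPrimeCore p _) le_normalizer_of_normal).resolve_left
    (hq.not_le_of_coprime coprime_card_pPrimeCore)
  have h5 := commutator_eq_bot_of_le le_rfl h3 h4
  rw [commutator_map_eq_bot_iff, QuotientGroup.ker_mk', commutator_subgroupOf hKH hYH] at h5
  have h6 := le_of_subgroupOf_le ((commutator_mono hKH hYH).trans (commutator_le_self H)) h5
  refine commutator_eq_bot_symm (commutator_eq_bot_of_perfect hK.commutator_self ?_)
  rw [Subgroup.commutator_comm Y]
  exact commutator_eq_bot_iff_le_centralizer.mpr h6

end Cfsg.Agent.S1271
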