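import Cfsg.Statements.S1277
import Mathlib
import Cfsg.Agent.Lib.Core.PCompOf

set_option autoImplicit false
open Cfsg

namespace Cfsg.Agent.S1277
open Cfsg.Lib

/-- For a finite group X with core O(X): the image of E(X) in X / O(X) is all of E(X / O(X)) if and only if every 2-component of X is a component, i.e. L_{2'}(X) ≤ E(X). -/
theorem result {X : Type*} [Group X] [Finite X] : (Cfsg.layer X).map (QuotientGroup.mk' (Cfsg.oddCore X)) = Cfsg.layer (X ⧸ Cfsg.oddCore X) ↔ Cfsg.pLayer 2 X ≤ Cfsg.layer X := by
  constructor
  · intro h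
    refine sSup_le fun K hK => (IsPComponent.isPQuasi hK).le_of_le_sup
      Subgroup.le_normalizer_of_normal (coprime_card_pPrimeCore (p := 2)) ?_
    have := (IsPComponent.isComponent_map hK).le_layer
    rwa [← h, Subgroup.map_le_iff_le_comap, Subgroup.comap_map_eq, QuotientGroup.ker_mk'] at this
  · intro h
    refine le_antisymm (map_layer_le _ (QuotientGroup.mk'_surjective _)) ?_
    rw [← map_pLayer_mk']
    exact Subgroup.map_mono h

end Cfsg.Agent.S1277
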