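import Cfsg.Statements.S1279
import Mathlib
import Cfsg.Agent.Lib.Signalizer.Basic

set_option autoImplicit false
open Cfsg

namespace Cfsg.Agent.S1279

open Subgroup Cfsg.Lib

/-- Let A be a noncyclic elementary abelian p-subgroup of the finite group G such that C_G(a) is solvable for every non-identity a ∈ A. Then a ↦ O_{p'}(C_G(a)) is a solvable A-signalizer functor on G. -/
theorem result {G : Type*} [Group G] [Finite G] (p : ℕ) [Fact p.Prime] (A : Subgroup G) (hA : Cfsg.IsElementaryAbelian p A) (hA2 : p ^ 2 ≤ Nat.card ↥A) (hsolv : ∀ a ∈ A, a ≠ 1 → Group.IsSolvable ↥(Subgroup.centralizer ({a} : Set G))) : Cfsg.IsSolvableSignalizerFunctor p A (fun a => Cfsg.centralizerPPrimeCore p a) := by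
  have hn : ∀ a ∈ A, A ≤ normalizer (centralizerPPrimeCore p a : Set G) := fun a ha =>
    (le_centralizer_singleton_of_comm hA.1 ha).trans (le_normalizer_pPrimeCoreOf _)
  have hd : ∀ a : G, ¬ p ∣ Nat.card (centralizerPPrimeCore p a) := fun a =>
    (Nat.Prime.coprime_iff_not_dvd Fact.out).mp (coprime_card_pPrimeCoreOf _).symm
  refine ⟨⟨fun a _ _ => map_subtype_le _, fun a _ _ => hd a,
    fun a ha _ => Subgroup.le_normalizer_iff.mp (hn a ha), fun a ha _ b hb hb1 => ?_⟩,
    fun a ha ha1 => isSolvable_of_le (map_subtype_le _) (hsolv a ha ha1)⟩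
  refine le_pPrimeCoreOf_of_isPConstrained (isPConstrained_of_isSolvable (hsolv b hb hb1))
    (P := zpowers a) (zpowers_le.mpr (le_centralizer_singleton_of_comm hA.1 hb ha)) inf_le_right
    ((elemAb_isPGroup hA).to_le (zpowers_le.mpr ha))
    (fun h => hd a (h.trans (card_dvd_of_le inf_le_left))) ?_ ?_
  · rw [le_centralizer_iff, centralizer_zpowers]
    exact inf_le_left.trans (map_subtype_le _)
  · rw [centralizer_zpowers]
    exact le_normalizer_inf (inf_le_right.trans (le_normalizer_pPrimeCoreOf _))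
      (inf_le_left.trans le_normalizer)

end Cfsg.Agent.S1279
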