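import Cfsg.Statements.S1286
import Mathlib
import Cfsg.Agent.Lib.Coprime.Basic

set_option autoImplicit false
open Cfsg

namespace Cfsg.Agent.S1286

open Subgroup Cfsg.Lib

/-- The subgroup with a given closed finite set of elements. -/
def ofFinset (s : Finset (Equiv.Perm (Fin 5))) (h1 : 1 ∈ s) (h2 : ∀ a ∈ s, ∀ b ∈ s, a * b ∈ s)
    (h3 : ∀ a ∈ s, a⁻¹ ∈ s) : Subgroup (Equiv.Perm (Fin 5)) where
  carrier := s
  one_mem' := h1
  mul_mem' := fun ha hb => h2 _ ha _ hb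
  inv_mem' := fun ha => h3 _ ha

theorem mem_ofFinset {s : Finset (Equiv.Perm (Fin 5))} {h1 h2 h3} {x : Equiv.Perm (Fin 5)} :
    x ∈ ofFinset s h1 h2 h3 ↔ x ∈ s := Iff.rfl

theorem card_ofFinset {s : Finset (Equiv.Perm (Fin 5))} {h1 h2 h3} :
    Nat.card (ofFinset s h1 h2 h3) = s.card := Nat.card_eq_finsetCard s

def a1 : Equiv.Perm (Fin 5) := Equiv.swap 0 1
def a2 : Equiv.Perm (Fin 5) := Equiv.swap 2 3
def x1 : Equiv.Perm (Fin 5) := Equiv.swap 2 3 * Equiv.swap 3 4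
def x2 : Equiv.Perm (Fin 5) := Equiv.swap 0 1 * Equiv.swap 1 4

def sA : Finset (Equiv.Perm (Fin 5)) := {1, a1, a2, a1 * a2}

def sT (a : Equiv.Perm (Fin 5)) : Finset (Equiv.Perm (Fin 5)) :=
  if a = a1 then {1, x1, x1 * x1} else if a = a2 then {1, x2, x2 * x2} else {1}

theorem sT_cases (P : Finset (Equiv.Perm (Fin 5)) → Prop) (h1 : P {1, x1, x1 * x1})
    (h2 : P {1, x2, x2 * x2}) (h3 : P {1}) (a : Equiv.Perm (Fin 5)) : P (sT a) := by
  unfold sT
  split_ifs
  exacts [h1, h2, h3]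

def gA : Subgroup (Equiv.Perm (Fin 5)) := ofFinset sA (by decide +kernel) (by decide +kernel) (by decide +kernel)

def gT (a : Equiv.Perm (Fin 5)) : Subgroup (Equiv.Perm (Fin 5)) :=
  ofFinset (sT a) (sT_cases (fun s => 1 ∈ s) (by decide +kernel) (by decide +kernel) (by decide +kernel) a)
    (sT_cases (fun s => ∀ a ∈ s, ∀ b ∈ s, a * b ∈ s) (by decide +kernel) (by decide +kernel) (by decide +kernel) a)
    (sT_cases (fun s => ∀ a ∈ s, a⁻¹ ∈ s) (by decide +kernel) (by decide +kernel) (by decide +kernel) a)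

theorem sig1 : ∀ a ∈ sA, ∀ x ∈ sT a, x * a = a * x := by decide +kernel

theorem sig2 : ∀ a ∈ sA, ¬ 2 ∣ (sT a).card := by decide +kernel

theorem sig3 : ∀ a ∈ sA, ∀ b ∈ sA, ∀ x ∈ sT a, b * x * b⁻¹ ∈ sT a := by decide +kernel

theorem sig4 : ∀ a ∈ sA, ∀ b ∈ sA, b ≠ 1 → ∀ x ∈ sT a, x * b = b * x → x ∈ sT b := by decide +kernel

theorem sig5 : ∀ a ∈ sA, ∀ x ∈ sT a, ∀ y ∈ sT a, x * y = y * x := by decide +kernel

/-- There exist a finite group X, an elementary abelian subgroup A of order 4 and a solvable A-signalizer functor θ on X for the prime 2 which is not complete. -/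
theorem result : ∃ (X : Type) (_ : Group X) (_ : Finite X) (A : Subgroup X) (θ : X → Subgroup X), Cfsg.IsElementaryAbelian 2 A ∧ Nat.card ↥A = 4 ∧ Cfsg.IsSolvableSignalizerFunctor 2 A θ ∧ ¬ Cfsg.IsCompleteSignalizerFunctor 2 A θ := by
  refine ⟨Equiv.Perm (Fin 5), inferInstance, inferInstance, gA, gT, ⟨?_, ?_⟩, ?_, ⟨⟨?_, ?_, ?_, ?_⟩, ?_⟩, ?_⟩
  · exact isMulCommutative_of_forall (show ∀ a ∈ sA, ∀ b ∈ sA, a * b = b * a by decide +kernel)
  · exact (show ∀ a ∈ sA, a ^ 2 = 1 by decide +kernel)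
  · exact card_ofFinset.trans (by decide +kernel)
  · exact fun a ha _ x hx => mem_centralizer_singleton_iff.mpr (sig1 a ha x hx)
  · intro a ha _
    rw [gT, card_ofFinset]
    exact sig2 a ha
  · exact fun a ha _ => sig3 a ha
  · exact fun a ha _ b hb hb1 x hx =>
      sig4 a ha b hb hb1 x (mem_inf.mp hx).1 (mem_centralizer_singleton_iff.mp (mem_inf.mp hx).2)
  · exact fun a ha _ => Group.isSolvable_of_comm fun x y => Subtype.ext (sig5 a ha x x.2 y y.2)
  · rintro ⟨-, X, -, hX, h⟩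
    have h1 : x1 ∈ X := (mem_inf.mp ((h a1 (show a1 ∈ sA by decide +kernel) (by decide +kernel)).ge
      (show x1 ∈ sT a1 by decide +kernel))).1
    have h2 : x2 ∈ X := (mem_inf.mp ((h a2 (show a2 ∈ sA by decide +kernel) (by decide +kernel)).ge
      (show x2 ∈ sT a2 by decide +kernel))).1
    have : Fact (Nat.Prime 2) := ⟨Nat.prime_two⟩
    have h3 : orderOf (x1 * x1 * x2 * x1 * x2) = 2 := orderOf_eq_prime (by decide +kernel) (by decide +kernel)
    apply hX
    rw [← h3]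
    exact Subgroup.orderOf_dvd_natCard X (mul_mem (mul_mem (mul_mem (mul_mem h1 h1) h2) h1) h2)

end Cfsg.Agent.S1286
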