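import Cfsg.Statements.S1288
import Mathlib
import Cfsg.Agent.Lib.Signalizer.Basic

set_option autoImplicit false
open Cfsg

namespace Cfsg.Agent.S1288

open Subgroup Cfsg.Lib

/-- Let A be a noncyclic elementary abelian p-subgroup of a finite group H normalizing a solvable subgroup K of order prime to p, q a prime dividing |K|, and U ≤ K a subgroup of order prime to q such that ⁅U, C_K(B)⁆ has order prime to q for every subgroup B of index p in A. Then U ≤ O_{q'}(K). -/
theorem result {H : Type*} [Group H] [Finite H] (p : ℕ) [Fact p.Prime] (A K : Subgroup H) (hA : Cfsg.IsElementaryAbelian p A) (hA2 : p ^ 2 ≤ Nat.card ↥A) (hK : ¬ p ∣ Nat.card ↥K) (hKs : Group.IsSolvable ↥K) (hAK : A ≤ Subgroup.normalizer (K : Set H)) (q : ℕ) [Fact q.Prime] (hqK : q ∣ Nat.card ↥K) (U : Subgroup H) (hU : U ≤ K) (hUq : ¬ q ∣ Nat.card ↥U) (hcomm : ∀ B : Subgroup H, B ≤ A → B.relIndex A = p → ¬ q ∣ Nat.card ↥⁅U, K ⊓ Subgroup.centralizer (B : Set H)⁆) : U ≤ (Cfsg.pPrimeCore q ↥K).map K.subtype := by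
  have hact := CoprimeAct.of_isPGroup (elemAb_isPGroup hA) hK hAK
  set O := (pPrimeCore q K).map K.subtype
  set L := (pPrimePCore q K).map K.subtype
  have hLK : L ≤ K := map_subtype_le _
  have hKO : K ≤ normalizer (O : Set H) := le_normalizer_pPrimeCoreOf K
  have hKL : K ≤ normalizer (L : Set H) := le_normalizer_map_subtype_of_normal K _
  have hAL : A ≤ normalizer (L : Set H) :=
    hAK.trans (normalizer_le_normalizer_map_subtype_of_characteristic K _)
  have hR : ∀ R : Subgroup H, R ≤ L → ¬ q ∣ Nat.card R → R ≤ O := fun R hR hq => by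
    rw [← map_subgroupOf_eq_of_le (hR.trans hLK)]
    refine map_mono (le_pPrimeCore_of_le_pPrimePCore ?_ ?_)
    · rwa [card_subgroupOf_of_le (hR.trans hLK)]
    · rw [← map_le_map_iff_of_injective K.subtype_injective, map_subgroupOf_eq_of_le (hR.trans hLK)]
      exact hR
  have h1 : L ≤ commInto O U := by
    refine (hact.mono_right hLK hAL).le_of_hyperplane hA (ne_bot_of_pow_le_card hA2) ?_
    intro B hB hi
    refine le_commInto_iff.mpr ⟨inf_le_left.trans (hLK.trans hKO), ?_⟩
    rw [commutator_comm]
    refine hR _ ((commutator_mono hU inf_le_left).trans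
      (le_normalizer_iff_commutator_le_right.mp hKL)) (fun hd => hcomm B hB hi (hd.trans ?_))
    exact card_dvd_of_le (commutator_mono le_rfl (inf_le_inf_right _ hLK))
  refine hR U ?_ hUq
  rw [← map_subgroupOf_eq_of_le hU]
  refine map_mono (le_pPrimePCore_of_commutator_le (isPConstrained_of_isSolvable hKs) ?_)
  rw [← map_le_map_iff_of_injective K.subtype_injective, map_commutator, map_subgroupOf_eq_of_le hU,
    commutator_comm]
  exact (le_commInto_iff.mp h1).2

end Cfsg.Agent.S1288
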