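import Cfsg.Statements.S1300
import Mathlib
import Cfsg.Agent.Lib.Core.Local
import Cfsg.Agent.Lib.Coprime.Generation
import Cfsg.Agent.Lib.PGroup.CyclicIndex

set_option autoImplicit false
open Cfsg

namespace Cfsg.Agent.S1300
open Cfsg.Lib

/-- For a finite group G, balance in the sense of commuting involutions is the same as 1-balance for the prime 2. -/
theorem result {G : Type*} [Group G] [Finite G] : Cfsg.IsBalanced G ↔ Cfsg.IsKBalanced 2 1 G := by
  constructor
  · intro h A hA hc b hb hab
    have hne : A ≠ ⊥ := by
      rintro rfl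
      simp at hc
    obtain ⟨⟨a, ha⟩, ha1⟩ := (Subgroup.ne_bot_iff_exists_ne_one).mp hne
    have ha1' : a ≠ 1 := fun e => ha1 (Subtype.ext e)
    have h1 : signalizerDelta 2 A ≤ centralizerPPrimeCore 2 a :=
      iInf_le (fun a : {a : G // a ∈ A ∧ a ≠ 1} => centralizerPPrimeCore 2 (a : G)) ⟨a, ha, ha1'⟩
    refine (inf_le_inf_right _ h1).trans ?_
    rw [h a b (elemAb_orderOf hA ha ha1') hb (hab a ha)]
    exact inf_le_left
  · intro h
    have key : ∀ x y : G, orderOf x = 2 → orderOf y = 2 → x * y = y * x →
        centralizerPPrimeCore 2 x ⊓ Subgroup.centralizer {y} ≤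
          centralizerPPrimeCore 2 y ⊓ Subgroup.centralizer {x} := by
      intro x y hx hy hxy
      have hx2 : x ^ 2 = 1 := hx ▸ pow_orderOf_eq_one x
      have hmem : ∀ a ∈ Subgroup.zpowers x, a = 1 ∨ a = x := fun a ha =>
        pg_mem_zpowers_order_two hx2 ha
      have hA : IsElementaryAbelian 2 (Subgroup.zpowers x) := by
        refine ⟨inferInstance, fun a ha => ?_⟩
        rcases hmem a ha with rfl | rfl
        · simp
        · exact hx2
      have h1 := h _ hA (by rw [Nat.card_zpowers, hx]; rfl) y hy (by
        intro a ha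
        rcases hmem a ha with rfl | rfl
        · simp
        · exact hxy)
      refine le_inf (le_trans (inf_le_inf_right _ ?_) h1) (inf_le_left.trans (Subgroup.map_subtype_le _))
      refine le_iInf ?_
      rintro ⟨a, ha, ha1⟩
      rcases hmem a ha with rfl | rfl
      · exact absurd rfl ha1
      · exact le_rfl
    intro x y hx hy hxy
    exact le_antisymm (key x y hx hy hxy) (key y x hy hx hxy.symm)

end Cfsg.Agent.S1300
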