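import Cfsg.Statements.S1299
import Mathlib
import Cfsg.Agent.Lib.Signalizer.Factor

set_option autoImplicit false
open Cfsg

namespace Cfsg.Agent.S1299

open Subgroup Cfsg.Lib

section
variable {G : Type*} [Group G] {p k : ℕ} {A : Subgroup G}

theorem delta_le {E : Subgroup G} {e : G} (he : e ∈ E) (h1 : e ≠ 1) :
    signalizerDelta p E ≤ centralizerPPrimeCore p e :=
  iInf_le_of_le (⟨e, he, h1⟩ : {a : G // a ∈ E ∧ a ≠ 1}) le_rfl

theorem delta_anti {D E : Subgroup G} (h : D ≤ E) : signalizerDelta p E ≤ signalizerDelta p D :=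
  le_iInf fun d => delta_le (h d.2.1) d.2.2

theorem centralizer_le_normalizer_delta (E : Subgroup G) :
    centralizer (E : Set G) ≤ normalizer (signalizerDelta p E : Set G) :=
  le_trans (le_iInf fun e => (centralizer_le_singleton e.2.1).trans (le_normalizer_pPrimeCoreOf _))
    (iInf_normalizer_le_normalizer_iInf _)

variable [Finite G] [hp : Fact p.Prime]

theorem exists_le_card {E : Subgroup G} (hE : p ^ k ≤ Nat.card E) (hEp : IsPGroup p E) :
    ∃ D ≤ E, Nat.card D = p ^ k := by
  obtain ⟨D, hD⟩ := Sylow.exists_subgroup_card_pow_prime_of_le_card hp.out hEp hE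
  exact ⟨D.map E.subtype, map_subtype_le _, by rwa [card_map_subtype]⟩

theorem delta_inf_le (hbal : IsKBalanced p k G) (hA : IsElementaryAbelian p A) {E : Subgroup G}
    (hE : E ≤ A) (hk : p ^ k ≤ Nat.card E) {b : G} (hb : b ∈ A) (hb1 : b ≠ 1) :
    signalizerDelta p E ⊓ centralizer {b} ≤ centralizerPPrimeCore p b := by
  obtain ⟨D, hD, hc⟩ := exists_le_card hk ((elemAb_isPGroup hA).to_le hE)
  exact (inf_le_inf_right _ (delta_anti hD)).trans (hbal D (elemAb_mono hA (hD.trans hE)) hc b
    (elemAb_orderOf hA hb hb1) (fun a ha => comm_of_isMulCommutative hA.1 (hE (hD ha)) hb))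

theorem delta_inf_le_delta (hbal : IsKBalanced p k G) (hA : IsElementaryAbelian p A)
    {E B : Subgroup G} (hE : E ≤ A) (hk : p ^ k ≤ Nat.card E) (hB : B ≤ A) :
    signalizerDelta p E ⊓ centralizer (B : Set G) ≤ signalizerDelta p B :=
  le_iInf fun b => (inf_le_inf_left _ (centralizer_le_singleton b.2.1)).trans
    (delta_inf_le hbal hA hE hk (hB b.2.1) b.2.2)

theorem card_inf_ge (hAk : p ^ (k + 2) ≤ Nat.card A) {B B' : Subgroup G} (hB : B ≤ A)
    (hi : B.relIndex A = p) (hi' : B'.relIndex A = p) :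
    p ^ k ≤ Nat.card (B ⊓ B' : Subgroup G) := by
  have h1 := relIndex_inf_le (H := B) (K := B') (L := A)
  rw [hi, hi'] at h1
  rw [← relIndex_mul_card (inf_le_left.trans hB : B ⊓ B' ≤ A)] at hAk
  have h2 := hAk.trans (Nat.mul_le_mul_right _ h1)
  rw [pow_add, mul_comm, pow_two] at h2
  exact Nat.le_of_mul_le_mul_left h2 (mul_pos hp.out.pos hp.out.pos)

/-- The join of the `Δ(B) ∩ M` over the hyperplanes `B`. -/
def hm (p : ℕ) (A M : Subgroup G) : Subgroup G :=
  ⨆ B : {B : Subgroup G // B ≤ A ∧ B.relIndex A = p}, signalizerDelta p (B : Subgroup G) ⊓ M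

omit [Finite G] hp in
theorem hm_le (M : Subgroup G) : hm p A M ≤ M := iSup_le fun _ => inf_le_right

omit [Finite G] hp in
theorem norm_delta (hA : IsElementaryAbelian p A) {E : Subgroup G} (hE : E ≤ A) :
    A ≤ normalizer (signalizerDelta p E : Set G) :=
  (le_centralizer_iff_isMulCommutative.mpr hA.1).trans
    ((centralizer_mono hE).trans (centralizer_le_normalizer_delta E))

omit [Finite G] hp in
theorem norm_hm (hA : IsElementaryAbelian p A) {M : Subgroup G} (hM : A ≤ normalizer (M : Set G)) :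
    A ≤ normalizer (hm p A M : Set G) :=
  le_trans (le_iInf fun B => le_normalizer_inf (norm_delta hA B.2.1) hM)
    (iInf_normalizer_le_normalizer_iSup _)

theorem le_hm (hbal : IsKBalanced p k G) (hA : IsElementaryAbelian p A) (hne : A ≠ ⊥)
    {M E : Subgroup G} (hM : CoprimeAct A M) (hE : E ≤ A) (hk : p ^ k ≤ Nat.card E) :
    signalizerDelta p E ⊓ M ≤ hm p A M := by
  rw [inf_comm]
  refine (hM.inf_right (norm_delta hA hE)).le_of_hyperplane hA hne (fun B hB hi => ?_)
  refine le_iSup_of_le (⟨B, hB, hi⟩ : {B : Subgroup G // B ≤ A ∧ B.relIndex A = p}) ?_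
  exact le_inf ((inf_le_inf_right _ inf_le_right).trans (delta_inf_le_delta hbal hA hE hk hB))
    (inf_le_left.trans inf_le_left)

theorem le_normalizer_hm (hbal : IsKBalanced p k G) (hA : IsElementaryAbelian p A)
    (hAk : p ^ (k + 2) ≤ Nat.card A) {X M : Subgroup G} (hX : CoprimeAct A X) (hM : CoprimeAct A M)
    (hXM : X ≤ normalizer (M : Set G)) : X ≤ normalizer (hm p A M : Set G) := by
  have hne := ne_bot_of_pow_le_card hAk
  refine hX.le_of_hyperplane hA hne (fun B' hB' hi' => ?_)
  rw [Subgroup.le_normalizer_iff]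
  intro x hx
  obtain ⟨hxX, hxC⟩ := mem_inf.mp hx
  have : hm p A M ≤ (hm p A M).comap (MulAut.conj x).toMonoidHom := by
    refine iSup_le fun B => ?_
    intro y hy
    obtain ⟨hy1, hy2⟩ := mem_inf.mp hy
    refine le_hm hbal hA hne hM (inf_le_left.trans B.2.1) (card_inf_ge hAk B.2.1 B.2.2 hi') ?_
    exact mem_inf.mpr ⟨conj_mem_of_mem_normalizer (centralizer_le_normalizer_delta _
      (centralizer_mono inf_le_right hxC)) (delta_anti inf_le_left hy1),
      conj_mem_of_mem_normalizer (hXM hxX) hy2⟩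
  exact fun y hy => this hy

theorem hm_inf_le (hbal : IsKBalanced p k G) (hA : IsElementaryAbelian p A)
    (hAk : p ^ (k + 2) ≤ Nat.card A) {X : Subgroup G} (hX : CoprimeAct A X)
    (hs : Group.IsSolvable X) {B₀ : Subgroup G} (hB₀ : B₀ ≤ A) (M : Subgroup G) :
    M ≤ X → X ≤ normalizer (M : Set G) → A ≤ normalizer (M : Set G) →
      hm p A M ⊓ centralizer (B₀ : Set G) ≤ signalizerDelta p B₀ := by
  have hne := ne_bot_of_pow_le_card hAk
  induction M using WellFoundedLT.induction with
  | ind M ih =>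
  intro hMX hXM hAM
  rcases eq_or_ne M ⊥ with rfl | hM
  · exact inf_le_left.trans ((hm_le _).trans bot_le)
  have hlt := commutator_lt_of_isSolvable (isSolvable_of_le hMX hs) hM
  have hXM' := le_normalizer_commutator hXM hXM
  have hAM' := le_normalizer_commutator hAM hAM
  have hact' := hX.mono_right (hlt.le.trans hMX) hAM'
  set N := hm p A ⁅M, M⁆
  have hNX : N ≤ X := (hm_le _).trans (hlt.le.trans hMX)
  have hXN : X ≤ normalizer (N : Set G) := le_normalizer_hm hbal hA hAk hX hact' hXM'
  have hAN : A ≤ normalizer (N : Set G) := norm_hm hA hAM'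
  refine le_trans (inf_le_inf_right _ (iSup_mono fun B => (le_sup_left : _ ≤ _ ⊔ N)))
    ((hX.mono_left hB₀).iSup_inf_centralizer_le _ (fun B => sup_le (inf_le_right.trans hMX) hNX)
      (fun B => hB₀.trans (le_normalizer_sup (le_normalizer_inf (norm_delta hA B.2.1) hAM) hAN))
      (fun B B' => sup_le ?_ (le_sup_right.trans le_normalizer)) (fun B => ?_))
  · rw [le_normalizer_iff_commutator_le_left]
    refine (commutator_sup_le_left (inf_le_right.trans (hMX.trans hXN)) le_normalizer ?_
      (le_normalizer_iff_commutator_le_left.mp (inf_le_right.trans (hMX.trans hXN)))).trans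
      le_sup_right
    refine le_trans (le_inf ?_ (commutator_mono inf_le_right inf_le_right))
      (le_hm hbal hA hne hact' (inf_le_left.trans B.2.1) (card_inf_ge hAk B.2.1 B.2.2 B'.2.2))
    exact (commutator_mono (inf_le_left.trans (delta_anti inf_le_right))
      (inf_le_left.trans (delta_anti inf_le_left))).trans (commutator_le_self _)
  · rw [sup_comm, CoprimeAct.sup_inf_centralizer (hB₀.trans hAN)
      (hB₀.trans (le_normalizer_inf (norm_delta hA B.2.1) hAM))
      (((hX.mono_right hNX hAN).inf_right (le_normalizer_inf (norm_delta hA B.2.1) hAM)).mono_left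
        hB₀) (inf_le_right.trans (hMX.trans hXN))]
    refine sup_le (ih _ hlt (hlt.le.trans hMX) hXM' hAM') ?_
    refine (inf_le_inf_right _ inf_le_left).trans (delta_inf_le_delta hbal hA B.2.1 ?_ hB₀)
    simpa using card_inf_ge hAk B.2.1 B.2.2 B.2.2

end

/-- Let G be finite and k-balanced for the prime p (k ≥ 1), A an elementary abelian p-subgroup of order at least p^(k+2) such that O_{p'}(C_G(a)) is solvable for every non-identity a ∈ A. For a ∈ A put θ a = the subgroup generated by the Δ_G(D) ∩ C_G(a) over the subgroups D ≤ A of order p^k. Then θ is an A-signalizer functor. -/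
theorem result {G : Type*} [Group G] [Finite G] (p k : ℕ) [Fact p.Prime] (hk : 1 ≤ k) (hbal : Cfsg.IsKBalanced p k G) (A : Subgroup G) (hA : Cfsg.IsElementaryAbelian p A) (hAk : p ^ (k + 2) ≤ Nat.card ↥A) (hsolv : ∀ a ∈ A, a ≠ 1 → Group.IsSolvable ↥(Cfsg.centralizerPPrimeCore p a)) : Cfsg.IsSignalizerFunctor p A (fun a => ⨆ D : {D : Subgroup G // D ≤ A ∧ Nat.card ↥D = p ^ k}, Cfsg.signalizerDelta p (D : Subgroup G) ⊓ Subgroup.centralizer {a}) := by
  have hne := ne_bot_of_pow_le_card hAk
  have hle : ∀ a ∈ A, a ≠ 1 → (⨆ D : {D : Subgroup G // D ≤ A ∧ Nat.card ↥D = p ^ k},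
      signalizerDelta p (D : Subgroup G) ⊓ centralizer {a}) ≤ centralizerPPrimeCore p a :=
    fun a ha ha1 => iSup_le fun D => delta_inf_le hbal hA D.2.1 D.2.2.ge ha ha1
  have hd : ∀ a : G, ¬ p ∣ Nat.card (centralizerPPrimeCore p a) := fun a =>
    (Nat.Prime.coprime_iff_not_dvd Fact.out).mp (coprime_card_pPrimeCoreOf _).symm
  have hAa : ∀ a ∈ A, A ≤ normalizer (centralizer ({a} : Set G) : Set G) := fun a ha =>
    le_normalizer_centralizer_singleton (le_centralizer_singleton_of_comm hA.1 ha)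
  refine ⟨fun a _ _ => iSup_le fun _ => inf_le_right,
    fun a ha ha1 h => hd a (h.trans (card_dvd_of_le (hle a ha ha1))), fun a ha _ => ?_,
    fun a ha ha1 b hb hb1 => ?_⟩
  · exact Subgroup.le_normalizer_iff.mp (le_trans
      (le_iInf fun D => le_normalizer_inf (norm_delta hA D.2.1) (hAa a ha))
      (iInf_normalizer_le_normalizer_iSup _))
  · have hX : CoprimeAct A (centralizerPPrimeCore p a) := CoprimeAct.of_isPGroup
      (elemAb_isPGroup hA) (hd a)
      ((le_centralizer_singleton_of_comm hA.1 ha).trans (le_normalizer_pPrimeCoreOf _))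
    have h1 : (⨆ D : {D : Subgroup G // D ≤ A ∧ Nat.card ↥D = p ^ k},
      signalizerDelta p (D : Subgroup G) ⊓ centralizer {a}) ≤ hm p A (centralizerPPrimeCore p a) :=
      iSup_le fun D => (le_inf inf_le_left (delta_inf_le hbal hA D.2.1 D.2.2.ge ha ha1)).trans
        (le_hm hbal hA hne hX D.2.1 D.2.2.ge)
    refine (inf_le_inf_right _ h1).trans ?_
    refine ((hX.mono_right (hm_le _) (norm_hm hA hX.norm)).inf_right (hAa b hb)).le_of_hyperplane
      hA hne (fun B hB hi => ?_)
    obtain ⟨D, hD, hc⟩ := exists_le_card (k := k) (E := B)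
      (by simpa using card_inf_ge hAk hB hi hi) ((elemAb_isPGroup hA).to_le hB)
    refine le_iSup_of_le (⟨D, hD.trans hB, hc⟩ : {D : Subgroup G // D ≤ A ∧ Nat.card ↥D = p ^ k}) ?_
    exact le_inf (((inf_le_inf_right _ inf_le_left).trans (hm_inf_le hbal hA hAk hX (hsolv a ha ha1)
      hB _ le_rfl le_normalizer hX.norm)).trans (delta_anti hD)) (inf_le_left.trans inf_le_right)

end Cfsg.Agent.S1299
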