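import Cfsg.Statements.S1303
import Mathlib
import Cfsg.Agent.Lib.Core.Cover

set_option autoImplicit false
open Cfsg

namespace Cfsg.Agent.S1303
open Cfsg.Lib

open Subgroup

abbrev SL23 := Matrix.SpecialLinearGroup (Fin 2) (ZMod 3)

theorem mul_pow_four : ∀ a b : SL23, a ^ 4 = 1 → b ^ 4 = 1 → (a * b) ^ 4 = 1 := by
  decide +kernel

def Q : Subgroup SL23 where
  carrier := {g | g ^ 4 = 1}
  one_mem' := by simp
  mul_mem' := fun {a b} ha hb => mul_pow_four a b ha hb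
  inv_mem' := fun {a} ha => by
    show a⁻¹ ^ 4 = 1
    rw [inv_pow, show a ^ 4 = 1 from ha, inv_one]

theorem cent : ∀ a : SL23, (∀ b : SL23, b ^ 4 = 1 → b * a = a * b) → a ^ 4 = 1 := by
  decide +kernel

theorem invol : ∀ t : SL23, t ^ 2 = 1 → ∀ g : SL23, g * t = t * g := by
  decide +kernel

theorem ex3 : ∃ x : SL23, x ^ 3 = 1 ∧ x ≠ 1 := by
  decide +kernel

theorem cent_le : centralizer (pCore 2 SL23 : Set SL23) ≤ pCore 2 SL23 := by
  have hQ : Q ≤ pCore 2 SL23 := by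
    refine le_pCore ⟨fun n hn g => ?_⟩ fun g => ⟨2, Subtype.ext g.2⟩
    show (g * n * g⁻¹) ^ 4 = 1
    rw [conj_pow, show n ^ 4 = 1 from hn]; simp
  exact (centralizer_antitone hQ).trans (le_trans (fun a ha => cent a fun b hb => ha b hb) hQ)


/-- The group X = SL(2, 3): it is 2-constrained, O_{2'}(X) = 1, its centre A = Z(X) contains every involution of X = C_X(A), and X has a subgroup of order 3 (normalized by A) not contained in O_{2'}(X). -/
theorem result : Cfsg.IsPConstrained 2 (Matrix.SpecialLinearGroup (Fin 2) (ZMod 3)) ∧ Cfsg.pPrimeCore 2 (Matrix.SpecialLinearGroup (Fin 2) (ZMod 3)) = ⊥ ∧ (∀ t : Matrix.SpecialLinearGroup (Fin 2) (ZMod 3), orderOf t = 2 → t ∈ Subgroup.center (Matrix.SpecialLinearGroup (Fin 2) (ZMod 3))) ∧ ∃ Q : Subgroup (Matrix.SpecialLinearGroup (Fin 2) (ZMod 3)), Nat.card ↥Q = 3 ∧ ¬ (Q ≤ Cfsg.pPrimeCore 2 (Matrix.SpecialLinearGroup (Fin 2) (ZMod 3))) := by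
  have hO := pPrimeCore_eq_bot_of_centralizer_pCore_le cent_le
  refine ⟨isPConstrained_of_centralizer_pCore_le cent_le, hO, fun t ht => ?_, ?_⟩
  · rw [mem_center_iff]
    exact invol t (by have := pow_orderOf_eq_one t; rwa [ht] at this)
  · obtain ⟨x, h1, h2⟩ := ex3
    have : Fact (Nat.Prime 3) := ⟨Nat.prime_three⟩
    refine ⟨zpowers x, by rw [Nat.card_zpowers, orderOf_eq_prime h1 h2], ?_⟩
    rw [hO, le_bot_iff, zpowers_eq_bot]
    exact h2

end Cfsg.Agent.S1303
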