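import Cfsg.Statements.S1305
import Mathlib
import Cfsg.Agent.Lib.Core.LBalOf
import Cfsg.Agent.Lib.Connect.Basic
import Cfsg.Agent.Lib.Coprime.Hall
import Cfsg.Agent.Lib.Core.Balance

set_option autoImplicit false
open Cfsg

namespace Cfsg.Agent.S1305
open Cfsg.Lib

open Subgroup
open scoped commutatorElement

theorem ea_sup {G : Type*} [Group G] {p : ℕ} {A B : Subgroup G} (hA : IsElementaryAbelian p A)
    (hB : IsElementaryAbelian p B) (h : ⁅A, B⁆ = ⊥) : IsElementaryAbelian p (A ⊔ B : Subgroup G) := by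
  have hAA : ⁅A, A⁆ = ⊥ := commutator_eq_bot_iff_forall.2 fun a ha b hb =>
    congrArg Subtype.val (hA.1.1.1 ⟨a, ha⟩ ⟨b, hb⟩)
  have hBB : ⁅B, B⁆ = ⊥ := commutator_eq_bot_iff_forall.2 fun a ha b hb =>
    congrArg Subtype.val (hB.1.1.1 ⟨a, ha⟩ ⟨b, hb⟩)
  have := commutator_sup_eq_bot_left (commutator_sup_eq_bot_right hAA h)
    (commutator_sup_eq_bot_right (commutator_eq_bot_symm h) hBB)
  refine ⟨⟨⟨fun a b => Subtype.ext (commutator_eq_bot_iff_forall.1 this a a.2 b b.2)⟩⟩, fun x hx => ?_⟩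
  obtain ⟨a, ha, b, hb, rfl⟩ := (mem_sup_of_commutator_eq_bot h).1 hx
  rw [Commute.mul_pow (commutator_eq_bot_iff_forall.1 h a ha b hb), hA.2 a ha, hB.2 b hb, mul_one]

theorem aux {X : Type*} [Group X] [Finite X] {a : X} (ha : orderOf a = 2) {K : Subgroup X}
    (hKa : K ≤ centralizer ({a} : Set X)) (hK : IsComponent (K.subgroupOf (centralizer ({a} : Set X))))
    (hKE : K ≤ layer X) (hrk : ¬ PRankLE 2 1 K) {B : Subgroup X} (hBK : B ≤ centralizer (K : Set X))
    (hel : IsElementaryAbelian 2 B) (haB : a ∈ B)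
    (hmax : ∀ D : Subgroup X, IsComponent D → Nat.card D ≤ Nat.card K ∧ (Nat.card D = Nat.card K →
      ∀ V ≤ centralizer (D : Set X), IsElementaryAbelian 2 V → Nat.card V ≤ Nat.card B)) :
    IsComponent K := by
  have hq : IsQuasisimple K := ((isComponent_subgroupOf_iff hKa).1 hK).2
  obtain ⟨D, hD, hne⟩ := exists_isComponent_commutator_ne_bot hKE hq.commutator_self_ne_bot
  by_cases hn : a ∈ normalizer (D : Set X)
  · have h1 := pump_of_mem_normalizer hKa hK hKE hD hne hn
    rwa [eq_of_le_of_card_ge h1 (hmax D hD).1]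
  exfalso
  obtain ⟨hc, π, h1, h2, h3, -⟩ := pump_of_not_mem_normalizer ha hKa hK hKE hD hne hn
  set D' := D.map (MulAut.conj a).toMonoidHom with hD'
  have hD'c : IsComponent D' := hD.map_conj a
  have ha2 : a * a = 1 := by rw [← pow_two, ← ha, pow_orderOf_eq_one]
  have hai : a⁻¹ = a := inv_eq_of_mul_eq_one_right ha2
  have hcard : Nat.card π.ker * Nat.card K = Nat.card D := by
    rw [← h3, ← index_ker, card_mul_index]
  have hker : π.ker = ⊥ := by
    rw [← card_eq_one]
    have := (hmax D hD).1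
    rw [← hcard] at this
    have h0 : 0 < Nat.card K := Nat.card_pos
    have h0' : 0 < Nat.card π.ker := Nat.card_pos
    nlinarith
  have hcard' : Nat.card D = Nat.card K := by rw [← hcard, hker, card_bot, one_mul]
  have hKD : K ≤ D ⊔ D' := by
    rw [← h3]; rintro _ ⟨d, rfl⟩
    rw [h1]; exact mul_mem_sup d.2 ⟨d, d.2, rfl⟩
  have hBa : ∀ β ∈ B, β * a = a * β := fun β hβ => congrArg Subtype.val (hel.1.1.1 ⟨β, hβ⟩ ⟨a, haB⟩)
  set B0 := B ⊓ normalizer (D : Set X) with hB0
  have hB : B ≤ B0 ⊔ zpowers a := by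
    intro β hβ
    have hβK : K.map (MulAut.conj β).toMonoidHom = K :=
      mem_normalizer_iff_map_conj.1 (centralizer_le_normalizer _ (hBK hβ))
    have hE := hD.map_conj β
    have hne' : ⁅K, D.map (MulAut.conj β).toMonoidHom⁆ ≠ ⊥ := by
      rw [← hβK, ← Subgroup.map_commutator, Ne, Subgroup.map_eq_bot_iff_of_injective _ (MulAut.conj β).injective]
      exact hne
    by_cases e1 : D.map (MulAut.conj β).toMonoidHom = D
    · exact mem_sup_left ⟨hβ, mem_normalizer_iff_map_conj.2 e1⟩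
    by_cases e2 : D.map (MulAut.conj β).toMonoidHom = D'
    · have : β * a ∈ B0 := by
        refine ⟨mul_mem hβ haB, mem_normalizer_fintype fun d hd => ?_⟩
        have : β * d * β⁻¹ ∈ D' := e2 ▸ ⟨d, hd, rfl⟩
        rw [hD', mem_map_conj, hai] at this
        rw [hBa β hβ]
        simpa [mul_assoc, hai] using this
      have e : β = β * a * a := by rw [mul_assoc, ha2, mul_one]
      rw [e]
      exact mul_mem_sup this (mem_zpowers a)
    exact absurd (commutator_eq_bot_of_le hKD le_rfl (commutator_sup_eq_bot_left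
      (hD.commutator_eq_bot_of_ne hE (Ne.symm e1)) (hD'c.commutator_eq_bot_of_ne hE (Ne.symm e2)))) hne'
  have hB2 : Nat.card B ≤ 2 * Nat.card B0 := by
    have := Nat.le_of_dvd two_pos (elemAb_relIndex_dvd_of_cocyclic hel inf_le_left haB hB)
    rw [← card_subgroupOf_of_le (inf_le_left : B0 ≤ B), ← (B0.subgroupOf B).index_mul_card]
    exact Nat.mul_le_mul_right _ this
  have hB0D' : B0 ≤ normalizer (D' : Set X) := by
    intro β hβ
    refine mem_normalizer_fintype ?_
    rintro _ ⟨d, hd, rfl⟩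
    refine ⟨β * d * β⁻¹, conj_mem_of_mem_normalizer hβ.2 hd, ?_⟩
    simp only [MulEquiv.toMonoidHom_eq_coe, MonoidHom.coe_coe, MulAut.conj_apply]
    calc a * (β * d * β⁻¹) * a⁻¹ = (a * β) * d * (a * β)⁻¹ := by group
      _ = _ := by rw [← hBa β hβ.1]; group
  have hB0D : B0 ≤ centralizer (D : Set X) := by
    intro l hl
    refine IsQuasisimple.mem_centralizer_of_commutator_mem (Z := centralizer (D : Set X))
      hD.commutator_self (commutator_eq_bot_iff_le_centralizer.2 le_rfl)
      (normalizer_le_normalizer_centralizer D hl.2) fun d hd => ?_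
    have e := (hBK hl.1 _ (h3 ▸ ⟨⟨d, hd⟩, rfl⟩ : π ⟨d, hd⟩ ∈ K)).symm
    rw [h1] at e
    have hm : a * d * a⁻¹ ∈ D' := ⟨d, hd, rfl⟩
    have : ⁅l, d⁆ = d * ((a * d * a⁻¹) * (l * (a * d * a⁻¹) * l⁻¹)⁻¹) * d⁻¹ := by
      simp only at e
      rw [commutatorElement_def]
      calc l * d * l⁻¹ * d⁻¹ = (l * (d * (a * d * a⁻¹))) * ((a * d * a⁻¹)⁻¹ * l⁻¹ * d⁻¹) := by group
        _ = _ := by rw [e]; group
    rw [this]
    refine conj_mem_of_mem_normalizer (le_normalizer_centralizer le_normalizer hd) ?_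
    exact le_centralizer_of_commutator_eq_bot' hc
      (mul_mem hm (inv_mem (conj_mem_of_mem_normalizer (hB0D' hl) hm)))
  have hB0D'c : ⁅B0, D'⁆ = ⊥ := by
    rw [commutator_eq_bot_iff_forall]
    rintro β hβ _ ⟨d, hd, rfl⟩
    simp only [MulEquiv.toMonoidHom_eq_coe, MonoidHom.coe_coe, MulAut.conj_apply]
    have e1 := hBa β hβ.1
    have e2 := hB0D hβ d hd
    calc β * (a * d * a⁻¹) = (β * a) * d * a⁻¹ := by group
      _ = a * (β * d) * a⁻¹ := by rw [e1]; group
      _ = a * d * (a * β⁻¹)⁻¹ := by rw [← e2]; group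
      _ = a * d * (β⁻¹ * (β * a) * β⁻¹)⁻¹ := by group
      _ = _ := by rw [e1]; group
  have hinf : B0 ⊓ D' = ⊥ := by
    rw [eq_bot_iff]
    rintro z ⟨hz, d, hd, e⟩
    simp only [MulEquiv.toMonoidHom_eq_coe, MonoidHom.coe_coe, MulAut.conj_apply] at e
    have e2 : d = z := by
      calc d = a⁻¹ * (a * d * a⁻¹ * a) := by group
        _ = z := by rw [e, hBa z hz.1]; group
    subst e2
    have : (⟨d, hd⟩ : D) ∈ π.ker := by
      rw [MonoidHom.mem_ker, h1]
      simp only
      rw [e, ← pow_two, hel.2 d hz.1]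
    rw [hker, mem_bot] at this
    exact mem_bot.2 (congrArg Subtype.val this)
  -- a four-group in `D'`
  obtain ⟨V, hVK, hV, hV4⟩ := not_pRankLE_subgroup_iff.1 hrk
  have hinj : Function.Injective π := (MonoidHom.ker_eq_bot_iff π).1 hker
  set V1 := ((V.comap π).map D.subtype).map (MulAut.conj a).toMonoidHom with hV1
  have hV1D : V1 ≤ D' := map_mono (map_subtype_le _)
  have hV1c : Nat.card V1 = Nat.card V := by
    rw [hV1, card_map_of_injective (MulAut.conj a).injective, card_map_subtype,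
      ← card_map_of_injective (K := V.comap π) hinj, map_comap_eq_self (h3 ▸ hVK)]
  have hV1e : IsElementaryAbelian 2 V1 := by
    refine elemAb_map (elemAb_map ⟨⟨⟨fun x y => Subtype.ext (hinj ?_)⟩⟩, fun x hx => hinj ?_⟩ _) _
    · simp only [coe_mul, map_mul]
      exact congrArg Subtype.val (hV.1.1.1 ⟨_, x.2⟩ ⟨_, y.2⟩)
    · rw [map_pow, map_one]; exact hV.2 _ hx
  have hcomm : ⁅B0, V1⁆ = ⊥ := commutator_eq_bot_of_le le_rfl hV1D hB0D'c
  have hW := (hmax D hD).2 hcard' (B0 ⊔ V1)
    (sup_le hB0D (hV1D.trans (le_centralizer_of_commutator_eq_bot' hc)))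
    (ea_sup (elemAb_mono hel inf_le_left) hV1e hcomm)
  have hs := card_sup_mul_card_inf (le_normalizer_of_commutator_eq_bot hcomm)
  rw [eq_bot_iff.2 ((inf_le_inf_left _ hV1D).trans hinf.le), card_bot, mul_one, hV1c] at hs
  have h0 : 0 < Nat.card B0 := Nat.card_pos
  have := Nat.mul_le_mul_left (Nat.card B0) hV4
  rw [hs] at hW
  omega


/-- Let G be a finite group of component type with the B-property and no nontrivial normal subgroup of odd order. Let a be an involution and K a component of C_G(a) such that (a) |K| is maximal among the orders of components of centralizers of involutions of G, (b) subject to (a) the 2-rank of the centralizer of K in C_G(a) is as large as possible, and (c) K has 2-rank at least 2. If B is an elementary abelian 2-subgroup of that centralizer of the largest possible order, then K is a component of C_G(b) for every non-identity b ∈ B. -/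
theorem result {G : Type*} [Group G] [Finite G] (hO : Cfsg.oddCore G = ⊥) (hB : Cfsg.HasBProperty G) (hct : Cfsg.IsComponentType G) (a : G) (ha : orderOf a = 2) (K : Subgroup G) (hKa : K ≤ Subgroup.centralizer ({a} : Set G)) (hK : Cfsg.IsComponent (K.subgroupOf (Subgroup.centralizer ({a} : Set G)))) (hmax : ∀ y : G, orderOf y = 2 → ∀ K' : Subgroup G, K' ≤ Subgroup.centralizer ({y} : Set G) → Cfsg.IsComponent (K'.subgroupOf (Subgroup.centralizer ({y} : Set G))) → Nat.card ↥K' ≤ Nat.card ↥K ∧ (Nat.card ↥K' = Nat.card ↥K → ∀ k : ℕ, Cfsg.PRankLE 2 k ↥(Subgroup.centralizer ({a} : Set G) ⊓ Subgroup.centralizer (K : Set G)) → Cfsg.PRankLE 2 k ↥(Subgroup.centralizer ({y} : Set G) ⊓ Subgroup.centralizer (K' : Set G)))) (hrk : ¬ Cfsg.PRankLE 2 1 ↥K) (B : Subgroup G) (hBle : B ≤ Subgroup.centralizer ({a} : Set G) ⊓ Subgroup.centralizer (K : Set G)) (hBel : Cfsg.IsElementaryAbelian 2 B) (hBmax : ∀ B' : Subgroup G, B' ≤ Subgroup.centralizer ({a} : Set G) ⊓ Subgroup.centralizer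 (K : Set G) → Cfsg.IsElementaryAbelian 2 B' → Nat.card ↥B' ≤ Nat.card ↥B) (b : G) (hb : b ∈ B) (hb1 : b ≠ 1) : K ≤ Subgroup.centralizer ({b} : Set G) ∧ Cfsg.IsComponent (K.subgroupOf (Subgroup.centralizer ({b} : Set G))) := by
  have hKb : K ≤ centralizer ({b} : Set G) := le_centralizer_singleton_of_mem (hBle hb).2
  refine ⟨hKb, ?_⟩
  have hb2 : orderOf b = 2 := elemAb_orderOf hBel hb hb1
  have haK : a ∈ centralizer (K : Set G) := fun k hk => mem_centralizer_singleton_iff.1 (hKa hk)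
  have haB : a ∈ B := by
    by_contra h
    obtain ⟨h1, h2⟩ := ea_zpowers_sup hBel (y := a) (ha ▸ pow_orderOf_eq_one a)
      (fun β hβ => mem_centralizer_singleton_iff.1 (hBle hβ).1) h
    have := hBmax _ (sup_le ((zpowers_le).2 ⟨mem_centralizer_singleton_iff.2 rfl, haK⟩) hBle) h1
    have h0 : 0 < Nat.card B := Nat.card_pos
    omega
  let H := centralizer ({b} : Set G)
  have hBH : B ≤ H := fun β hβ => mem_centralizer_singleton_iff.2
    (congrArg Subtype.val (hBel.1.1.1 ⟨β, hβ⟩ ⟨b, hb⟩))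
  let a' : H := ⟨a, hBH haB⟩
  have ha' : orderOf a' = 2 := by rw [← ha, ← orderOf_coe]
  have hCa' : centralizer ({a'} : Set H) = (H ⊓ centralizer ({a} : Set G)).subgroupOf H := by
    ext g
    simp only [mem_centralizer_singleton_iff, mem_subgroupOf, mem_inf, Subtype.ext_iff, coe_mul, a']
    exact ⟨fun h => ⟨g.2, h⟩, fun h => h.2⟩
  have hKH : K ≤ H ⊓ centralizer ({a} : Set G) := le_inf hKb hKa
  have hK1 : IsComponent (K.subgroupOf (H ⊓ centralizer ({a} : Set G))) :=
    isComponent_subgroupOf_of_le hKH inf_le_right hK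
  have hKa' : K.subgroupOf H ≤ centralizer ({a'} : Set H) := hCa' ▸ comap_mono hKH
  have hK2 : IsComponent ((K.subgroupOf H).subgroupOf (centralizer ({a'} : Set H))) := by
    rw [isComponent_subgroupOf_iff hKa', isQuasisimple_subgroupOf_iff hKb, hCa']
    rw [isComponent_subgroupOf_iff hKH] at hK1
    exact ⟨hK1.1.comap (subgroupOfEquivOfLe (inf_le_left : H ⊓ centralizer ({a} : Set G) ≤ H)).toMonoidHom, hK1.2⟩
  obtain ⟨V, hVK, hV, hV4⟩ := not_pRankLE_subgroup_iff.1 hrk
  have h2K : 2 ∣ Nat.card K := by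
    obtain ⟨n, hn⟩ := IsPGroup.iff_card.1 (elemAb_isPGroup hV)
    refine Dvd.dvd.trans ?_ (card_dvd_of_le hVK)
    rw [hn] at hV4 ⊢
    refine dvd_pow_self 2 ?_
    rintro rfl
    norm_num at hV4
  have hLE : pLayer 2 H ≤ layer H := by
    have h1 := hB b hb2
    rw [hO, le_bot_iff, map_subtype_eq_bot_iff] at h1
    exact sSup_le fun L hL => IsComponent.le_layer ((IsPComponent.isComponent_iff hL).2
      (commutator_eq_bot_of_le (IsPComponent.le_pLayer hL) le_rfl h1))
  have hKE : K.subgroupOf H ≤ layer H := by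
    have h1 := le_pLayerOf hKa' (hK2.isPComponent (p := 2)
      (by rwa [card_subgroupOf_of_le hKa', card_subgroupOf_of_le hKb]))
    have h2 := pLayerOf_centralizer_le_pLayer (isPGroup_zpowers_of_orderOf ha')
    rw [← centralizer_singleton_eq_zpowers] at h2
    exact h1.trans (h2.trans hLE)
  refine aux ha' hKa' hK2 hKE ?_ (B := B.subgroupOf H) ?_ (elemAb_subgroupOf hBel H) haB ?_
  · rw [not_pRankLE_subgroup_iff]
    exact ⟨V.subgroupOf H, comap_mono hVK, elemAb_subgroupOf hV H,
      by rwa [card_subgroupOf_of_le (hVK.trans hKb)]⟩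
  · rw [centralizer_subgroupOf hKb]
    exact comap_mono (hBle.trans inf_le_right)
  · intro D hD
    obtain ⟨h1, h2⟩ := hmax b hb2 (D.map H.subtype) (map_subtype_le _)
      (by rwa [subgroupOf_map_subtype_eq])
    rw [card_map_subtype] at h1 h2
    rw [card_subgroupOf_of_le hKb, card_subgroupOf_of_le hBH]
    refine ⟨h1, fun e W hW hWe => ?_⟩
    obtain ⟨n, hn⟩ := IsPGroup.iff_card.1 (elemAb_isPGroup hBel)
    have h3 := h2 e n (pRankLE_subgroup_iff.2 fun E hE hEe => hn ▸ hBmax E hE hEe)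
    rw [hn, ← card_map_subtype]
    refine pRankLE_subgroup_iff.1 h3 _ ?_ (elemAb_map hWe _)
    rw [← map_subtype_centralizer]
    exact map_mono hW

end Cfsg.Agent.S1305
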