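import Cfsg.Statements.S1306
import Mathlib
import Cfsg.Agent.Lib.Core.Cover

set_option autoImplicit false
open Cfsg

namespace Cfsg.Agent.S1306
open Cfsg.Lib

open Subgroup

/-- Let G be finite, x an involution and L ≤ C_G(x) a component of C_G(x). Suppose L is a component of C_G(y) for every involution y ∈ C_G(L), and ⁅L, g L g⁻¹⁆ ≠ 1 whenever g L g⁻¹ ≠ L. Then L is a standard subgroup of G. -/
theorem result {G : Type*} [Group G] [Finite G] (x : G) (hx : orderOf x = 2) (L : Subgroup G) (hLx : L ≤ Subgroup.centralizer ({x} : Set G)) (hL : Cfsg.IsComponent (L.subgroupOf (Subgroup.centralizer ({x} : Set G)))) (hne : ∀ y : G, orderOf y = 2 → y ∈ Subgroup.centralizer (L : Set G) → L ≤ Subgroup.centralizer ({y} : Set G) ∧ Cfsg.IsComponent (L.subgroupOf (Subgroup.centralizer ({y} : Set G)))) (hnc : ∀ g : G, L.map (MulAut.conj g).toMonoidHom ≠ L → ⁅L, L.map (MulAut.conj g).toMonoidHom⁆ ≠ ⊥) : Cfsg.IsStandardSubgroup L := by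
  have hq : IsQuasisimple L := ((isComponent_subgroupOf_iff hLx).mp hL).2
  have hxL : x ∈ centralizer (L : Set G) := fun k hk => mem_centralizer_singleton_iff.mp (hLx hk)
  have key : ∀ g : G, ∀ y : G, orderOf y = 2 → y ∈ centralizer (L : Set G) →
      y ∈ centralizer (L.map (MulAut.conj g).toMonoidHom : Set G) → g ∈ normalizer (L : Set G) := by
    intro g y hy h1 h2
    by_contra hg
    have hne' : L.map (MulAut.conj g).toMonoidHom ≠ L := fun e =>
      hg (mem_normalizer_of_map_conj_eq e)
    rw [centralizer_map_conj, mem_map_conj] at h2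
    have h3 := hne (g⁻¹ * y * g) (by
      rw [← hy]; simpa using (MulAut.conj g⁻¹).orderOf_eq y) h2
    have h4 := isComponent_map_subgroupOf_map (MulAut.conj g).toMonoidHom h3.1 h3.2 (by
      rw [Ne, Subgroup.map_eq_bot_iff_of_injective _ (MulAut.conj g).injective]
      exact hq.ne_bot)
    have h5 := map_mono (f := (MulAut.conj g).toMonoidHom) h3.1
    have e2 : (centralizer ({g⁻¹ * y * g} : Set G)).map (MulAut.conj g).toMonoidHom =
        centralizer ({y} : Set G) := by
      ext w
      rw [mem_map_conj, mem_centralizer_singleton_iff, mem_centralizer_singleton_iff]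
      constructor
      · intro e
        have := congrArg (fun u => g * u * g⁻¹) e
        simpa [mul_assoc] using this
      · intro e
        calc g⁻¹ * w * g * (g⁻¹ * y * g) = g⁻¹ * (w * y) * g := by group
          _ = _ := by rw [e]; group
    rw [e2] at h4 h5
    rcases eq_or_commutator_eq_bot_of_isComponent_subgroupOf (hne y hy h1).1 h5 (hne y hy h1).2 h4
      with h | h
    · exact hne' h.symm
    · exact hnc g hne' h
  have hN : normalizer (L : Set G) = normalizer (centralizer (L : Set G) : Set G) := by
    refine le_antisymm (normalizer_le_normalizer_centralizer L) fun g hg => key g x hx hxL ?_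
    rw [centralizer_map_conj, map_conj_eq_of_mem_normalizer hg]
    exact hxL
  refine ⟨hq, ⟨?_, fun g hg => ?_⟩, hnc, hN⟩
  · rw [even_iff_two_dvd, ← hx]
    exact Subgroup.orderOf_dvd_natCard _ hxL
  · rw [← Nat.not_even_iff_odd, even_iff_two_dvd]
    intro hd
    obtain ⟨y, hy⟩ := exists_prime_orderOf_dvd_card' 2 hd
    refine hg (hN ▸ key g y (by rw [← hy, orderOf_coe]) y.2.1 ?_)
    rw [centralizer_map_conj]
    exact y.2.2

end Cfsg.Agent.S1306
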