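import Cfsg.Statements.S1315
import Cfsg.Agent.Lib.JK.Two

set_option autoImplicit false
open Cfsg

namespace Cfsg.Agent.S1315

/-- Let G be finite and J ≠ K subgroups, each containing exactly one involution, z(J) resp. z(K), each a 2-component of the centralizer of its involution, with J / O(J) and K / O(K) both isomorphic to SL(2, F) for one finite field F of odd order, or both non-split double covers of A7. Then (i) every 2-element of K of order at least 4 centralizing z(J) normalizes J; (ii) if z(J) normalizes K then z(K) normalizes J. -/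
theorem result {G : Type*} [Group G] [Finite G] (J K : Subgroup G) (hJK : J ≠ K) (zJ zK : G) (hzJ : zJ ∈ J ∧ orderOf zJ = 2 ∧ ∀ t ∈ J, orderOf t = 2 → t = zJ) (hzK : zK ∈ K ∧ orderOf zK = 2 ∧ ∀ t ∈ K, orderOf t = 2 → t = zK) (hJ : J ≤ Subgroup.centralizer ({zJ} : Set G) ∧ Cfsg.IsPComponent 2 (J.subgroupOf (Subgroup.centralizer ({zJ} : Set G)))) (hK : K ≤ Subgroup.centralizer ({zK} : Set G) ∧ Cfsg.IsPComponent 2 (K.subgroupOf (Subgroup.centralizer ({zK} : Set G)))) (htype : (∃ (F : Type) (_ : Field F) (_ : Fintype F), Odd (Fintype.card F) ∧ Nonempty (↥J ⧸ Cfsg.oddCore ↥J ≃* Matrix.SpecialLinearGroup (Fin 2) F) ∧ Nonempty (↥K ⧸ Cfsg.oddCore ↥K ≃* Matrix.SpecialLinearGroup (Fin 2) F)) ∨ (Cfsg.IsNonsplitDoubleCover (↥J ⧸ Cfsg.oddCore ↥J) ↥(alternatingGroup (Fin 7)) ∧ Cfsg.IsNonsplitDoubleCover (↥K ⧸ Cfsg.oddCore ↥K) ↥(alternatingGroup (Fin 7)))) : (∀ y ∈ K, IsPGroup 2 ↥(Subgroup.zpowers y) → 4 ≤ orderOf y → y * zJ =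 zJ * y → y ∈ Subgroup.normalizer (J : Set G)) ∧ (zJ ∈ Subgroup.normalizer (K : Set G) → zK ∈ Subgroup.normalizer (J : Set G)) := by
  have mk : ∀ (z : G) (I : Subgroup G), (z ∈ I ∧ orderOf z = 2 ∧ ∀ t ∈ I, orderOf t = 2 → t = z) →
      (I ≤ Subgroup.centralizer ({z} : Set G) ∧
        Cfsg.IsPComponent 2 (I.subgroupOf (Subgroup.centralizer ({z} : Set G)))) →
      Cfsg.Lib.JK.QC z I := fun z I h h' =>
    ⟨h.1, by rw [← sq, ← h.2.1, pow_orderOf_eq_one], fun e => by simpa [e] using h.2.1,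
      fun t ht h2 => by
        by_cases e : t = 1
        · exact Or.inl e
        · exact Or.inr (h.2.2 t ht (orderOf_eq_prime (by rw [sq, h2]) e)), h'.1, h'.2⟩
  refine ⟨fun y hy h2 h4 hc => Cfsg.Lib.JK.part_one (mk _ _ hzJ hJ) (mk _ _ hzK hK) hJK hy
    (.of_mem h2 (Subgroup.mem_zpowers y)) (fun e => ?_) (Cfsg.Lib.JK.mem_C.2 hc),
    Cfsg.Lib.JK.part_two (mk _ _ hzJ hJ) (mk _ _ hzK hK) hJK⟩
  have := Nat.le_of_dvd two_pos (orderOf_dvd_of_pow_eq_one (by rw [sq, e] : y ^ 2 = 1))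
  omega

end Cfsg.Agent.S1315
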