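import Cfsg.Statements.S1317
import Mathlib
import Cfsg.Agent.Lib.Core.FStar

set_option autoImplicit false
open Cfsg

namespace Cfsg.Agent.S1317
open Cfsg.Lib

/-- For a finite group X, the centre of the layer E(X) is F(X) ∩ E(X). -/
theorem result {X : Type*} [Group X] [Finite X] : (Subgroup.center ↥(Cfsg.layer X)).map (Cfsg.layer X).subtype = Cfsg.fittingSubgroup X ⊓ Cfsg.layer X := by
  rw [map_subtype_center, layer_inf_centralizer_layer]

end Cfsg.Agent.S1317
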