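import Cfsg.Statements.S1319
import Mathlib
import Cfsg.Agent.Lib.Core.FStar

set_option autoImplicit false
open Cfsg

namespace Cfsg.Agent.S1319
open Cfsg.Lib

/-- Let A be a subnormal subgroup of the finite group X with E(A) = A. Then A ≤ E(X) and A is normal in E(X). -/
theorem result {X : Type*} [Group X] [Finite X] (A : Subgroup X) (hsn : A.IsSubnormal) (hA : Cfsg.layer ↥A = ⊤) : A ≤ Cfsg.layer X ∧ (A.subgroupOf (Cfsg.layer X)).Normal := by
  have h1 : A = (layer A).map A.subtype := by
    rw [hA, ← MonoidHom.range_eq_map, Subgroup.range_subtype]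
  have h2 := layerOf_eq_sSup_of_isSubnormal hsn
  rw [← h1] at h2
  refine ⟨h1 ▸ layerOf_le_layer_of_isSubnormal hsn, ?_⟩
  apply Subgroup.normal_subgroupOf_of_le_normalizer
  rw [h2]
  exact layer_le_normalizer_sSup fun K hK => hK.1

end Cfsg.Agent.S1319
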