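import Cfsg.Statements.S1325
import Mathlib
import Cfsg.Agent.Lib.Core.FStar

set_option autoImplicit false
open Cfsg

namespace Cfsg.Agent.S1325
open Cfsg.Lib

/-- Let X be finite and Y a normal subgroup containing F(X) with C_X(Y) ≤ Y. Then F*(X) ≤ Y. -/
theorem result {X : Type*} [Group X] [Finite X] (Y : Subgroup X) [Y.Normal] (hF : Cfsg.fittingSubgroup X ≤ Y) (hC : Subgroup.centralizer (Y : Set X) ≤ Y) : Cfsg.generalizedFittingSubgroup X ≤ Y := by
  exact fstar_le_of_centralizer_le (Subgroup.Normal.isSubnormal inferInstance) hF hC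

end Cfsg.Agent.S1325
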