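import Cfsg.Statements.S1326
import Mathlib
import Cfsg.Agent.Lib.Core.FStar

set_option autoImplicit false
open Cfsg

namespace Cfsg.Agent.S1326
open Cfsg.Lib

/-- For a finite group X: the Fitting subgroup contains its centralizer if and only if the layer of X is trivial. -/
theorem result {X : Type*} [Group X] [Finite X] : Subgroup.centralizer (Cfsg.fittingSubgroup X : Set X) ≤ Cfsg.fittingSubgroup X ↔ Cfsg.layer X = ⊥ := by
  exact centralizer_fitting_le_iff_layer_eq_bot

end Cfsg.Agent.S1326
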