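import Cfsg.Statements.S1328
import Mathlib
import Cfsg.Agent.Lib.Core.Balance

set_option autoImplicit false
open Cfsg

namespace Cfsg.Agent.S1328
open Cfsg.Lib

open Subgroup

theorem aux {G : Type*} [Group G] [Finite G] (hO : pPrimeCore 2 G = ⊥) {t : G} (ht : orderOf t = 2)
    {Y : Subgroup G} (hY1 : Y ≠ ⊥) (hY : Y ≤ centralizerPPrimeCore 2 t) :
    ∃ E : Subgroup G, IsComponent E ∧ ⁅E, zpowers t⁆ = E ∧ Y ≤ normalizer (E : Set G) ∧
      ⁅E, Y⁆ ≠ ⊥ := by
  by_contra hc
  push Not at hc
  refine hY1 (eq_bot_of_centralizes_fstar hO (coprime_card_of_le hY (coprime_card_pPrimeCoreOf _))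
    (commutator_eq_bot_of_le hY le_rfl (commutator_centralizerPPrimeCore_pCore ht)) fun E hE => ?_)
  by_cases h : ⁅E, zpowers t⁆ = E
  · exact hc E hE h (hY.trans (centralizerPPrimeCore_le_normalizer hO ht hE))
  · exact commutator_eq_bot_of_le le_rfl hY (commutator_centralizerPPrimeCore_eq_bot hO ht hE h)


/-- Let G be finite, H ≤ G with O(H) = 1, t an involution of G normalizing H, and Y a nontrivial subgroup of O(C_H(t)). Then some component E of H is normalized by t and by Y and centralized by neither t nor Y. -/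
theorem result {G : Type*} [Group G] [Finite G] (H : Subgroup G) (hO : Cfsg.oddCore ↥H = ⊥) (t : G) (ht : orderOf t = 2) (htH : t ∈ Subgroup.normalizer (H : Set G)) (Y : Subgroup G) (hY1 : Y ≠ ⊥) (hY : Y ≤ (Cfsg.oddCore ↥(H ⊓ Subgroup.centralizer ({t} : Set G))).map (H ⊓ Subgroup.centralizer ({t} : Set G)).subtype) : ∃ E : Subgroup ↥H, Cfsg.IsComponent E ∧ (E.map H.subtype).map (MulAut.conj t).toMonoidHom = E.map H.subtype ∧ Y ≤ Subgroup.normalizer ((E.map H.subtype : Subgroup G) : Set G) ∧ ¬ (t ∈ Subgroup.centralizer ((E.map H.subtype : Subgroup G) : Set G)) ∧ ¬ (Y ≤ Subgroup.centralizer ((E.map H.subtype : Subgroup G) : Set G)) := by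
  set X := H ⊔ zpowers t with hX
  have hHX : H ≤ X := le_sup_left
  have htX : t ∈ X := mem_sup_right (mem_zpowers t)
  have hXH : X ≤ normalizer (H : Set G) := sup_le le_normalizer (zpowers_le.mpr htH)
  have hYH : Y ≤ H := hY.trans ((map_subtype_le _).trans inf_le_left)
  have hOX : pPrimeCore 2 X = ⊥ := by
    rw [← map_subtype_eq_bot_iff, eq_bot_iff]
    have h1 : (pPrimeCore 2 X).map X.subtype ≤ H := by
      rw [← relIndex_eq_one]
      have h2 : H.relIndex X ∣ 2 := by
        rw [hX, sup_comm, relIndex_sup_of_le_normalizer' (zpowers_le.mpr htH), ← ht,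
          ← Nat.card_zpowers]
        exact relIndex_dvd_card _ _
      have h3 := normal_subgroupOf_of_le_normalizer hXH
      have h4 : H.relIndex ((pPrimeCore 2 X).map X.subtype) ∣ H.relIndex X := by
        have := relIndex_dvd_index_of_normal (H.subgroupOf X) (pPrimeCore 2 X)
        rwa [← subgroupOf_map_subtype_eq (pPrimeCore 2 X),
          relIndex_subgroupOf (map_subtype_le _)] at this
      exact Nat.eq_one_of_dvd_coprimes (coprime_card_pPrimeCoreOf X) (relIndex_dvd_card _ _)
        (h4.trans h2)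
    refine le_trans (le_inf le_rfl h1) ((pPrimeCoreOf_inf_le_pPrimeCoreOf hHX).trans ?_)
    rw [show pPrimeCore 2 H = ⊥ from hO, Subgroup.map_bot]
  have ht' : orderOf (⟨t, htX⟩ : X) = 2 := by rw [← ht, ← orderOf_coe]
  have hY' : Y.subgroupOf X ≤ centralizerPPrimeCore 2 (⟨t, htX⟩ : X) := by
    have e : (centralizer ({(⟨t, htX⟩ : X)} : Set X)).map X.subtype =
        X ⊓ centralizer ({t} : Set G) := by
      rw [centralizer_singleton_eq_zpowers, map_subtype_centralizer, MonoidHom.map_zpowers,
        ← centralizer_singleton_eq_zpowers]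
      rfl
    rw [← map_le_map_iff_of_injective X.subtype_injective, centralizerPPrimeCore,
      ← pPrimeCoreOf_map_of_injective _ X.subtype_injective, e,
      map_subgroupOf_eq_of_le (hYH.trans hHX)]
    exact hY.trans (pPrimeCoreOf_le_pPrimeCoreOf_of_le_normalizer (inf_le_inf_right _ hHX)
      (le_normalizer_inf (inf_le_left.trans hXH) (le_normalizer_of_le inf_le_right)))
  obtain ⟨E, hE, h1, h2, h3⟩ := aux hOX ht' (Y := Y.subgroupOf X) (by
    rw [Ne, ← map_subtype_eq_bot_iff, map_subgroupOf_eq_of_le (hYH.trans hHX)]; exact hY1) hY'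
  have hEH : E ≤ H.subgroupOf X :=
    (hE.le_or_commutator_eq_bot (isSubnormal_subgroupOf_of_le_normalizer hXH)).resolve_right
      fun e => h3 (commutator_eq_bot_of_le le_rfl (comap_mono hYH) e)
  have hEH' : E.map X.subtype ≤ H := map_le_iff_le_comap.mpr hEH
  have h1' : ⁅E.map X.subtype, zpowers t⁆ = E.map X.subtype := by
    conv_rhs => rw [← h1, map_commutator, MonoidHom.map_zpowers]
    rfl
  refine ⟨(E.map X.subtype).subgroupOf H, isComponent_subgroupOf_of_le hEH' hHX
    (by rwa [subgroupOf_map_subtype_eq]), ?_⟩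
  rw [map_subgroupOf_eq_of_le hEH']
  refine ⟨map_conj_eq_of_mem_normalizer
    (le_normalizer_iff_commutator_le_left.mpr h1'.le (mem_zpowers t)), ?_, fun h => ?_, fun h => ?_⟩
  · rw [← map_subgroupOf_eq_of_le (hYH.trans hHX)]
    exact (map_mono h2).trans (le_normalizer_map _)
  · refine hE.ne_bot (map_subtype_eq_bot_iff.mp (h1' ▸ commutator_eq_bot_symm ?_))
    exact commutator_eq_bot_iff_le_centralizer.mpr (zpowers_le.mpr h)
  · apply h3
    rw [← map_subtype_eq_bot_iff, map_commutator, map_subgroupOf_eq_of_le (hYH.trans hHX)]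
    exact commutator_eq_bot_symm (commutator_eq_bot_iff_le_centralizer.mpr h)

end Cfsg.Agent.S1328
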