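import Cfsg.Statements.S1329
import Mathlib
import Cfsg.Agent.Lib.Gold.FixGen
import Cfsg.Agent.Lib.FT.Final

set_option autoImplicit false
open Cfsg

namespace Cfsg.Agent.S1329

open Subgroup Cfsg.Lib

theorem cyc_quot {G : Type*} [Group G] {A B A₀ : Subgroup G} (hA : IsMulCommutative A) (hB : B ≤ A)
    (h : Cfsg.Lib.FT.Cocyc A A₀) [((B ⊓ A₀).subgroupOf B).Normal] : IsCyclic (B ⧸ (B ⊓ A₀).subgroupOf B) := by
  obtain ⟨h1, a, ha, h2⟩ := h
  have hn := Cfsg.Lib.FT.le_N_of_comm hA h1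
  have : (A₀.subgroupOf A).Normal := normal_subgroupOf_of_le_normalizer hn
  have : IsCyclic (A ⧸ A₀.subgroupOf A) := ⟨⟨((⟨a, ha⟩ : A) : A ⧸ A₀.subgroupOf A), fun x => by
    obtain ⟨x, rfl⟩ := QuotientGroup.mk_surjective x
    obtain ⟨y, ⟨k, rfl⟩, b, hb, e⟩ := (mem_sup_of_le_normalizer' ((zpowers_le.2 ha).trans hn)).1
      ((h2.trans (sup_comm _ _).le) x.2)
    refine ⟨k, ?_⟩
    show ((⟨a, ha⟩ : A) : A ⧸ A₀.subgroupOf A) ^ k = _
    rw [← QuotientGroup.mk_zpow, QuotientGroup.eq, mem_subgroupOf]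
    show (a ^ k)⁻¹ * (x : G) ∈ A₀
    rw [← e]; simpa using hb⟩⟩
  refine isCyclic_of_injective (QuotientGroup.lift _ ((QuotientGroup.mk' (A₀.subgroupOf A)).comp (inclusion hB))
    fun x hx => (QuotientGroup.eq_one_iff _).2 hx.2) ((injective_iff_map_eq_one _).2 fun x hx => ?_)
  obtain ⟨x, rfl⟩ := QuotientGroup.mk_surjective x
  exact (QuotientGroup.eq_one_iff _).2 ⟨x.2, (QuotientGroup.eq_one_iff (N := A₀.subgroupOf A) (inclusion hB x)).1 hx⟩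

/-- Let A be an abelian 2-subgroup of the finite group G, B ≤ A, and Y a subgroup of odd order normalized by A with ⁅Y, A⁆ = Y. Then Y ∩ C_G(B) is generated by the subgroups Y ∩ C_G(B) ∩ ⁅Y ∩ C_G(B₀), A⁆, B₀ ranging over the subgroups of B with B / B₀ cyclic. -/
theorem result {G : Type*} [Group G] [Finite G] (A B Y : Subgroup G) (hA2 : IsPGroup 2 ↥A) (hAc : IsMulCommutative ↥A) (hB : B ≤ A) (hYodd : Odd (Nat.card ↥Y)) (hAY : A ≤ Subgroup.normalizer (Y : Set G)) (hYA : ⁅Y, A⁆ = Y) : Y ⊓ Subgroup.centralizer (B : Set G) = ⨆ B₀ : {B₀ : Subgroup G // B₀ ≤ B ∧ ∀ [(B₀.subgroupOf B).Normal], IsCyclic (↥B ⧸ B₀.subgroupOf B)}, Y ⊓ Subgroup.centralizer (B : Set G) ⊓ ⁅Y ⊓ Subgroup.centralizer ((B₀ : Subgroup G) : Set G), A⁆ := by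
  have h : CoprimeAct A Y := CoprimeAct.of_isPGroup hA2 (by have := Nat.odd_iff.1 hYodd; omega) hAY
  refine le_antisymm ?_ (iSup_le fun _ => inf_le_left)
  have key : ∀ A₀, Cfsg.Lib.FT.Cocyc A A₀ → Y ⊓ centralizer (B : Set G) ⊓ ⁅Y ⊓ centralizer ((B ⊓ A₀ : Subgroup G) : Set G), A⁆ ≤ _ :=
    fun A₀ h0 => le_iSup (fun B₀ : {B₀ : Subgroup G // B₀ ≤ B ∧ ∀ [(B₀.subgroupOf B).Normal], IsCyclic (↥B ⧸ B₀.subgroupOf B)} => Y ⊓ Subgroup.centralizer (B : Set G) ⊓ ⁅Y ⊓ Subgroup.centralizer ((B₀ : Subgroup G) : Set G), A⁆) ⟨B ⊓ A₀, inf_le_left, cyc_quot hAc hB h0⟩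
  have h1 := h.centralizer_act (Cfsg.Lib.FT.le_N_of_comm hAc hB)
  conv_lhs => rw [← h1.commutator_sup_centralizer]
  refine sup_le (le_trans ?_ (key A ⟨le_rfl, 1, one_mem _, le_sup_left⟩)) ?_
  · rw [inf_eq_left.2 hB]; exact le_inf h1.commutator_le le_rfl
  · refine (inf_le_inf_right _ inf_le_left).trans (Cfsg.Lib.FT.gold_fix h (Cfsg.Lib.FT.odd_order_solvable hYodd) hAc hYA
      fun A₀ h0 => le_trans ?_ (key A₀ h0))
    exact le_inf (le_inf (inf_le_left.trans ((h.centralizer_act (Cfsg.Lib.FT.le_N_of_comm hAc h0.1)).commutator_le.trans inf_le_left))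
      (inf_le_right.trans (centralizer_le hB)))
      (inf_le_left.trans (commutator_mono (inf_le_inf_left _ (centralizer_le inf_le_right)) le_rfl))

end Cfsg.Agent.S1329
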