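import Cfsg.Statements.S1335
import Mathlib
import Cfsg.Agent.Lib.Connect.Basic

set_option autoImplicit false
open Cfsg

namespace Cfsg.Agent.S1335

open Subgroup Cfsg.Lib

/-- Let H be a subgroup of the finite group G, p a prime, k ≥ 1, P a Sylow p-subgroup of H of p-rank at least k, and suppose N_G(X) ≤ H for every subgroup X ≤ P of p-rank at least k. Then P is a Sylow p-subgroup of G. -/
theorem result {G : Type*} [Group G] [Finite G] {p : ℕ} [Fact p.Prime] (k : ℕ) (hk : 1 ≤ k) (H : Subgroup G) (P : Sylow p ↥H) (hP : ¬ Cfsg.PRankLE p (k - 1) ↥(P : Subgroup ↥H)) (hΓ : (∀ X : Subgroup G, X ≤ (P : Subgroup ↥H).map H.subtype → ¬ Cfsg.PRankLE p (k - 1) ↥X → Subgroup.normalizer (X : Set G) ≤ H)) : ∃ Q : Sylow p G, (Q : Subgroup G) = (P : Subgroup ↥H).map H.subtype := by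
  have hS := IsSylowIn.of_sylow P
  obtain ⟨E, h1, h2, h3⟩ := not_pRankLE_subgroup_iff.mp hP
  have hN := hΓ _ le_rfl (not_pRankLE_subgroup_iff.mpr ⟨E.map H.subtype, map_mono h1,
    Quad.ea_map _ h2, by rw [card_map_of_injective H.subtype_injective]; exact h3⟩)
  refine IsSylowIn.exists_sylow_top ⟨le_top, hS.isPGroup, fun R hR _ hle => ?_⟩
  by_contra hne
  have hlt := pg_lt_inf_normalizer hR (lt_of_le_of_ne hle (Ne.symm hne))
  exact hlt.ne (hS.maximal _ (hR.to_inf_left) (inf_le_right.trans hN) hlt.le).symm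

end Cfsg.Agent.S1335
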