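import Cfsg.Statements.S1336
import Mathlib
import Cfsg.Agent.Lib.Connect.Basic

set_option autoImplicit false
open Cfsg

namespace Cfsg.Agent.S1336

open Subgroup Cfsg.Lib

/-- Let G be finite and p prime. Then G has a proper subgroup H with p ∣ |H| and p ∤ |H ∩ gHg⁻¹| for every g ∉ H (a strongly p-embedded subgroup) if and only if G is not 1-connected for p. -/
theorem result {G : Type*} [Group G] [Finite G] (p : ℕ) [Fact p.Prime] : (∃ H : Subgroup G, H ≠ ⊤ ∧ p ∣ Nat.card ↥H ∧ ∀ g : G, g ∉ H → ¬ p ∣ Nat.card ↥(H ⊓ H.map (MulAut.conj g).toMonoidHom)) ↔ ¬ Cfsg.IsKConnected p 1 G := by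
  have hp : p.Prime := Fact.out
  have hzp : ∀ x : G, orderOf x = p →
      IsElementaryAbelian p (zpowers x) ∧ p ^ 1 ≤ Nat.card (zpowers x) := fun x hx =>
    ⟨Quad.ea_zpowers (hx ▸ pow_orderOf_eq_one x), by rw [Nat.card_zpowers, hx, pow_one]⟩
  have hex : ∀ K : Subgroup G, p ∣ Nat.card K → ∃ x ∈ K, orderOf x = p := fun K hK => by
    obtain ⟨x, hx⟩ := exists_prime_orderOf_dvd_card' p hK
    exact ⟨x, x.2, by rw [← hx, orderOf_coe]⟩
  constructor
  · rintro ⟨H, hH, hd, hemb⟩ hconn
    obtain ⟨x, hxH, hx⟩ := hex H hd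
    obtain ⟨g, -, hg⟩ := SetLike.exists_of_lt (lt_top_iff_ne_top.mpr hH)
    have key : ∀ B : Subgroup G, Relation.ReflTransGen (KAdj p 1) (zpowers x) B → B ≤ H := by
      intro B hB
      induction hB with
      | refl => exact zpowers_le.mpr hxH
      | @tail A B _ h ih =>
        intro b hb
        by_contra hbH
        apply hemb b hbH
        obtain ⟨n, hn⟩ := IsPGroup.iff_card.mp (Quad.ea_isPGroup h.1)
        have h1 := h.2.1
        have hle : A ≤ H ⊓ H.map (MulAut.conj b).toMonoidHom := fun a ha =>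
          mem_inf.mpr ⟨ih ha, mem_map_conj.mpr (by
            rw [mul_assoc, h.2.2.2.2 a ha b hb, inv_mul_cancel_left]; exact ih ha)⟩
        refine dvd_trans ?_ (card_dvd_of_le hle)
        rw [hn] at h1 ⊢
        exact dvd_pow_self p (by have := (Nat.pow_le_pow_iff_right hp.one_lt).mp h1; omega)
    have hx' : orderOf (g * x * g⁻¹) = p := by
      rw [← hx]; exact (MulAut.conj g).orderOf_eq x
    have h1 := key _ (hconn _ _ (hzp x hx).1 (hzp x hx).2 (hzp _ hx').1 (hzp _ hx').2)
    apply hemb g hg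
    rw [← hx', ← Nat.card_zpowers]
    refine card_dvd_of_le (le_inf h1 (zpowers_le.mpr (mem_map_conj.mpr ?_)))
    exact mem_of_mem_of_eq hxH (by group)
  · intro hconn
    unfold IsKConnected at hconn
    push Not at hconn
    obtain ⟨E, E', hE, hE1, hE', hE1', hne⟩ := hconn
    let H : Subgroup G :=
      { carrier := {g | Relation.ReflTransGen (KAdj p 1) (E.map (MulAut.conj g).toMonoidHom) E}
        one_mem' := by
          change Relation.ReflTransGen (KAdj p 1) (E.map (MulAut.conj 1).toMonoidHom) E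
          rw [map_conj_one]
        mul_mem' := by
          intro g h hg hh
          change Relation.ReflTransGen (KAdj p 1) (E.map (MulAut.conj (g * h)).toMonoidHom) E
          rw [map_conj_mul]
          exact (kConn_conj hh g).trans hg
        inv_mem' := by
          intro g hg
          have := kConn_conj hg g⁻¹
          rw [map_conj_inv_map_conj] at this
          exact kConn_symm this }
    have hmem : ∀ g : G, g ∈ H ↔
        Relation.ReflTransGen (KAdj p 1) (E.map (MulAut.conj g).toMonoidHom) E := fun _ => Iff.rfl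
    obtain ⟨P, hP, hEP⟩ := exists_isSylowIn_ge (Quad.ea_isPGroup hE) (le_top : E ≤ ⊤)
    have hPH : P ≤ H := fun y hy => (hmem y).mpr (kConn_one_of_le hP.isPGroup (Quad.ea_map _ hE)
      (by rw [card_map_conj]; exact hE1) (map_conj_le_of_mem_normalizer hEP (le_normalizer hy))
      hE hE1 hEP)
    have key : ∀ X : Subgroup G, IsElementaryAbelian p X → p ^ 1 ≤ Nat.card X → X ≤ H →
        Relation.ReflTransGen (KAdj p 1) X E := by
      intro X hX hX1 hXH
      obtain ⟨k, hk, hle⟩ := (hP.mono hPH le_top).exists_conj_le (Quad.ea_isPGroup hX) hXH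
      have h1 := kConn_conj (kConn_one_of_le hP.isPGroup (Quad.ea_map _ hX)
        (by rw [card_map_conj]; exact hX1) hle hE hE1 hEP) k⁻¹
      rw [map_conj_inv_map_conj] at h1
      exact h1.trans ((hmem _).mp (inv_mem hk))
    refine ⟨H, fun h => hne (kConn_symm (key E' hE' hE1' (h ▸ le_top))), ?_, fun g hg hd => hg ?_⟩
    · obtain ⟨n, hn⟩ := IsPGroup.iff_card.mp (Quad.ea_isPGroup hE)
      refine dvd_trans ?_ (card_dvd_of_le (hEP.trans hPH))
      rw [hn] at hE1 ⊢
      exact dvd_pow_self p (by have := (Nat.pow_le_pow_iff_right hp.one_lt).mp hE1; omega)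
    · obtain ⟨x, hx, hxp⟩ := hex _ hd
      obtain ⟨h1, h2⟩ := hzp x hxp
      have h3 := key _ h1 h2 (zpowers_le.mpr (mem_inf.mp hx).1)
      have h4 := kConn_conj (key _ (Quad.ea_map (MulAut.conj g⁻¹).toMonoidHom h1)
        (by rw [card_map_conj]; exact h2)
        (by rw [map_conj_le_iff, inv_inv]; exact zpowers_le.mpr (mem_inf.mp hx).2)) g
      rw [map_conj_map_conj_inv] at h4
      exact (hmem g).mpr ((kConn_symm h4).trans h3)

end Cfsg.Agent.S1336
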