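import Cfsg.Statements.S1337
import Mathlib
import Cfsg.Agent.Lib.Connect.Basic

set_option autoImplicit false
open Cfsg

namespace Cfsg.Agent.S1337

open Subgroup Cfsg.Lib

/-- Let P be a finite p-group of p-rank greater than 2. Then P has a normal elementary abelian subgroup U of order p², and for every elementary abelian X ≤ P with |X| ≥ p²: X is joined to U by a chain of pairwise commuting elementary abelian subgroups of order ≥ p² if and only if C_P(X) has p-rank greater than 2. -/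
theorem result {P : Type*} [Group P] [Finite P] (p : ℕ) [Fact p.Prime] (hP : IsPGroup p P) (hrk : ¬ Cfsg.PRankLE p 2 P) : ∃ U : Subgroup P, U.Normal ∧ Cfsg.IsElementaryAbelian p U ∧ Nat.card ↥U = p ^ 2 ∧ ∀ X : Subgroup P, Cfsg.IsElementaryAbelian p X → p ^ 2 ≤ Nat.card ↥X → (Relation.ReflTransGen (fun A B : Subgroup P => Cfsg.IsElementaryAbelian p A ∧ p ^ 2 ≤ Nat.card ↥A ∧ Cfsg.IsElementaryAbelian p B ∧ p ^ 2 ≤ Nat.card ↥B ∧ ∀ a ∈ A, ∀ b ∈ B, a * b = b * a) X U ↔ ¬ Cfsg.PRankLE p 2 ↥(Subgroup.centralizer (X : Set P))) := by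
  have hp : p.Prime := Fact.out
  obtain ⟨E, hE, hE3⟩ := not_pRankLE_iff.mp hrk
  obtain ⟨U, hUn, hU, hU2⟩ := exists_normal_rank_two_of_rank_three hP hE hE3
  refine ⟨U, hUn, hU, hU2, fun X hX hX2 => ⟨fun h => ?_, fun h => ?_⟩⟩
  swap
  · obtain ⟨F, h1, h2, h3⟩ := not_pRankLE_subgroup_iff.mp h
    exact kConn_two_of_centralizer hP hU hU2 hX hX2 h2 h3 h1
  have step : ∀ X B : Subgroup P, KAdj p 2 X B → X ≠ B ∨ ¬ PRankLE p 2 (centralizer (B : Set P)) →
      ¬ PRankLE p 2 (centralizer (X : Set P)) := by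
    intro X B h h'
    by_cases hXB : X = B
    · rcases h' with h' | h'
      · exact absurd hXB h'
      · rwa [hXB]
    have hea := Quad.ea_sup h.2.2.1 h.1 h.le_centralizer
    refine not_pRankLE_subgroup_iff.mpr ⟨B ⊔ X, sup_le h.le_centralizer (Quad.ea_le_centralizer h.1),
      hea, pow_succ_le_card_of_lt (Quad.ea_isPGroup hea) ?_⟩
    by_contra hc
    have h1 : X = B ⊔ X := eq_of_le_of_card_ge le_sup_right ((not_lt.mp hc).trans h.2.1)
    have h2 : B = B ⊔ X := eq_of_le_of_card_ge le_sup_left ((not_lt.mp hc).trans h.2.2.2.1)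
    exact hXB (h1.trans h2.symm)
  clear hX hX2
  induction h using Relation.ReflTransGen.head_induction_on with
  | refl =>
    have h1 := card_le_mul_card_inf_centralizer_of_card_eq_sq hP hU2 E
    have h2 : p ^ 2 ≤ Nat.card ↥(E ⊓ centralizer (U : Set P)) := by
      refine Nat.le_of_mul_le_mul_left (hE3.trans h1 |>.trans' (le_of_eq ?_)) hp.pos
      ring
    by_cases he : U = E ⊓ centralizer (U : Set P)
    · exact not_pRankLE_subgroup_iff.mpr ⟨E, (Quad.ea_le_centralizer hE).trans
        (centralizer_mono (he.le.trans inf_le_left)), hE, hE3⟩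
    · exact step U _ (kAdj_of_le_centralizer hU hU2.ge (Quad.ea_mono hE inf_le_left) h2 inf_le_right)
        (Or.inl he)
  | head h _ ih => exact step _ _ h (Or.inr ih)

end Cfsg.Agent.S1337
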