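import Cfsg.Statements.S1338
import Mathlib
import Cfsg.Agent.Lib.Connect.Normal

set_option autoImplicit false
open Cfsg

namespace Cfsg.Agent.S1338

open Subgroup Cfsg.Lib

/-- A finite 3-group of 3-rank at least 4 is 2-connected for the prime 3: its commuting graph on elementary abelian subgroups of order ≥ 9 is connected. -/
theorem result {P : Type*} [Group P] [Finite P] (hP : IsPGroup 3 P) (hrk : ¬ Cfsg.PRankLE 3 3 P) : Cfsg.IsKConnected 3 2 P := by
  have : Fact (Nat.Prime 3) := ⟨Nat.prime_three⟩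
  obtain ⟨E, hE, hE4⟩ := not_pRankLE_iff.mp hrk
  obtain ⟨A, hAn, hA, hA4⟩ := exists_normal_ea_of_rank_le_four (by norm_num) le_rfl hP hE hE4
  obtain ⟨U, hUn, hU, hU2⟩ := exists_normal_rank_two_of_rank_three hP hE (le_trans (by norm_num) hE4)
  have key : ∀ X : Subgroup P, IsElementaryAbelian 3 X → 3 ^ 2 ≤ Nat.card X →
      Relation.ReflTransGen (KAdj 3 2) X U := by
    intro X hX hX2
    suffices h : ∃ F : Subgroup P, IsElementaryAbelian 3 F ∧ 3 ^ 3 ≤ Nat.card F ∧
        F ≤ centralizer (X : Set P) by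
      obtain ⟨F, f1, f2, f3⟩ := h
      exact kConn_two_of_centralizer hP hU hU2 hX hX2 f1 f2 f3
    by_cases h3 : 3 ^ 3 ≤ Nat.card X
    · exact ⟨X, hX, h3, Quad.ea_le_centralizer hX⟩
    have hXc : Nat.card X = 3 ^ 2 := le_antisymm (not_lt.mp fun h =>
      h3 (pow_succ_le_card_of_lt (Quad.ea_isPGroup hX) h)) hX2
    have ext : ∀ y : P, y ^ 3 = 1 → y ∈ centralizer (X : Set P) → y ∉ X →
        ∃ F : Subgroup P, IsElementaryAbelian 3 F ∧ 3 ^ 3 ≤ Nat.card F ∧
          F ≤ centralizer (X : Set P) := fun y h1 h2 h3 =>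
      ⟨_, (ea_zpowers_sup hX h1 h2 h3).1, by rw [(ea_zpowers_sup hX h1 h2 h3).2, hXc]; norm_num,
        sup_le (zpowers_le.mpr h2) (Quad.ea_le_centralizer hX)⟩
    have hAne : A ≠ ⊥ := by
      rintro rfl
      rw [card_bot] at hA4
      norm_num at hA4
    obtain ⟨z, -, hz, hzc⟩ := pg_exists_central_of_order_p hP A hAne
    have hz3 : z ^ 3 = 1 := hz ▸ pow_orderOf_eq_one z
    by_cases hzX : z ∈ X
    swap
    · exact ext z hz3 (center_le_centralizer _ hzc) hzX
    obtain ⟨x, hx, hx'⟩ := exists_mem_not_mem_of_card_lt (A := X) (B := zpowers z)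
      (by rw [Nat.card_zpowers, hz, hXc]; norm_num)
    have hXe : zpowers x ⊔ zpowers z = X := by
      refine eq_of_le_of_card_ge (sup_le (zpowers_le.mpr hx) (zpowers_le.mpr hzX)) ?_
      rw [(ea_zpowers_sup (Quad.ea_zpowers hz3) (hX.2 x hx) (centralizer_mono (zpowers_le.mpr hzX)
        (Quad.ea_le_centralizer hX hx)) hx').2, Nat.card_zpowers, hz, hXc]
      norm_num
    have hC : A ⊓ centralizer (zpowers x : Set P) ≤ centralizer (X : Set P) := by
      rw [← hXe, centralizer_sup]
      exact le_inf inf_le_right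
        (le_centralizer_iff.mp ((zpowers_le.mpr hzc).trans (center_le_centralizer _)))
    have h1 := card_le_cube_of_cube_eq_one hA (le_normalizer_of_normal (mem_top x)) (hX.2 x hx)
    have h2 : 3 ^ 2 ≤ Nat.card ↥(A ⊓ centralizer (zpowers x : Set P)) := by
      refine pow_succ_le_card_of_lt (hP.to_subgroup _) (not_le.mp fun h => ?_)
      have := h1.trans (Nat.pow_le_pow_left h 3)
      rw [hA4] at this
      norm_num at this
    by_cases hle : A ⊓ centralizer (zpowers x : Set P) ≤ X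
    · have := eq_of_le_of_card_ge hle (hXc ▸ h2)
      exact ⟨A, hA, by rw [hA4]; norm_num,
        (Quad.ea_le_centralizer hA).trans (centralizer_mono (this ▸ inf_le_left))⟩
    · obtain ⟨y, hy, hy'⟩ := SetLike.not_le_iff_exists.mp hle
      exact ext y (hA.2 y (mem_inf.mp hy).1) (hC hy) hy'
  intro X Y hX hX2 hY hY2
  exact (key X hX hX2).trans (kConn_symm (key Y hY hY2))

end Cfsg.Agent.S1338
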