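import Cfsg.Statements.S1344
import Mathlib
import Cfsg.Agent.Lib.Core.ExtLayer

set_option autoImplicit false
open Cfsg

namespace Cfsg.Agent.S1344
open Cfsg.Lib

/-- Let K be a 2-component of the finite group X. Then K ≤ L*_{2'}(X) and K is normal in L*_{2'}(X). -/
theorem result {X : Type*} [Group X] [Finite X] (K : Subgroup X) (hK : Cfsg.IsPComponent 2 K) : K ≤ Cfsg.extendedTwoLayer X ∧ (K.subgroupOf (Cfsg.extendedTwoLayer X)).Normal := by
  exact ⟨hK.le_pLayer.trans (le_sup_left.trans pLayer_sup_oddCore_le_extendedTwoLayer),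
    Subgroup.normal_subgroupOf_of_le_normalizer (extendedTwoLayer_le_normalizer hK)⟩

end Cfsg.Agent.S1344
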