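import Cfsg.Statements.S1346
import Mathlib
import Cfsg.Agent.Lib.Core.LBalOf

set_option autoImplicit false
open Cfsg

namespace Cfsg.Agent.S1346
open Cfsg.Lib

open Subgroup

theorem aux {G : Type*} [Group G] [Finite G] {H V D : Subgroup G} (hV : IsPGroup 2 V) (hVH : V ≤ H)
    (hD : D ≤ H ⊓ centralizer (V : Set G)) (hn : H ⊓ centralizer (V : Set G) ≤ normalizer (D : Set G)) :
    (extendedTwoLayer D).map D.subtype ≤ (extendedTwoLayer H).map H.subtype := by
  obtain ⟨T, hT⟩ := exists_isSylowIn 2 (pLayer 2 D ⊔ pPrimePCore 2 D)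
  rw [extendedTwoLayer_eq_of_isSylowIn hT, Subgroup.map_sup, Subgroup.map_sup]
  refine sup_le (sup_le ?_ ?_) ?_
  · refine (pLayerOf_le_pLayerOf_of_isSubnormal hD (isSubnormal_subgroupOf_of_le_normalizer hn)).trans
      ((pLayerOf_inf_centralizer_le hV hVH).trans (map_mono ?_))
    exact le_sup_left.trans pLayer_sup_oddCore_le_extendedTwoLayer
  · exact (pPrimeCoreOf_le_pPrimeCoreOf_of_le_normalizer hD hn).trans
      (pPrimeCoreOf_inf_centralizer_le hV hVH)
  · set T' := T.map D.subtype with hT'
    have hTD : T' ≤ D := map_subtype_le _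
    have e : T = T'.subgroupOf D := (subgroupOf_map_subtype_eq T).symm
    have hP : IsPGroup 2 (T' ⊔ V : Subgroup G) :=
      IsPGroup.to_sup_of_normal_right' (hT.isPGroup.map _) hV
        ((hTD.trans (hD.trans inf_le_right)).trans (centralizer_le_normalizer _))
    refine le_trans ?_ (pPrimeCoreOf_inf_centralizer_le hP (sup_le (hTD.trans (hD.trans inf_le_left)) hVH))
    have e2 : centralizer (T : Set D) = (D ⊓ centralizer (T' : Set G)).subgroupOf D := by
      rw [← centralizer_subgroupOf_eq_inf hTD, ← e]
    change ((pPrimeCore 2 (centralizer (T : Set D))).map _).map _ ≤ _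
    rw [e2, pPrimeCoreOf_subgroupOf inf_le_left]
    refine pPrimeCoreOf_le_pPrimeCoreOf_of_le_normalizer ?_ ?_
    · rw [centralizer_sup]
      exact le_inf (inf_le_left.trans (hD.trans inf_le_left))
        (le_inf inf_le_right (inf_le_left.trans (hD.trans inf_le_right)))
    · rw [centralizer_sup]
      exact le_normalizer_inf ((inf_le_inf_left _ inf_le_right).trans hn)
        (le_normalizer_of_le (inf_le_right.trans inf_le_left))


/-- Let G be a finite group all of whose 2-local subgroups have known non-abelian composition factors, and x, y commuting involutions. Then the extended 2-layer of L*_{2'}(C_G(x)) ∩ C_G(y) (as a group) is contained in L*_{2'}(C_G(y)). -/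
theorem result {G : Type*} [Group G] [Finite G] (hK : ∀ T : Subgroup G, IsPGroup 2 ↥T → T ≠ ⊥ → Cfsg.IsCompositionKGroup ↥(Subgroup.normalizer (T : Set G))) (x y : G) (hx : orderOf x = 2) (hy : orderOf y = 2) (hxy : x * y = y * x) : (Cfsg.extendedTwoLayer ↥((Cfsg.extendedTwoLayer ↥(Subgroup.centralizer ({x} : Set G))).map (Subgroup.centralizer ({x} : Set G)).subtype ⊓ Subgroup.centralizer ({y} : Set G))).map ((Cfsg.extendedTwoLayer ↥(Subgroup.centralizer ({x} : Set G))).map (Subgroup.centralizer ({x} : Set G)).subtype ⊓ Subgroup.centralizer ({y} : Set G)).subtype ≤ (Cfsg.extendedTwoLayer ↥(Subgroup.centralizer ({y} : Set G))).map (Subgroup.centralizer ({y} : Set G)).subtype := by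
  have := normal_extendedTwoLayer (X := centralizer ({x} : Set G))
  refine aux (V := zpowers x) (isPGroup_zpowers_of_orderOf hx)
    ((zpowers_le).2 (mem_centralizer_singleton_iff.2 hxy)) ?_ ?_
  · rw [← centralizer_singleton_eq_zpowers]
    exact le_inf inf_le_right (inf_le_left.trans (map_subtype_le _))
  · rw [← centralizer_singleton_eq_zpowers]
    exact le_normalizer_inf (inf_le_right.trans (le_normalizer_map_subtype_of_normal _ _))
      (le_normalizer_of_le inf_le_left)

end Cfsg.Agent.S1346
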