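import Cfsg.Statements.S1348
import Mathlib
import Cfsg.Agent.Lib.Core.Balance
import Cfsg.Agent.Lib.Core.SLn

set_option autoImplicit false
open Cfsg

namespace Cfsg.Agent.S1348
open Cfsg.Lib

open Subgroup Matrix

theorem crit {G : Type*} [Group G] [Finite G] {L : Subgroup G} (hq : IsQuasisimple L) {t : G}
    (ht : orderOf t = 2) (htL : t ∈ centralizer (L : Set G))
    (hab : ∀ a ∈ centralizer (L : Set G), ∀ b ∈ centralizer (L : Set G), a * b = b * a)
    (hu : ∀ a ∈ centralizer (L : Set G), orderOf a = 2 → a = t)
    (hn : centralizer ({t} : Set G) ≤ normalizer (L : Set G)) :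
    IsStandardSubgroup ((layer (centralizer ({t} : Set G))).map (centralizer ({t} : Set G)).subtype) := by
  have hLt : L ≤ centralizer ({t} : Set G) := fun l hl => mem_centralizer_singleton_iff.mpr (htL l hl)
  have hL := isComponent_subgroupOf_of_le_normalizer hLt hn hq
  have hcomm : ∀ K : Subgroup G, IsQuasisimple K → ⁅L, K⁆ ≠ ⊥ := fun K hK h =>
    hK.commutator_self_ne_bot (commutator_eq_bot_iff_forall.mpr fun a ha b hb =>
      hab a (le_centralizer_of_commutator_eq_bot' h ha) b (le_centralizer_of_commutator_eq_bot' h hb))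
  have he : (layer (centralizer ({t} : Set G))).map (centralizer ({t} : Set G)).subtype = L := by
    refine le_antisymm (layerOf_le fun K hK hKc => ?_) (le_layerOf hLt hL)
    exact ((eq_or_commutator_eq_bot_of_isComponent_subgroupOf hLt hK hL hKc).resolve_right
      (hcomm K ((isComponent_subgroupOf_iff hK).mp hKc).2)).ge
  rw [he]
  have key : ∀ g : G, g⁻¹ * t * g ∈ centralizer (L : Set G) → g ∈ normalizer (L : Set G) := by
    intro g hg
    have := hu _ hg (by rw [← ht]; simpa using (MulAut.conj g⁻¹).orderOf_eq t)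
    refine hn (mem_centralizer_singleton_iff.mpr ?_)
    calc g * t = g * (g⁻¹ * t * g) := by rw [this]
      _ = t * g := by group
  have hN : normalizer (L : Set G) = normalizer (centralizer (L : Set G) : Set G) :=
    le_antisymm (normalizer_le_normalizer_centralizer L) fun g hg =>
      key g (conj_mem_of_mem_normalizer' hg htL)
  refine ⟨hq, ⟨?_, fun g hg => ?_⟩, fun g _ => hcomm _ ?_, hN⟩
  · rw [even_iff_two_dvd, ← ht]
    exact Subgroup.orderOf_dvd_natCard _ htL
  · rw [← Nat.not_even_iff_odd, even_iff_two_dvd]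
    intro hd
    obtain ⟨y, hy⟩ := exists_prime_orderOf_dvd_card' 2 hd
    have e := hu y y.2.1 (by rw [← hy, orderOf_coe])
    exact hg (hN ▸ key g (e ▸ mem_map_conj.mp y.2.2))
  · exact (isQuasisimple_map_iff_of_injective _ (MulAut.conj g).injective).mpr hq

theorem neg_one_ne_one {F : Type*} [Field F] [Fintype F] (hF : Odd (Fintype.card F)) :
    (-1 : F) ≠ 1 := by
  intro h
  have h2 : (2 : F) = 0 := by linear_combination -h
  have := FiniteField.even_card_iff_char_two.mp (CharP.ringChar_of_prime_eq_zero Nat.prime_two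
    (by exact_mod_cast h2))
  rw [Nat.odd_iff] at hF
  omega


/-- Let F be a finite field of odd order, n ≥ 7 odd, and t ∈ SL(n, F) the diagonal matrix with entries −1, …, −1, 1. Then E(C(t)) is a standard subgroup of SL(n, F). -/
theorem result {F : Type*} [Field F] [Fintype F] [DecidableEq F] (hF : Odd (Fintype.card F)) (n : ℕ) (hn : 7 ≤ n) (hodd : Odd n) (t : Matrix.SpecialLinearGroup (Fin n) F) (ht : (t : Matrix (Fin n) (Fin n) F) = Matrix.diagonal (fun i : Fin n => if (i : ℕ) + 1 = n then (1 : F) else -1)) : Cfsg.IsStandardSubgroup ((Cfsg.layer ↥(Subgroup.centralizer ({t} : Set (Matrix.SpecialLinearGroup (Fin n) F)))).map (Subgroup.centralizer ({t} : Set (Matrix.SpecialLinearGroup (Fin n) F))).subtype) := by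
  have hne := neg_one_ne_one hF
  obtain ⟨m, rfl⟩ : ∃ m, n = m + 1 := ⟨n - 1, by omega⟩
  have hd : (fun i : Fin (m + 1) => if (i : ℕ) + 1 = m + 1 then (1 : F) else -1) =
      fun i => if i = Fin.last m then 1 else -1 := by
    ext i
    simp [Fin.ext_iff]
  rw [hd] at ht
  have hc : Fintype.card (Fin (m + 1)) = m + 1 := Fintype.card_fin _
  have hcent : ∀ c ∈ centralizer ((slBlkHom (F := F) (Fin.last m)).range :
      Set (Matrix.SpecialLinearGroup (Fin (m + 1)) F)),
      ∃ a b : F, c.1 = diagonal fun k => if k = Fin.last m then b else a := fun c hc' =>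
    diagonal_of_mem_centralizer_slBlk (by omega) fun h hh => congrArg Subtype.val (hc' h hh)
  refine crit (isQuasisimple_range_slBlkHom (i₀ := Fin.last m) (Or.inl (by omega))) ?_ ?_ ?_ ?_ ?_
  · refine orderOf_eq_prime (Subtype.ext ?_) fun e => ?_
    · rw [Matrix.SpecialLinearGroup.coe_pow, ht, diagonal_pow, Matrix.SpecialLinearGroup.coe_one,
        ← diagonal_one]
      congr 1
      ext i
      by_cases h : i = Fin.last m <;> simp [h]
    · rw [e] at ht
      have := congrFun (congrFun ht 0) 0
      have h0 : (0 : Fin (m + 1)) ≠ Fin.last m := by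
        rw [Ne, Fin.ext_iff]; simp; omega
      simp [h0] at this
      exact hne this.symm
  · intro h hh
    rw [SetLike.mem_coe, mem_range_slBlkHom] at hh
    apply Subtype.ext
    have e : t.1 = single (Fin.last m) (Fin.last m) (1 : F) + single (Fin.last m) (Fin.last m) 1 - 1 := by
      rw [ht]
      ext i j
      by_cases h1 : i = j
      · subst h1
        by_cases h2 : i = Fin.last m
        · simp [h2]
        · simp [h2, single_apply, Ne.symm h2]
      · simp only [diagonal_apply_ne _ h1, Matrix.sub_apply, Matrix.add_apply, single_apply,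
          one_apply_ne h1]
        rw [if_neg (fun h => h1 (h.1.symm.trans h.2))]
        simp
    simp only [Matrix.SpecialLinearGroup.coe_mul]
    rw [e, mul_sub, sub_mul, mul_add, add_mul, hh.1, hh.2, mul_one, one_mul]
  · intro a ha b hb
    obtain ⟨a1, a2, ea⟩ := hcent a ha
    obtain ⟨b1, b2, eb⟩ := hcent b hb
    apply Subtype.ext
    simp only [Matrix.SpecialLinearGroup.coe_mul]
    rw [ea, eb, diagonal_mul_diagonal, diagonal_mul_diagonal]
    simp only [mul_comm]
  · intro c hc' ho
    obtain ⟨a, b, e⟩ := hcent c hc'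
    have h0 : (0 : Fin (m + 1)) ≠ Fin.last m := by
      rw [Ne, Fin.ext_iff]; simp; omega
    have h2 : c.1 ^ 2 = 1 := by
      rw [← Matrix.SpecialLinearGroup.coe_pow, ← ho, pow_orderOf_eq_one]; rfl
    have ha2 : a ^ 2 = 1 := by
      rw [e, diagonal_pow] at h2
      simpa [h0] using congrFun (congrFun h2 0) 0
    have hb : b = 1 := by
      have := c.2
      rw [e, det_diagonal, Fin.prod_univ_castSucc] at this
      simp only [Fin.castSucc_ne_last, if_false, if_true, Finset.prod_const, Finset.card_univ,
        Fintype.card_fin] at this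
      obtain ⟨r, hr⟩ : Even m := by simpa [Nat.odd_add_one] using hodd
      rwa [hr, ← two_mul, pow_mul, ha2, one_pow, one_mul] at this
    rcases sq_eq_one_iff.mp ha2 with h | h
    · have : c = 1 := by
        apply Subtype.ext
        rw [e, hb, h]
        simp
      rw [this, orderOf_one] at ho
      omega
    · apply Subtype.ext
      rw [e, ht, hb, h]
  · intro g hg
    refine pg_mem_normalizer_of_conj_mem fun h hh => ?_
    have h0 : g * t = t * g := mem_centralizer_singleton_iff.mp hg
    have h1 : g.1 * t.1 = t.1 * g.1 := congrArg Subtype.val h0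
    rw [ht] at h1
    refine conj_mem_range_slBlkHom (g := g.1) (g' := (g⁻¹).1) ?_
      (commute_single_of_commute_diagonal (fun k hk => by simp [hk, hne]) h1) hh rfl
    rw [← Matrix.SpecialLinearGroup.coe_mul, mul_inv_cancel]
    rfl

end Cfsg.Agent.S1348
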