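import Cfsg.Statements.S1753
import Mathlib

set_option autoImplicit false
universe u
open Cfsg

namespace Cfsg.Agent.S1753

theorem aux (K : ∀ (X : Type u) [Group X], Prop) (G : Type u) [Group G] [Finite G]
    (h : ∀ (X : Type u) [Group X] [Finite X],
      IsSimpleGroup X → ¬ IsMulCommutative X → Nat.card X < Nat.card G → K X) :
    Cfsg.IsKProperWith K G := by
  intro H hH L N _ hs hc
  apply h _ hs hc
  have h1 : Nat.card (L ⧸ N) ≤ Nat.card L :=
    Nat.card_le_card_of_surjective _ (QuotientGroup.mk'_surjective N)
  have h2 : Nat.card L ≤ Nat.card H := Nat.card_le_card_of_injective _ L.subtype_injective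
  have h3 : Nat.card H < Nat.card G := by
    have h4 : Nat.card H ≤ Nat.card G := Nat.card_le_card_of_injective _ H.subtype_injective
    rcases h4.lt_or_eq with h5 | h5
    · exact h5
    · exact absurd (Subgroup.eq_top_of_card_eq H h5) hH
  omega


/-- Let K be any property of groups. (1) If G is a minimal counterexample relative to K — a finite non-abelian simple group not satisfying K such that every finite non-abelian simple group of smaller order satisfies K — then every proper subgroup of G is a K-group (all its non-abelian simple sections satisfy K), since such sections have smaller order than G. (2) Consequently (induction on the order), if every finite non-abelian simple group all of whose proper subgroups are K-groups satisfies K, then every finite non-abelian simple group satisfies K. -/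
theorem result (K : ∀ (X : Type u) [Group X], Prop) :
    (∀ (G : Type u) [Group G], Cfsg.IsMinCounterexampleWith K G → Cfsg.IsKProperWith K G) ∧
      ((∀ (X : Type u) [Group X] [Finite X], IsSimpleGroup X → ¬ IsMulCommutative X → Cfsg.IsKProperWith K X → K X) →
        ∀ (G : Type u) [Group G] [Finite G], IsSimpleGroup G → ¬ IsMulCommutative G → K G) := by
  refine ⟨fun G _ hG => ?_, fun h => ?_⟩
  · have := hG.1
    exact aux K G hG.2.2.2.2
  · have key : ∀ n : ℕ, ∀ (G : Type u) [Group G] [Finite G], Nat.card G = n →
        IsSimpleGroup G → ¬ IsMulCommutative G → K G := by
      intro n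
      induction n using Nat.strong_induction_on with
      | _ n ih =>
        intro G _ _ hn hs hc
        apply h G hs hc
        apply aux K G
        intro X _ _ h1 h2 h3
        exact ih _ (hn ▸ h3) X rfl h1 h2
    intro G _ _ hs hc
    exact key _ G rfl hs hc

end Cfsg.Agent.S1753
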