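import Cfsg.Statements.S1754
import Mathlib
import Cfsg.Agent.Lib.Core.FStar

set_option autoImplicit false
open Cfsg

namespace Cfsg.Agent.S1754
open Cfsg.Lib

/-- Let A be a standard subgroup of the finite group G (A quasisimple, C_G(A) tightly embedded of even order, A commuting elementwise with no other conjugate of itself, and N_G(A) = N_G(C_G(A))), and let t be an involution of G centralizing A. Then the centralizer of t lies in the normalizer of A; in particular A, viewed inside C_G(t), is a component of C_G(t). -/
theorem result {G : Type*} [Group G] [Finite G]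
    (A : Subgroup G) (hA : Cfsg.IsStandardSubgroup A) (t : G) (ht : orderOf t = 2) (htA : t ∈ Subgroup.centralizer (A : Set G)) :
    Subgroup.centralizer ({t} : Set G) ≤ Subgroup.normalizer (A : Set G) ∧
      Cfsg.IsComponent (A.subgroupOf (Subgroup.centralizer ({t} : Set G))) := by
  obtain ⟨hq, ⟨-, hte⟩, -, hN⟩ := hA
  have h1 : Subgroup.centralizer ({t} : Set G) ≤ Subgroup.normalizer (A : Set G) := by
    intro g hg
    rw [hN]
    by_contra hgn
    have hodd := hte g hgn
    have ht' : t ∈ Subgroup.centralizer (A : Set G) ⊓
        (Subgroup.centralizer (A : Set G)).map (MulAut.conj g).toMonoidHom := by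
      refine ⟨htA, t, htA, ?_⟩
      have := Subgroup.mem_centralizer_singleton_iff.mp hg
      simp [this]
    have h2 := Subgroup.orderOf_dvd_natCard _ ht'
    rw [ht] at h2
    exact (Nat.not_even_iff_odd.mpr hodd) (even_iff_two_dvd.mpr h2)
  refine ⟨h1, isComponent_subgroupOf_of_le_normalizer ?_ h1 hq⟩
  intro a ha
  exact Subgroup.mem_centralizer_singleton_iff.mpr (htA a ha)

end Cfsg.Agent.S1754
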