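import Cfsg.Statements.S1755
import Mathlib
import Cfsg.Agent.Lib.Misc.Basic
import Cfsg.Agent.Lib.Core.FStar

set_option autoImplicit false
open Cfsg

namespace Cfsg.Agent.S1755

open Cfsg.Lib

theorem cyc_unique {A : Type*} [Group A] [Finite A] (h : IsCyclic A) {x y : A} (hx : x ≠ 1)
    (hy : y ≠ 1) (hx2 : x * x = 1) (hy2 : y * y = 1) : x = y := by
  classical
  have := Fintype.ofFinite A
  by_contra hne
  have h1 := IsCyclic.card_pow_eq_one_le (α := A) (n := 2) (by norm_num)
  have h2 : ({1, x, y} : Finset A) ⊆ Finset.univ.filter (fun a : A => a ^ 2 = 1) := by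
    intro a ha
    simp only [Finset.mem_insert, Finset.mem_singleton] at ha
    rcases ha with rfl | rfl | rfl <;> simp [pow_two, *]
  have h3 := Finset.card_le_card h2
  rw [Finset.card_eq_three.2 ⟨1, x, y, hx.symm, hy.symm, hne, rfl⟩] at h3
  omega


theorem aux {G : Type*} [Group G] [Finite G] (z : G) (hz : orderOf z = 2) (C : Subgroup G)
    (hC : C = Subgroup.centralizer ({z} : Set G)) (Q : Subgroup C) [Q.Normal] (hzC : z ∈ C)
    (hzQ : (⟨z, hzC⟩ : C) ∈ Q) (hQ : IsOfSymplecticType Q) (B : Subgroup Q) [B.Characteristic]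
    (hBa : IsMulCommutative B) (g : G) :
    ((B.map Q.subtype).map C.subtype).map (MulAut.conj g).toMonoidHom = (B.map Q.subtype).map C.subtype ∨
    ((B.map Q.subtype).map C.subtype).map (MulAut.conj g).toMonoidHom ⊓ (B.map Q.subtype).map C.subtype = ⊥ := by
  set B' := (B.map Q.subtype).map C.subtype with hB'
  have hz2 := h9_orderOf_eq_two_iff.1 hz
  have hzZ : (⟨z, hzC⟩ : C) ∈ Subgroup.center C := by
    rw [Subgroup.mem_center_iff]
    intro c
    exact Subtype.ext (Subgroup.mem_centralizer_singleton_iff.1 (hC ▸ c.2))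
  have hzZQ : (⟨⟨z, hzC⟩, hzQ⟩ : Q) ∈ Subgroup.center Q := by
    rw [Subgroup.mem_center_iff]
    intro c
    exact Subtype.ext (Subgroup.mem_center_iff.1 hzZ c)
  have hcyc : IsCyclic ↥(B ⊔ Subgroup.center Q) := by
    apply hQ.2 _ inferInstance
    have : ∀ a ∈ B ⊔ Subgroup.center Q, ∀ b ∈ B ⊔ Subgroup.center Q, a * b = b * a := by
      intro a ha b hb
      obtain ⟨a1, ha1, a2, ha2, rfl⟩ := Subgroup.mem_sup_of_normal_right.1 ha
      obtain ⟨b1, hb1, b2, hb2, rfl⟩ := Subgroup.mem_sup_of_normal_right.1 hb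
      have h1 : a1 * b1 = b1 * a1 := congrArg Subtype.val (hBa.1.1 (⟨a1, ha1⟩ : B) ⟨b1, hb1⟩)
      have h2 := Subgroup.mem_center_iff.1 ha2
      have h3 := Subgroup.mem_center_iff.1 hb2
      calc a1 * a2 * (b1 * b2) = a1 * (a2 * b1) * b2 := by group
        _ = (a1 * b1) * (a2 * b2) := by rw [← h2 b1]; group
        _ = b1 * (a1 * b2) * a2 := by rw [h1, h3 a2]; group
        _ = _ := by rw [h3 a1]; group
    exact ⟨⟨fun a b => Subtype.ext (this a a.2 b b.2)⟩⟩
  have hinv : ∀ y ∈ B', y ≠ 1 → y * y = 1 → y = z := by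
    rintro _ ⟨_, ⟨y, hy, rfl⟩, rfl⟩ h1 h2
    have := cyc_unique hcyc (x := ⟨y, Subgroup.mem_sup_left hy⟩)
      (y := ⟨_, Subgroup.mem_sup_right hzZQ⟩)
      (fun h => h1 (congrArg (fun u : ↥(B ⊔ Subgroup.center Q) => (((u : Q) : C) : G)) h))
      (fun h => hz2.1 (congrArg (fun u : ↥(B ⊔ Subgroup.center Q) => (((u : Q) : C) : G)) h))
      (Subtype.ext (Subtype.ext (Subtype.ext h2))) (Subtype.ext (Subtype.ext (Subtype.ext hz2.2)))
    exact congrArg (fun u : ↥(B ⊔ Subgroup.center Q) => (((u : Q) : C) : G)) this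
  by_cases hb : B'.map (MulAut.conj g).toMonoidHom ⊓ B' = ⊥
  · exact Or.inr hb
  left
  have hp : IsPGroup 2 B' := ((hQ.1.to_subgroup B).map _).map _
  obtain ⟨y, ⟨hy1, hy2⟩, hy3, hy4⟩ := h9_exists_prime_order_mem hp.to_inf_right hb
  rw [pow_two] at hy4
  have h1 := hinv y hy2 hy3 hy4
  subst h1
  have h2 := hinv _ ((h9_mem_conj_iff _ _ _).1 hy1) (by
    intro h; apply hy3
    calc y = g * (g⁻¹ * y * g) * g⁻¹ := by group
      _ = 1 := by rw [h]; group) (by
    calc g⁻¹ * y * g * (g⁻¹ * y * g) = g⁻¹ * (y * y) * g := by group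
      _ = 1 := by rw [hy4]; group)
  have hgC : g ∈ C := by
    rw [hC, Subgroup.mem_centralizer_singleton_iff]
    calc g * y = g * (g⁻¹ * y * g) := by rw [h2]
      _ = _ := by group
  rw [h9_conj_eq_iff_mem_normalizer]
  have hN : (B.map Q.subtype).Normal := inferInstance
  apply h9_mem_normalizer_of_conj_mem
  rintro _ ⟨x, hx, rfl⟩
  exact ⟨_, hN.conj_mem x hx ⟨g, hgC⟩, rfl⟩

/-- Let G be a finite group and let z be an involution of G such that Q, the generalized Fitting subgroup of the centralizer C of z, is a 2-group of symplectic type (every characteristic abelian subgroup of Q is cyclic). Let B be a characteristic abelian subgroup of Q, viewed as a subgroup of G. Then for every g in G, the conjugate of B by g either equals B or meets B trivially. -/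
theorem result {G : Type*} [Group G] [Finite G] (z : G) (hz : orderOf z = 2) (hQ : Cfsg.IsOfSymplecticType ↥(Cfsg.generalizedFittingSubgroup ↥(Subgroup.centralizer ({z} : Set G))))
    (B : Subgroup ↥(Cfsg.generalizedFittingSubgroup ↥(Subgroup.centralizer ({z} : Set G)))) (hBc : B.Characteristic) (hBa : IsMulCommutative ↥B) (g : G) :
    ((B.map (Cfsg.generalizedFittingSubgroup ↥(Subgroup.centralizer ({z} : Set G))).subtype).map (Subgroup.centralizer ({z} : Set G)).subtype).map (MulAut.conj g).toMonoidHom =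
        (B.map (Cfsg.generalizedFittingSubgroup ↥(Subgroup.centralizer ({z} : Set G))).subtype).map (Subgroup.centralizer ({z} : Set G)).subtype ∨
      ((B.map (Cfsg.generalizedFittingSubgroup ↥(Subgroup.centralizer ({z} : Set G))).subtype).map (Subgroup.centralizer ({z} : Set G)).subtype).map (MulAut.conj g).toMonoidHom ⊓
        (B.map (Cfsg.generalizedFittingSubgroup ↥(Subgroup.centralizer ({z} : Set G))).subtype).map (Subgroup.centralizer ({z} : Set G)).subtype = ⊥ := by
  have hzC : z ∈ Subgroup.centralizer ({z} : Set G) := Subgroup.mem_centralizer_singleton_iff.2 rfl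
  refine aux z hz _ rfl _ hzC (fitting_le_fstar (center_le_fitting ?_)) hQ B hBa g
  rw [Subgroup.mem_center_iff]
  intro c
  exact Subtype.ext (Subgroup.mem_centralizer_singleton_iff.1 c.2)

end Cfsg.Agent.S1755
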