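import Cfsg.Statements.S1775
import Mathlib
import Cfsg.Agent.Lib.Core.LBalOf

set_option autoImplicit false
open Cfsg

namespace Cfsg.Agent.S1775
open Cfsg.Lib

open Subgroup

theorem aux {H : Type*} [Group H] [Finite H] (hB : HasBProperty (H ⧸ oddCore H)) {x : H}
    (hx : orderOf x = 2) {J : Subgroup H} (hJx : J ≤ centralizer ({x} : Set H))
    (hJ : IsPComponent 2 (J.subgroupOf (centralizer ({x} : Set H)))) :
    IsComponent ((J.map (QuotientGroup.mk' (oddCore H))).subgroupOf
      (centralizer ({QuotientGroup.mk' (oddCore H) x} : Set _))) ∧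
    ∀ E : Subgroup H, E ≤ centralizer ({x} : Set H) → Odd (Nat.card E) →
      J ≤ normalizer (E : Set H) → ⁅J, E⁆ ≤ oddCore H := by
  set f := QuotientGroup.mk' (oddCore H) with hf
  have hsurj : Function.Surjective f := QuotientGroup.mk'_surjective _
  have hker : (Nat.card f.ker).Coprime 2 := by
    rw [hf, QuotientGroup.ker_mk']; exact coprime_card_pPrimeCore
  have hC := centralizer_singleton_map_of_ker_coprime f hsurj hker (isPGroup_zpowers_of_orderOf hx)
  have hq := isPQuasi_of_isPComponent_subgroupOf hJx hJ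
  have hne : J.map f ≠ ⊥ := fun h => hq.not_le_of_coprime hker ((Subgroup.map_eq_bot_iff _).1 h)
  have hJ' := isPComponent_map_subgroupOf_map f hJx hJ hne
  rw [← hC] at hJ'
  have hle : J.map f ≤ centralizer ({f x} : Set _) := hC ▸ map_mono hJx
  have hcomp : IsComponent ((J.map f).subgroupOf (centralizer ({f x} : Set _))) := by
    rw [isComponent_subgroupOf_iff_of_isPComponent hle hJ']
    have h1 := hB (f x) (orderOf_map_of_ker_coprime f hker hx)
    have h2 : oddCore (H ⧸ oddCore H) = ⊥ := pPrimeCore_quotient_pPrimeCore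
    rw [h2, le_bot_iff, Subgroup.map_commutator] at h1
    exact commutator_eq_bot_of_le (le_pLayerOf hle hJ') le_rfl h1
  refine ⟨hcomp, fun E hE hodd hn => ?_⟩
  rcases le_or_commutator_eq_bot_of_isComponent_subgroupOf (N := E.map f) hle hcomp
    (hC ▸ map_mono hE) ((map_mono hn).trans (le_normalizer_map f)) with h | h
  · exfalso
    refine (hq.map_of_ne_bot f hne).not_le_of_coprime ?_ h
    exact Nat.Coprime.coprime_dvd_left (card_map_dvd E f) (Nat.coprime_two_right.2 hodd)
  · exact (commutator_map_mk'_eq_bot_iff _).1 h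


/-- Let G be a finite group whose generalized Fitting subgroup is a non-abelian simple group and in which every proper section (every quotient H/N of a proper subgroup H, or of G by a nontrivial normal subgroup) has the B-property. Let x, y be commuting involutions, let D be the intersection of the 2-layer of C_G(x) with C_G(y), and let J be a 2-component of D. Write Q for the quotient of C_G(y) by its largest normal odd-order subgroup. Then (i) the image of J in Q is a component of the centralizer in Q of the image of x; and (ii) for every J-invariant subgroup E of odd order of C_G(x) ∩ C_G(y), the commutator subgroup [J, E] lies in the largest normal odd-order subgroup of C_G(y). -/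
theorem result {G : Type*} [Group G] [Finite G]
    (hF : IsSimpleGroup ↥(Cfsg.generalizedFittingSubgroup G)) (hF' : ¬ IsMulCommutative ↥(Cfsg.generalizedFittingSubgroup G))
    (hsec : ∀ (H : Subgroup G) (N : Subgroup ↥H) [N.Normal], (H ≠ ⊤ ∨ N ≠ ⊥) → Cfsg.HasBProperty (↥H ⧸ N))
    (x y : G) (hx : orderOf x = 2) (hy : orderOf y = 2) (hxy : x * y = y * x)
    (J : Subgroup ↥((Cfsg.pLayer 2 ↥(Subgroup.centralizer ({x} : Set G))).map (Subgroup.centralizer ({x} : Set G)).subtype ⊓ Subgroup.centralizer ({y} : Set G)))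
    (hJ : Cfsg.IsPComponent 2 J) :
    Cfsg.IsComponent
        ((((J.map (Subgroup.subtype _)).subgroupOf (Subgroup.centralizer ({y} : Set G))).map (QuotientGroup.mk' (Cfsg.oddCore ↥(Subgroup.centralizer ({y} : Set G))))).subgroupOf
          (Subgroup.centralizer ({(QuotientGroup.mk' (Cfsg.oddCore ↥(Subgroup.centralizer ({y} : Set G))) ⟨x, Subgroup.mem_centralizer_singleton_iff.mpr hxy⟩ : ↥(Subgroup.centralizer ({y} : Set G)) ⧸ Cfsg.oddCore ↥(Subgroup.centralizer ({y} : Set G)))} : Set _))) ∧
      ∀ E : Subgroup G, E ≤ Subgroup.centralizer ({x} : Set G) ⊓ Subgroup.centralizer ({y} : Set G) → Odd (Nat.card ↥E) →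
        (∀ j ∈ J.map (Subgroup.subtype _), ∀ e ∈ E, j * e * j⁻¹ ∈ E) →
          ⁅J.map (Subgroup.subtype _), E⁆ ≤ (Cfsg.oddCore ↥(Subgroup.centralizer ({y} : Set G))).map (Subgroup.centralizer ({y} : Set G)).subtype := by
  have hCy : centralizer ({y} : Set G) ≠ ⊤ := by
    intro h
    have hyZ : y ∈ center G := mem_center_iff.2 fun g =>
      mem_centralizer_singleton_iff.1 (h ▸ mem_top g : g ∈ centralizer ({y} : Set G))
    have hle : center G ≤ generalizedFittingSubgroup G := center_le_fitting.trans fitting_le_fstar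
    rcases hF.eq_bot_or_eq_top_of_normal ((center G).subgroupOf (generalizedFittingSubgroup G))
      inferInstance with h1 | h1
    · have : (⟨y, hle hyZ⟩ : generalizedFittingSubgroup G) ∈ (⊥ : Subgroup _) := h1 ▸ hyZ
      rw [mem_bot, Subtype.ext_iff] at this
      simp only [OneMemClass.coe_one] at this
      rw [this] at hy; simp at hy
    · refine hF' ⟨⟨fun a b => Subtype.ext ?_⟩⟩
      have : b ∈ (center G).subgroupOf (generalizedFittingSubgroup G) := h1 ▸ mem_top b
      exact mem_center_iff.1 this a
  have hB := hsec (centralizer ({y} : Set G)) (oddCore _) (Or.inl hCy)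
  let Cy := centralizer ({y} : Set G)
  let x' : Cy := ⟨x, mem_centralizer_singleton_iff.2 hxy⟩
  have hx' : orderOf x' = 2 := by rw [← hx, ← orderOf_coe]
  have hCx' : centralizer ({x'} : Set Cy) = (centralizer ({x} : Set G) ⊓ Cy).subgroupOf Cy := by
    ext g
    simp only [mem_centralizer_singleton_iff, mem_subgroupOf, mem_inf, Subtype.ext_iff, coe_mul, x']
    exact ⟨fun h => ⟨h, g.2⟩, fun h => h.1⟩
  set J' := J.map (Subgroup.subtype _) with hJ'
  have hJD : J' ≤ (pLayer 2 (centralizer ({x} : Set G))).map (centralizer ({x} : Set G)).subtype ⊓ Cy :=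
    map_subtype_le _
  have hDB : (pLayer 2 (centralizer ({x} : Set G))).map (centralizer ({x} : Set G)).subtype ⊓ Cy ≤
      centralizer ({x} : Set G) ⊓ Cy := inf_le_inf_right _ (map_subtype_le _)
  have hJB : IsPComponent 2 (J'.subgroupOf (centralizer ({x} : Set G) ⊓ Cy)) := by
    refine isPComponent_subgroupOf_trans hJD hDB (by rwa [hJ', subgroupOf_map_subtype_eq])
      (isSubnormal_subgroupOf_of_le_normalizer (le_normalizer_inf
        (inf_le_left.trans (le_normalizer_pLayerOf _)) (le_normalizer_of_le inf_le_right)))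
  have hJCy : J' ≤ Cy := hJD.trans inf_le_right
  have hJx : J'.subgroupOf Cy ≤ centralizer ({x'} : Set Cy) := hCx' ▸ comap_mono (hJD.trans hDB)
  have hJ2 : IsPComponent 2 ((J'.subgroupOf Cy).subgroupOf (centralizer ({x'} : Set Cy))) := by
    rw [isPComponent_subgroupOf_iff hJx, isPQuasi_subgroupOf_iff hJCy, hCx']
    rw [isPComponent_subgroupOf_iff (hJD.trans hDB)] at hJB
    refine ⟨?_, hJB.2⟩
    have := hJB.1.comap (subgroupOfEquivOfLe (inf_le_right : centralizer ({x} : Set G) ⊓ Cy ≤ Cy)).toMonoidHom
    exact this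
  obtain ⟨h1, h2⟩ := aux hB hx' hJx hJ2
  refine ⟨h1, fun E hE hodd hn => ?_⟩
  have hECy : E ≤ Cy := hE.trans inf_le_right
  refine commutator_le_map_subtype_of_subgroupOf hJCy hECy (h2 _ (hCx' ▸ comap_mono hE)
    (by rwa [card_subgroupOf_of_le hECy]) (subgroupOf_le_normalizer_subgroupOf hECy fun j hj => ?_))
  exact mem_normalizer_fintype (hn j hj)

end Cfsg.Agent.S1775
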