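import Cfsg.Statements.S1781
import Mathlib
import Cfsg.Agent.Lib.Misc.TI2
import Cfsg.Agent.Lib.PGroup.Omega

set_option autoImplicit false
open Cfsg

namespace Cfsg.Agent.S1781

open Cfsg.Lib


/-- Let A be an abelian 2-subgroup of the finite group G such that every conjugate of A equals A or meets A trivially, and let g ∈ G with g A g⁻¹ ≠ A. Then either the subgroup of those elements of A that normalize g A g⁻¹ is an elementary abelian 2-group, or A and g A g⁻¹ commute elementwise. -/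
theorem result {G : Type*} [Group G] [Finite G] (A : Subgroup G)
    (hA2 : IsPGroup 2 ↥A) (hAa : IsMulCommutative ↥A)
    (hti : ∀ h : G, A.map (MulAut.conj h).toMonoidHom = A ∨ A.map (MulAut.conj h).toMonoidHom ⊓ A = ⊥)
    (g : G) (hg : A.map (MulAut.conj g).toMonoidHom ≠ A) :
    Cfsg.IsElementaryAbelian 2 (A ⊓ Subgroup.normalizer ((A.map (MulAut.conj g).toMonoidHom : Subgroup G) : Set G)) ∨
      ⁅A, A.map (MulAut.conj g).toMonoidHom⁆ = ⊥ := by
  set B := A.map (MulAut.conj g).toMonoidHom with hB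
  have hAB : A ⊓ B = ⊥ := by
    rw [inf_comm]; exact (hti g).resolve_left hg
  have hB2 : IsPGroup 2 B := hA2.map _
  have hBc : ∀ a ∈ B, ∀ b ∈ B, a * b = b * a := by
    rintro _ ⟨a, ha, rfl⟩ _ ⟨b, hb, rfl⟩
    rw [← map_mul, ← map_mul, (pg_commute_of_isMulCommutative hAa ha hb).eq]
  have hN : ∀ a ∈ A, a ≠ 1 → ∀ x : G, x * a = a * x → x ∈ Subgroup.normalizer (A : Set G) := by
    intro a ha ha1 x hx
    refine h9_ti_mem_normalizer (hti x) ha ha1 ?_
    rw [hx]; simpa using ha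
  by_cases h : ∀ t ∈ A ⊓ Subgroup.normalizer (B : Set G), t ^ 2 = 1
  · left
    exact ⟨pg_isMulCommutative_of_le hAa inf_le_left, h⟩
  right
  push Not at h
  obtain ⟨t, ⟨htA, htN⟩, ht2⟩ := h
  obtain ⟨k, hk⟩ := hA2 ⟨t, htA⟩
  have hk' : t ^ 2 ^ k = 1 := by simpa using congrArg Subtype.val hk
  have hcent : ∀ b ∈ B, t * b = b * t := by
    refine h9_centralizes_of_fixed_sq hBc hB2 hk' htN (fun b hb h => ?_)
    have hbN := hN _ (A.pow_mem htA 2) ht2 b h.symm
    have h1 : t * b * t⁻¹ * b⁻¹ ∈ A ⊓ B := by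
      refine ⟨?_, B.mul_mem (h9_conj_mem_of_mem_normalizer htN hb) (B.inv_mem hb)⟩
      have := A.mul_mem htA (h9_conj_mem_of_mem_normalizer hbN (A.inv_mem htA))
      simpa [mul_assoc] using this
    rw [hAB, Subgroup.mem_bot] at h1
    calc t * b = (t * b * t⁻¹ * b⁻¹) * (b * t) := by group
      _ = _ := by rw [h1, one_mul]
  have ht1 : t ≠ 1 := by rintro rfl; exact ht2 (by simp)
  apply h9_commutator_eq_bot_of_comm
  refine h9_ti_commute hA2 hB2 (fun a ha b hb hb1 h => ?_) (h9_card_conj A g).ge hAB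
    (fun b hb => hN t htA ht1 b (hcent b hb).symm)
  -- `B` is TI as well
  obtain ⟨c, hc, rfl⟩ := hb
  have hc1 : c ≠ 1 := by rintro rfl; exact hb1 (map_one _)
  have h2 : g⁻¹ * a * g ∈ Subgroup.normalizer (A : Set G) := by
    refine hN c hc hc1 _ ?_
    have h3 : a * (g * c * g⁻¹) = (g * c * g⁻¹) * a := h
    calc g⁻¹ * a * g * c = g⁻¹ * (a * (g * c * g⁻¹)) * g := by group
      _ = _ := by rw [h3]; group
  apply h9_mem_normalizer_of_conj_mem
  rintro _ ⟨x, hx, rfl⟩
  rw [hB, h9_mem_conj_iff]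
  have := h9_conj_mem_of_mem_normalizer h2 hx
  simpa [mul_assoc] using this

end Cfsg.Agent.S1781
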