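import Cfsg.Statements.S1782
import Mathlib
import Cfsg.Agent.Lib.Misc.TI2
import Cfsg.Agent.Lib.PGroup.Frattini

set_option autoImplicit false
open Cfsg

namespace Cfsg.Agent.S1782

open Cfsg.Lib

theorem aux {R : Type*} [Group R] [Finite R] (h : frattini R ≠ ⊥) : ∃ r : R, r * r ≠ 1 := by
  by_contra hcon
  push Not at hcon
  apply h
  rw [eq_bot_iff]
  apply pg_frattini_le_of_pow_mem (p := 2)
  · rw [commutator_def, Subgroup.commutator_le]
    intro a _ b _
    rw [Subgroup.mem_bot, commutatorElement_def, inv_eq_of_mul_eq_one_right (hcon a),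
      inv_eq_of_mul_eq_one_right (hcon b), mul_assoc (a * b)]
    exact hcon _
  · intro x
    rw [pow_two, hcon]; exact Subgroup.one_mem _


/-- Let S be a finite 2-group and Δ a set of subgroups of S closed under conjugation by S, all of the same order, each with nontrivial Frattini subgroup, and such that two distinct members of Δ meet trivially. Then any two distinct members of Δ commute elementwise. -/
theorem result {S : Type*} [Group S] [Finite S] (hS : IsPGroup 2 S)
    (Δ : Set (Subgroup S)) (hinv : ∀ s : S, ∀ R ∈ Δ, R.map (MulAut.conj s).toMonoidHom ∈ Δ)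
    (hΦ : ∀ R ∈ Δ, frattini ↥R ≠ ⊥) (hord : ∀ R ∈ Δ, ∀ T ∈ Δ, Nat.card ↥R = Nat.card ↥T)
    (hti : ∀ R ∈ Δ, ∀ T ∈ Δ, R = T ∨ R ⊓ T = ⊥) :
    ∀ R ∈ Δ, ∀ T ∈ Δ, R ≠ T → ⁅R, T⁆ = ⊥ := by
  intro R hR T hT hne
  apply h9_commutator_eq_bot_of_comm
  refine h9_ti_family_commute Δ (fun R hR => ?_) hord hti ⊤ (hS.to_subgroup ⊤)
    (fun s _ => hinv s) R hR T hT le_top le_top hne
  obtain ⟨r, hr⟩ := aux (hΦ R hR)
  exact ⟨r, r.2, fun h => hr (Subtype.ext h)⟩

end Cfsg.Agent.S1782
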