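import Cfsg.Statements.S1784
import Mathlib
import Cfsg.Agent.Lib.Misc.Extraspecial2

set_option autoImplicit false
open Cfsg

namespace Cfsg.Agent.S1784

open Cfsg.Lib

theorem aux {G : Type*} [Group G] [Finite G] {Q : Subgroup G} {z : G} (h : XS Q z) (α : G)
    (hα : α * α = 1) (hN : α ∈ Subgroup.normalizer (Q : Set G)) (hαQ : ∃ q ∈ Q, α * q ≠ q * α)
    (Q₀ : Subgroup G) (hQ₀ : ∀ q : G, q ∈ Q₀ ↔ (q ∈ Q ∧ α * q * α⁻¹ * q⁻¹ ∈ Subgroup.zpowers z)) :
    Subgroup.closure ((fun q : G => α * q * α⁻¹ * q⁻¹) '' (Q : Set G)) =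
      (Subgroup.center ↥Q₀).map Q₀.subtype := by
  have hi : α⁻¹ = α := inv_eq_of_mul_eq_one_right hα
  have hc : ∀ q ∈ Q, α * q * α⁻¹ ∈ Q := fun q hq => h9_conj_mem_of_mem_normalizer hN hq
  have hc' : ∀ q ∈ Q, α * q * α⁻¹ * q⁻¹ ∈ Q := fun q hq => Q.mul_mem (hc q hq) (Q.inv_mem hq)
  set A := Subgroup.closure ((fun q : G => α * q * α⁻¹ * q⁻¹) '' (Q : Set G)) with hA
  have hgen : ∀ q ∈ Q, α * q * α⁻¹ * q⁻¹ ∈ A := fun q hq => Subgroup.subset_closure ⟨q, hq, rfl⟩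
  have hAQ : A ≤ Q := by
    rw [hA, Subgroup.closure_le]
    rintro _ ⟨q, hq, rfl⟩
    exact hc' q hq
  have hinv : ∀ a b : G, a * b⁻¹ = b⁻¹ * a ↔ a * b = b * a := fun a b =>
    ⟨fun h => (Commute.inv_right_iff.1 h : Commute a b), fun h => (Commute.inv_right h : Commute a b⁻¹)⟩
  have key : ∀ y ∈ Q, ∀ q ∈ Q, (y * (α * q * α⁻¹ * q⁻¹) = (α * q * α⁻¹ * q⁻¹) * y ↔
      q * (α * y * α⁻¹ * y⁻¹) = (α * y * α⁻¹ * y⁻¹) * q) := by
    intro y hy q hq
    rw [h.toXC.comm_mul hy (hc q hq) (Q.inv_mem hq), h.toXC.comm_mul hq (hc y hy) (Q.inv_mem hy),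
      hinv, hinv, eq_comm (a := q * y)]
    have : y * (α * q * α⁻¹) = α * q * α⁻¹ * y ↔ q * (α * y * α⁻¹) = α * y * α⁻¹ * q := by
      have e1 : y * (α * q * α⁻¹) = α * ((α * y * α⁻¹) * q) * α⁻¹ := by
        calc y * (α * q * α⁻¹) = (α * α) * y * (α * q * α⁻¹) := by rw [hα, one_mul]
          _ = α * ((α * y * α) * q) * α⁻¹ := by simp only [mul_assoc]
          _ = _ := by rw [hi]
      have e2 : α * q * α⁻¹ * y = α * (q * (α * y * α⁻¹)) * α⁻¹ := by
        calc α * q * α⁻¹ * y = α * q * α⁻¹ * y * (α * α)⁻¹ := by rw [hα]; simp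
          _ = α * (q * (α⁻¹ * y * α⁻¹)) * α⁻¹ := by simp only [mul_assoc, mul_inv_rev]
          _ = _ := by rw [hi]
      rw [e1, e2, mul_left_inj, mul_right_inj, eq_comm]
    rw [this]
  have hcen : ∀ y ∈ Q, ((∀ a ∈ A, y * a = a * y) ↔ y ∈ Q₀) := by
    intro y hy
    rw [hQ₀, h.toXC.mem_zpowers]
    constructor
    · intro h1
      exact ⟨hy, h.center _ (hc' y hy) fun q hq => ((key y hy q hq).1 (h1 _ (hgen q hq))).symm⟩
    · rintro ⟨-, h1⟩
      have : A ≤ Subgroup.centralizer ({y} : Set G) := by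
        rw [hA, Subgroup.closure_le]
        rintro _ ⟨q, hq, rfl⟩
        rw [SetLike.mem_coe, Subgroup.mem_centralizer_singleton_iff, eq_comm, key y hy q hq]
        rcases h1 with h1 | h1 <;> rw [h1]
        · simp
        · exact h.central q hq
      exact fun a ha => (Subgroup.mem_centralizer_singleton_iff.1 (this ha)).symm
  have hAQ₀ : A ≤ Q₀ := by
    rw [hA, Subgroup.closure_le]
    rintro _ ⟨q, hq, rfl⟩
    rw [SetLike.mem_coe, hQ₀]
    refine ⟨hc' q hq, ?_⟩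
    have e : α * (α * q * α⁻¹ * q⁻¹) * α⁻¹ = (α * q * α⁻¹ * q⁻¹)⁻¹ := by
      calc α * (α * q * α⁻¹ * q⁻¹) * α⁻¹ = (α * α) * q * α⁻¹ * q⁻¹ * α⁻¹ := by simp only [mul_assoc]
        _ = q * α * q⁻¹ * α⁻¹ := by rw [hα, one_mul, hi]
        _ = _ := by group
    simp only
    rw [e, h.toXC.mem_zpowers]
    exact h.sq_mem _ (Q.inv_mem (hc' q hq))
  have hzA : z ∈ A := by
    by_cases hall : ∀ b ∈ Q, ∀ a ∈ Q, (α * b * α⁻¹ * b⁻¹) * a = a * (α * b * α⁻¹ * b⁻¹)
    · obtain ⟨q, hq, hne⟩ := hαQ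
      rcases h.center _ (hc' q hq) (hall q hq) with h1 | h1
      · rw [mul_inv_eq_one, mul_inv_eq_iff_eq_mul] at h1; exact absurd h1 hne
      · exact h1 ▸ hgen q hq
    · push Not at hall
      obtain ⟨b, hb, a, ha, hne⟩ := hall
      have h1 := h.toXC.conj_of_ne ha (hc' b hb) hne.symm
      have h2 : a * (α * b * α⁻¹ * b⁻¹) * a⁻¹ ∈ A := by
        have e : a * (α * b * α⁻¹ * b⁻¹) * a⁻¹ =
          (α * a * α⁻¹ * a⁻¹)⁻¹ * (α * (a * b) * α⁻¹ * (a * b)⁻¹) := by group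
        rw [e]
        exact A.mul_mem (A.inv_mem (hgen a ha)) (hgen _ (Q.mul_mem ha hb))
      rw [h1] at h2
      exact (A.mul_mem_cancel_left (hgen b hb)).1 h2
  ext x
  constructor
  · intro hx
    refine ⟨⟨x, hAQ₀ hx⟩, Subgroup.mem_center_iff.2 fun y => Subtype.ext ?_, rfl⟩
    exact (hcen y ((hQ₀ y).1 y.2).1).2 y.2 x hx
  · rintro ⟨x, hx, rfl⟩
    by_contra hxA
    obtain ⟨y, hy, h1, h2⟩ := h.exists_not_comm hAQ hzA ((hQ₀ x).1 x.2).1 hxA
    exact h2 (congrArg Subtype.val (Subgroup.mem_center_iff.1 hx ⟨y, (hcen y hy).1 h1⟩))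

/-- Let G be a finite group and let z be an involution of G such that Q, the generalized Fitting subgroup of the centralizer C of z, is a 2-group of symplectic type (every characteristic abelian subgroup of Q is cyclic); suppose Q is extraspecial, and view Q inside G. Let α be an involution of C that is not in Q, and let Q₀ be the subgroup of those q ∈ Q whose commutator with α lies in the subgroup generated by z. Then (a) the subgroup generated by the commutators α q α⁻¹ q⁻¹, q ∈ Q, equals the centre of Q₀; and (b) if Q₀ is not contained in the product of the centralizer of α in Q with the subgroup generated by z, then some element of Q conjugates α to α z. -/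
theorem result {G : Type*} [Group G] [Finite G] (z : G) (hz : orderOf z = 2) (hQ : Cfsg.IsOfSymplecticType ↥(Cfsg.generalizedFittingSubgroup ↥(Subgroup.centralizer ({z} : Set G)))) (hE : Cfsg.IsExtraspecial 2 ↥(Cfsg.generalizedFittingSubgroup ↥(Subgroup.centralizer ({z} : Set G))))
    (α : G) (hα : orderOf α = 2) (hαC : α ∈ Subgroup.centralizer ({z} : Set G)) (hαQ : α ∉ (Cfsg.generalizedFittingSubgroup ↥(Subgroup.centralizer ({z} : Set G))).map (Subgroup.centralizer ({z} : Set G)).subtype)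
    (Q₀ : Subgroup G) (hQ₀ : ∀ q : G, q ∈ Q₀ ↔ (q ∈ (Cfsg.generalizedFittingSubgroup ↥(Subgroup.centralizer ({z} : Set G))).map (Subgroup.centralizer ({z} : Set G)).subtype ∧ α * q * α⁻¹ * q⁻¹ ∈ Subgroup.zpowers z)) :
    Subgroup.closure ((fun q : G => α * q * α⁻¹ * q⁻¹) '' ((Cfsg.generalizedFittingSubgroup ↥(Subgroup.centralizer ({z} : Set G))).map (Subgroup.centralizer ({z} : Set G)).subtype : Set G)) = (Subgroup.center ↥Q₀).map Q₀.subtype ∧
      (¬ Q₀ ≤ ((Cfsg.generalizedFittingSubgroup ↥(Subgroup.centralizer ({z} : Set G))).map (Subgroup.centralizer ({z} : Set G)).subtype ⊓ Subgroup.centralizer ({α} : Set G)) ⊔ Subgroup.zpowers z →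
        ∃ q ∈ (Cfsg.generalizedFittingSubgroup ↥(Subgroup.centralizer ({z} : Set G))).map (Subgroup.centralizer ({z} : Set G)).subtype, q * α * q⁻¹ = α * z) := by
  obtain ⟨h1, h2, h3, h4⟩ := h9_fstar_centralizer_facts z
  have hz' := h9_orderOf_eq_two_iff.1 hz
  have hα' := h9_orderOf_eq_two_iff.1 hα
  have hX := XS.of_isExtraspecial' (h9_isExtraspecial_of_equiv (Subgroup.equivMapOfInjective _ _
    (Subgroup.subtype_injective _)) hE) h1 hz'.1
    (fun a ha => Subgroup.mem_centralizer_singleton_iff.1 (h2 ha))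
  refine ⟨aux hX α hα'.2 (h3 hαC) ?_ Q₀ hQ₀, fun hn => ?_⟩
  · by_contra hcon
    push Not at hcon
    exact hαQ (h4 α hαC hcon)
  · obtain ⟨q, hq, hq'⟩ := SetLike.not_le_iff_exists.1 hn
    obtain ⟨hq1, hq2⟩ := (hQ₀ q).1 hq
    refine ⟨q, hq1, ?_⟩
    rcases hX.toXC.mem_zpowers.1 hq2 with h | h
    · rw [mul_inv_eq_one, mul_inv_eq_iff_eq_mul] at h
      exact absurd (Subgroup.mem_sup_left (Subgroup.mem_inf.2 ⟨hq1, Subgroup.mem_centralizer_singleton_iff.2 h.symm⟩)) hq'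
    · rw [← h, inv_eq_of_mul_eq_one_right hα'.2]
      simp only [← mul_assoc, hα'.2, one_mul]

end Cfsg.Agent.S1784
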