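import Cfsg.Statements.S1785
import Mathlib
import Cfsg.Agent.Lib.Connect.Normal

set_option autoImplicit false
open Cfsg

namespace Cfsg.Agent.S1785

open Subgroup Cfsg.Lib

/-- Let X be a finite 2-group having a normal elementary abelian subgroup of order at least 32. Then (a) for any two elementary abelian subgroups A, B of X of order 8 there is a chain A = A₁, A₂, …, Aₙ = B of elementary abelian subgroups of order 8 in which consecutive members commute elementwise; and (b) every elementary abelian subgroup of X of order 4 is contained in an elementary abelian subgroup of order 8. -/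
theorem result {X : Type*} [Group X] [Finite X]
    (hX : IsPGroup 2 X) (E : Subgroup X) [E.Normal] (hE : Cfsg.IsElementaryAbelian 2 E) (hE32 : 32 ≤ Nat.card ↥E) :
    (∀ A B : Subgroup X, Cfsg.IsElementaryAbelian 2 A → Nat.card ↥A = 8 → Cfsg.IsElementaryAbelian 2 B → Nat.card ↥B = 8 →
        Relation.ReflTransGen
          (fun C D : Subgroup X => Cfsg.IsElementaryAbelian 2 C ∧ Nat.card ↥C = 8 ∧ Cfsg.IsElementaryAbelian 2 D ∧ Nat.card ↥D = 8 ∧ ⁅C, D⁆ = ⊥)
          A B) ∧
      (∀ V : Subgroup X, Cfsg.IsElementaryAbelian 2 V → Nat.card ↥V = 4 →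
        ∃ A : Subgroup X, V ≤ A ∧ Cfsg.IsElementaryAbelian 2 A ∧ Nat.card ↥A = 8) := by
  -- fixed points of an involution on an invariant subgroup of `E`
  have fix : ∀ (W : Subgroup X) (a : X) (k : ℕ), W ≤ E → a ∈ normalizer (W : Set X) → a ^ 2 = 1 →
      2 ^ (2 * k + 1) ≤ Nat.card W →
      2 ^ (k + 1) ≤ Nat.card ↥(W ⊓ centralizer (zpowers a : Set X)) := by
    intro W a k hW ha ha2 hc
    refine pow_succ_le_card_of_lt (hX.to_subgroup _) (not_le.mp fun h => ?_)
    have := hc.trans ((card_le_sq_of_sq_eq_one (Quad.ea_mono hE hW) ha ha2).trans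
      (Nat.pow_le_pow_left h 2))
    rw [← pow_mul, Nat.pow_le_pow_iff_right one_lt_two] at this
    omega
  have fix1 : ∀ a : X, a ^ 2 = 1 → 2 ^ 3 ≤ Nat.card ↥(E ⊓ centralizer (zpowers a : Set X)) :=
    fun a ha => fix E a 2 le_rfl (le_normalizer_of_normal (mem_top a)) ha hE32
  have fix2 : ∀ a b : X, a ^ 2 = 1 → b ^ 2 = 1 → b ∈ centralizer (zpowers a : Set X) →
      2 ^ 2 ≤ Nat.card ↥(E ⊓ centralizer ((zpowers a ⊔ zpowers b : Subgroup X) : Set X)) := by
    intro a b ha hb hab
    rw [centralizer_sup, ← inf_assoc]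
    exact fix _ b 1 inf_le_left (zpowers_le.mp (le_normalizer_inf le_normalizer_of_normal
      (le_normalizer_centralizer (zpowers_le.mpr (centralizer_le_normalizer _ hab))))) hb (fix1 a ha)
  -- splitting off one generator
  have split : ∀ (A B : Subgroup X), IsElementaryAbelian 2 A → B ≤ A →
      Nat.card A = 2 * Nat.card B → ∀ a ∈ A, a ∉ B → zpowers a ⊔ B = A := by
    intro A B hA hB hc a ha ha'
    refine eq_of_le_of_card_ge (sup_le (zpowers_le.mpr ha) hB) ?_
    rw [(ea_zpowers_sup (Quad.ea_mono hA hB) (hA.2 a ha)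
      (centralizer_mono hB (Quad.ea_le_centralizer hA ha)) ha').2, hc]
  have four : ∀ V : Subgroup X, IsElementaryAbelian 2 V → Nat.card V = 4 →
      2 ^ 2 ≤ Nat.card ↥(E ⊓ centralizer (V : Set X)) := by
    intro V hV hc
    obtain ⟨b, hb, hb'⟩ := exists_mem_not_mem_of_card_lt (A := V) (B := ⊥) (by simp [hc])
    have hb2 : Nat.card (zpowers b) = 2 := by
      rw [Nat.card_zpowers]; exact orderOf_eq_prime (hV.2 b hb) (by simpa using hb')
    obtain ⟨a, ha, ha'⟩ := exists_mem_not_mem_of_card_lt (A := V) (B := zpowers b) (by omega)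
    rw [← split V (zpowers b) hV (zpowers_le.mpr hb) (by omega) a ha ha']
    exact fix2 a b (hV.2 a ha) (hV.2 b hb)
      (centralizer_mono (zpowers_le.mpr ha) (Quad.ea_le_centralizer hV hb))
  constructor
  swap
  · intro V hV hc
    by_cases hle : E ⊓ centralizer (V : Set X) ≤ V
    · have hVE : V ≤ E := (eq_of_le_of_card_ge hle (hc ▸ four V hV hc)) ▸ inf_le_left
      obtain ⟨A, h1, h2, h3⟩ := exists_between_card_eq (k := 3) (hX.to_subgroup E) hVE
        (Quad.ea_le_normalizer hE hVE) (by omega) (by omega)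
      exact ⟨A, h1, Quad.ea_mono hE h2, h3⟩
    · obtain ⟨y, hy, hy'⟩ := SetLike.not_le_iff_exists.mp hle
      obtain ⟨h1, h2⟩ := ea_zpowers_sup hV (hE.2 y (mem_inf.mp hy).1) (mem_inf.mp hy).2 hy'
      exact ⟨_, le_sup_right, h1, by omega⟩
  set R := fun C D : Subgroup X => Cfsg.IsElementaryAbelian 2 C ∧ Nat.card ↥C = 8 ∧
    Cfsg.IsElementaryAbelian 2 D ∧ Nat.card ↥D = 8 ∧ ⁅C, D⁆ = ⊥ with hR
  have adj : ∀ C D : Subgroup X, IsElementaryAbelian 2 C → Nat.card C = 8 →
      IsElementaryAbelian 2 D → Nat.card D = 8 → D ≤ centralizer (C : Set X) → R C D :=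
    fun C D h1 h2 h3 h4 h5 => ⟨h1, h2, h3, h4, Quad.commutator_eq_bot_iff'.mpr h5⟩
  have symm : ∀ C D : Subgroup X, Relation.ReflTransGen R C D → Relation.ReflTransGen R D C := by
    intro C D h
    induction h with
    | refl => exact Relation.ReflTransGen.refl
    | tail _ h ih =>
      exact Relation.ReflTransGen.head ⟨h.2.2.1, h.2.2.2.1, h.1, h.2.1, commutator_eq_bot_symm h.2.2.2.2⟩ ih
  obtain ⟨F, hFE, hF8⟩ := exists_le_card_eq (k := 3) (hX.to_subgroup E) (by omega)
  have hF := Quad.ea_mono hE hFE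
  have k3 : ∀ A : Subgroup X, IsElementaryAbelian 2 A → Nat.card A = 8 →
      2 ^ 3 ≤ Nat.card ↥(E ⊓ centralizer (A : Set X)) → Relation.ReflTransGen R A F := by
    intro A hA hc h
    obtain ⟨B, h1, h2⟩ := exists_le_card_eq (hX.to_subgroup _) h
    have hB := Quad.ea_mono hE (h1.trans inf_le_left)
    exact (Relation.ReflTransGen.single (adj A B hA hc hB h2 (h1.trans inf_le_right))).tail
      (adj B F hB h2 hF hF8 (hFE.trans ((Quad.ea_le_centralizer hE).trans
        (centralizer_mono (h1.trans inf_le_left)))))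
  have k2 : ∀ A W : Subgroup X, IsElementaryAbelian 2 A → Nat.card A = 8 → W ≤ A → W ≤ E →
      Nat.card W = 4 → Relation.ReflTransGen R A F := by
    intro A W hA hc h1 h2 h3
    obtain ⟨a, ha, ha'⟩ := exists_mem_not_mem_of_card_lt (A := A) (B := W) (by omega)
    refine k3 A hA hc ((fix1 a (hA.2 a ha)).trans (card_le_of_le ?_))
    rw [← split A W hA h1 (by omega) a ha ha', centralizer_sup]
    exact le_inf inf_le_left (le_inf inf_le_right (inf_le_left.trans
      ((Quad.ea_le_centralizer hE).trans (centralizer_mono h2))))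
  have k2' : ∀ A : Subgroup X, IsElementaryAbelian 2 A → Nat.card A = 8 →
      2 ^ 2 ≤ Nat.card ↥(E ⊓ centralizer (A : Set X)) → Relation.ReflTransGen R A F := by
    intro A hA hc h
    obtain ⟨W, h1, h2⟩ := exists_le_card_eq (hX.to_subgroup _) h
    have hW := Quad.ea_mono hE (h1.trans inf_le_left)
    obtain ⟨a, ha, ha'⟩ := exists_mem_not_mem_of_card_lt (A := A) (B := W) (by omega)
    have hac : a ∈ centralizer (W : Set X) := le_centralizer_iff.mp (h1.trans inf_le_right) ha
    obtain ⟨g1, g2⟩ := ea_zpowers_sup hW (hA.2 a ha) hac ha'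
    exact Relation.ReflTransGen.head (adj A _ hA hc g1 (by omega)
      (sup_le (zpowers_le.mpr (Quad.ea_le_centralizer hA ha)) (h1.trans inf_le_right)))
      (k2 _ W g1 (by omega) le_sup_right (h1.trans inf_le_left) h2)
  have k1 : ∀ (V : Subgroup X) (z : X), IsElementaryAbelian 2 V → Nat.card V = 4 → z ∈ E → z ∉ V →
      z ∈ centralizer (V : Set X) → Relation.ReflTransGen R (zpowers z ⊔ V) F := by
    intro V z hV hc hz hz' hzc
    obtain ⟨g1, g2⟩ := ea_zpowers_sup hV (hE.2 z hz) hzc hz'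
    refine k2' _ g1 (by omega) ((four V hV hc).trans (card_le_of_le ?_))
    rw [centralizer_sup]
    exact le_inf inf_le_left (le_inf (inf_le_left.trans
      ((Quad.ea_le_centralizer hE).trans (centralizer_mono (zpowers_le.mpr hz)))) inf_le_right)
  have k0 : ∀ A : Subgroup X, IsElementaryAbelian 2 A → Nat.card A = 8 →
      Relation.ReflTransGen R A F := by
    intro A hA hc
    have hEne : E ≠ ⊥ := by
      rintro rfl
      simp at hE32
    obtain ⟨z, hz, hz2, hzc⟩ := pg_exists_central_of_order_p hX E hEne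
    have hz1 : Nat.card (zpowers z) = 2 := by rw [Nat.card_zpowers, hz2]
    have hZ : IsElementaryAbelian 2 (zpowers z) := Quad.ea_zpowers (hE.2 z hz)
    -- a four-subgroup of `A` avoiding `z`
    obtain ⟨a, ha, ha'⟩ := exists_mem_not_mem_of_card_lt (A := A) (B := zpowers z) (by omega)
    have hac : ∀ y : X, y ∈ centralizer (zpowers z : Set X) := fun y =>
      le_centralizer_iff.mp ((zpowers_le.mpr hzc).trans (center_le_centralizer ((⊤ : Subgroup X) : Set X)))
        (mem_top y)
    obtain ⟨g1, g2⟩ := ea_zpowers_sup hZ (hA.2 a ha) (hac a) ha'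
    obtain ⟨b, hb, hb'⟩ := exists_mem_not_mem_of_card_lt (A := A) (B := zpowers a ⊔ zpowers z)
      (by omega)
    obtain ⟨g3, g4⟩ := ea_zpowers_sup g1 (hA.2 b hb) (by
      rw [centralizer_sup]
      exact mem_inf.mpr ⟨centralizer_mono (zpowers_le.mpr ha) (Quad.ea_le_centralizer hA hb), hac b⟩) hb'
    have hVA : zpowers b ⊔ zpowers a ≤ A := sup_le (zpowers_le.mpr hb) (zpowers_le.mpr ha)
    have ha2 : Nat.card (zpowers a) = 2 := by
      rw [Nat.card_zpowers]
      exact orderOf_eq_prime (hA.2 a ha) (fun h => ha' (h ▸ one_mem _))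
    obtain ⟨g5, g6⟩ := ea_zpowers_sup (Quad.ea_zpowers (hA.2 a ha)) (hA.2 b hb)
      (centralizer_mono (zpowers_le.mpr ha) (Quad.ea_le_centralizer hA hb))
      (fun h => hb' (mem_sup_left h))
    have e : zpowers z ⊔ (zpowers b ⊔ zpowers a) = zpowers b ⊔ (zpowers a ⊔ zpowers z) := by
      rw [sup_comm (zpowers z), sup_assoc]
    have hzV : z ∉ zpowers b ⊔ zpowers a := fun h => by
      rw [sup_eq_right.mpr (zpowers_le.mpr h)] at e
      rw [e] at g6
      omega
    refine Relation.ReflTransGen.head (adj A _ hA hc (e ▸ g3) (by rw [e]; omega)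
      (sup_le (zpowers_le.mpr (center_le_centralizer _ hzc)) (hVA.trans (Quad.ea_le_centralizer hA))))
      (k1 _ z g5 (by omega) hz hzV (center_le_centralizer _ hzc))
  intro A B hA hA8 hB hB8
  exact (k0 A hA hA8).trans (symm _ _ (k0 B hB hB8))

end Cfsg.Agent.S1785
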