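import Cfsg.Statements.S1786
import Cfsg.Agent.Lib.Misc.TIElem2
import Cfsg.Agent.Lib.Core.FStar

set_option autoImplicit false
open Cfsg

namespace Cfsg.Agent.S1786

open Subgroup Cfsg.Lib Cfsg.Lib.FT Cfsg.Lib.TIE
open scoped commutatorElement

theorem loc_of {G : Type*} [Group G] [Finite G] {V Q : Subgroup G} (hV : IsElementaryAbelian 2 V)
    (hQ : IsPGroup 2 Q) (nQ : N[V] ≤ N[Q]) (lQ : Q ≤ N[V])
    (mQ : ∀ D ≤ N[V], N[V] ≤ N[D] → IsPGroup 2 D → D ≤ Q) (cQ : N[V] ⊓ C[Q] ≤ Q)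
    (h2 : ∀ A : Subgroup G, V ≤ A → A ≤ N[V] → IsMulCommutative A →
      (∀ m ∈ N[V], ∀ a ∈ A, m * a * m⁻¹ ∈ A) → A = V)
    (hti : ∀ x : G, x •ᶜ V = V ∨ x •ᶜ V ⊓ V = ⊥) : Loc V (Q ⊓ C[V]) := by
  have sq : ∀ x ∈ V, x * x = 1 := fun x hx => by rw [← pow_two, hV.2 x hx]
  have le : V ≤ Q ⊓ C[V] := le_inf (mQ V le_normalizer le_rfl (elemAb_isPGroup hV))
    (elemAb_le_centralizer hV)
  have cent : ∀ x ∈ Q ⊓ C[V], ∀ u ∈ V, x * u = u * x := fun x hx u hu =>
    (mem_centralizer_iff.1 hx.2 u hu).symm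
  have norm : N[V] ≤ N[Q ⊓ C[V]] := le_normalizer_inf nQ (normalizer_le_normalizer_centralizer V)
  have ln : Q ⊓ C[V] ≤ N[V] := inf_le_left.trans lQ
  have maxl : ∀ A ≤ Q ⊓ C[V], (∀ m ∈ N[V], ∀ x ∈ A, ∀ y ∈ A,
      x * (m * y * m⁻¹) = m * y * m⁻¹ * x) → A ≤ V := fun A hA h => by
    let s : Set G := V ∪ {z | ∃ m ∈ N[V], ∃ y ∈ A, z = m * y * m⁻¹}
    have hs : s ⊆ (Q ⊓ C[V] :) := by
      rintro _ (hz | ⟨m, hm, y, hy, rfl⟩)
      · exact le hz
      · exact conj_mem_of_mem_normalizer (norm hm) (hA hy)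
    rw [← h2 (closure s) (fun x hx => subset_closure (Or.inl hx)) (((closure_le _).2 hs).trans ln)
      (isMulCommutative_closure fun x hx y hy => ?_) fun m hm a ha => ?_]
    · exact fun y hy => subset_closure (Or.inr ⟨1, one_mem _, y, hy, by simp⟩)
    · rcases hx with hx | ⟨m, hm, x, hx, rfl⟩
      · exact (cent y (hs hy) x hx).symm
      rcases hy with hy | ⟨n, hn, y, hy, rfl⟩
      · exact cent _ (hs (Or.inr ⟨m, hm, x, hx, rfl⟩)) y hy
      · simpa [mul_assoc] using conj_comm (g := m) (h _ (mul_mem (inv_mem hm) hn) x hx y hy)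
    · refine (show m •ᶜ closure s ≤ closure s from ?_) (conj_mem_conj ha m)
      rw [MonoidHom.map_closure]
      refine closure_mono ?_
      rintro _ ⟨z, hz | ⟨n, hn, y, hy, rfl⟩, rfl⟩
      · exact Or.inl (conj_mem_of_mem_normalizer hm hz)
      · exact Or.inr ⟨m * n, mul_mem hm hn, y, hy, by simp [mul_assoc]⟩
  have hP : IsPGroup 2 ↥(Q ⊓ C[V]) := hQ.to_le inf_le_left
  set P := Q ⊓ C[V]
  have nI : N[V] ≤ N[commInto V P] := fun m hm => pg_mem_normalizer_of_conj_mem fun x hx =>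
    ⟨mul_mem (mul_mem hm hx.1) (inv_mem hm), fun y hy => by
      simpa [commutatorElement_def, mul_assoc] using conj_mem_of_mem_normalizer hm
        (hx.2 _ (conj_mem_of_mem_normalizer' (norm hm) hy))⟩
  have comm : ⁅P, P⁆ ≤ V := by
    by_contra c
    have l1 : ⁅P, P⁆ ≤ P := commutator_le_self P
    have l2 : ⁅P, P⁆ ⊔ V ≤ P := sup_le l1 le
    obtain ⟨_, hx', h1, -, h3⟩ := pg_exists_fixed_mod (hP.to_le l2) hP
      (le_normalizer_sup (le_normalizer_commutator le_normalizer le_normalizer) ln)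
      (right_lt_sup.2 c) (l2.trans ln) ln
    obtain ⟨x, hx, v, hv, rfl⟩ := (mem_sup_of_le_normalizer_right (l1.trans ln)).1 hx'
    have h4 : ⁅⁅P, P⁆, P ⊓ commInto V P⁆ ≤ ⊥ := by
      have : ⁅⁅P, P ⊓ commInto V P⁆, P⁆ ≤ ⊥ :=
        (commutator_mono (commutator_le.2 fun a ha b (hb : b ∈ P ⊓ commInto V P) =>
          pg_commutatorElement_mem_symm (hb.2.2 a ha)) le_rfl).trans (commutator_le.2 fun a ha b hb => ce_one.2 (cent b hb a ha).symm)
      exact commutator_commutator_le_of_rotate le_normalizer_of_normal le_normalizer_of_normal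
        le_normalizer_of_normal this (by rwa [commutator_comm (P ⊓ _)])
    refine h1 (mul_mem (maxl (⁅P, P⁆ ⊓ commInto V P) (inf_le_left.trans l1) (fun m hm a ha b hb => ?_)
      ⟨hx, ln (l1 hx), fun y hy => ?_⟩) hv)
    · exact ce_one.1 (h4 (commutator_mem_commutator ha.1
        ⟨conj_mem_of_mem_normalizer (norm hm) (l1 hb.1), conj_mem_of_mem_normalizer (nI hm) hb.2⟩))
    · have := h3 y hy
      rwa [commutatorElement_mul_left_eq_conj_mul, ce_one.2 (cent y hy v hv).symm, mul_one,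
        mul_inv_cancel, one_mul] at this
  refine ⟨sq, le, cent, commutator_le.1 comm, fun x h3 h4 => ?_, maxl, norm, fun g x hx h3 h4 =>
    conj_eq_iff_mem_normalizer.1 ((hti g).resolve_right fun c => h3 ?_)⟩
  · have hx : x ∈ C[V] := mem_centralizer_iff.2 fun u hu => (h3 u hu).symm
    have nD : N[V] ≤ N[C[V] ⊓ commInto V P] :=
      le_normalizer_inf (normalizer_le_normalizer_centralizer V) nI
    have lD : C[V] ⊓ commInto V P ≤ N[V] := inf_le_left.trans (centralizer_le_normalizer _)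
    refine ⟨mQ _ lD nD (isPiSubgroup_singleton_iff.1 (isPiSubgroup_of_forall_prime fun y hy hp => ?_))
      ⟨hx, centralizer_le_normalizer _ hx, h4⟩, hx⟩
    by_contra c
    have o : (orderOf y).Coprime 2 := (Nat.coprime_primes hp Nat.prime_two).2 c
    have y2 : y * y ∈ C[P] := mem_centralizer_iff.2 fun z hz => (ce_one.1 (by
      rw [commutatorElement_mul_left_eq_conj_mul, ← mem_centralizer_iff.1 hy.1 _ (hy.2.2 z hz),
        mul_inv_cancel_right, sq _ (hy.2.2 z hz)])).symm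
    have y1 : y ∈ C[P] := by
      obtain ⟨k, hk⟩ := exists_pow_eq_self_of_coprime o.symm
      rw [← hk, pow_two]
      exact pow_mem y2 k
    have lz := zpowers_le.2 hy
    have := (CoprimeAct.of_isPGroup_right hQ (by
      rw [Nat.card_zpowers]; exact Nat.prime_two.coprime_iff_not_dvd.1 o.symm) ((lz.trans lD).trans nQ)).le_centralizer_of_commutator_le_centralizer
      (((commutator_mono le_rfl lz).trans ((commutator_le_inf_of_le_normalizer (lQ.trans nD)
        (lD.trans nQ)).trans (inf_le_inf_left _ inf_le_left))).trans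
        (le_centralizer_iff.1 (zpowers_le.2 y1)))
    obtain ⟨k, hk⟩ := hQ ⟨y, cQ ⟨lD hy, le_centralizer_iff.1 this (mem_zpowers y)⟩⟩
    exact hp.ne_one ((o.pow_right k).eq_one_of_dvd (orderOf_dvd_of_pow_eq_one (congrArg Subtype.val hk)))
  · simpa using c.le ⟨conj_mem_conj hx g, h4⟩

/-- Let G be a finite group, V an elementary abelian 2-subgroup of G and M the normalizer of V; write Q for the largest normal 2-subgroup of M. Suppose (1) the generalized Fitting subgroup of M equals Q; (2) V is a maximal abelian normal subgroup of M; (3) every conjugate of V equals V or meets V trivially, and for some g ∈ G the conjugate V' = g V g⁻¹ is different from V and contained in Q. Let P be the centralizer of V in Q, W the subgroup generated by V and V', and H the subgroup generated by P and g P g⁻¹. Then: (a) V is contained in g Q g⁻¹; (b) every non-identity element of W lies in exactly one conjugate of V contained in W, H normalizes W, and H modulo the centralizer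 of W in H is isomorphic to the special linear group of dimension 2 over the field with |V| elements; (c) P = Q, and V equals the Frattini subgroup, the centre and the commutator subgroup of Q. -/
theorem result {G : Type*} [Group G] [Finite G] (V : Subgroup G)
    (hV : Cfsg.IsElementaryAbelian 2 V)
    (h1 : (Cfsg.generalizedFittingSubgroup ↥(Subgroup.normalizer (V : Set G))).map (Subgroup.normalizer (V : Set G)).subtype =
      (Cfsg.pCore 2 ↥(Subgroup.normalizer (V : Set G))).map (Subgroup.normalizer (V : Set G)).subtype)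
    (h2 : ∀ A : Subgroup G, V ≤ A → A ≤ Subgroup.normalizer (V : Set G) → IsMulCommutative ↥A →
      (∀ m ∈ Subgroup.normalizer (V : Set G), ∀ a ∈ A, m * a * m⁻¹ ∈ A) → A = V)
    (hti : ∀ x : G, V.map (MulAut.conj x).toMonoidHom = V ∨ V.map (MulAut.conj x).toMonoidHom ⊓ V = ⊥)
    (g : G) (hg : V.map (MulAut.conj g).toMonoidHom ≠ V)
    (hgQ : V.map (MulAut.conj g).toMonoidHom ≤ (Cfsg.pCore 2 ↥(Subgroup.normalizer (V : Set G))).map (Subgroup.normalizer (V : Set G)).subtype) :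
    let Q : Subgroup G := (Cfsg.pCore 2 ↥(Subgroup.normalizer (V : Set G))).map (Subgroup.normalizer (V : Set G)).subtype
    let P : Subgroup G := Q ⊓ Subgroup.centralizer (V : Set G)
    let W : Subgroup G := V ⊔ V.map (MulAut.conj g).toMonoidHom
    let H : Subgroup G := P ⊔ P.map (MulAut.conj g).toMonoidHom
    V ≤ Q.map (MulAut.conj g).toMonoidHom ∧
      (∀ w ∈ W, w ≠ 1 → ∃! U : Subgroup G, (∃ x : G, U = V.map (MulAut.conj x).toMonoidHom) ∧ U ≤ W ∧ w ∈ U) ∧
      H ≤ Subgroup.normalizer (W : Set G) ∧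
      (∀ hN : ((Subgroup.centralizer (W : Set G)).subgroupOf H).Normal, ∃ (F : Type) (_ : Field F) (_ : Fintype F), Fintype.card F = Nat.card ↥V ∧
        Nonempty (↥H ⧸ (Subgroup.centralizer (W : Set G)).subgroupOf H ≃* Matrix.SpecialLinearGroup (Fin 2) F)) ∧
      P = Q ∧ (frattini ↥Q).map Q.subtype = V ∧ (Subgroup.center ↥Q).map Q.subtype = V ∧ (commutator ↥Q).map Q.subtype = V := by
  intro Q P W H
  have hQ : IsPGroup 2 Q := isPGroup_pCoreOf _
  have nQ : N[V] ≤ N[Q] := le_normalizer_pCoreOf _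
  have lQ : Q ≤ N[V] := map_subtype_le _
  have l : Loc V P := loc_of hV hQ nQ lQ (fun D h1 h2 => le_pCoreOf h1 h2)
    ((h1 ▸ inf_centralizer_fstarOf_le N[V] :).trans ((map_mono fitting_le_fstar).trans h1.le)) h2 hti
  have h : Two V P (g •ᶜ V) (g •ᶜ P) := ⟨l, ⟨g, rfl, rfl⟩, hg.symm⟩
  have hle : g •ᶜ V ≤ P := le_inf hgQ fun x hx =>
    mem_centralizer_iff.2 fun v hv => h.cent_of_norm (hgQ.trans lQ) v hv x hx
  have hle' := h.le_symm hle
  have nW : ∀ {U X U' X' : Subgroup G}, Two U X U' X' → U' ≤ X → X ≤ N[U ⊔ U'] := fun h hle x hx =>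
    pg_mem_normalizer_of_conj_mem fun w hw => conj_eq_ce x w ▸
      mul_mem (mem_sup_left (h.loc.comm x hx w (sup_le h.loc.le hle hw))) hw
  have ePQ : P = Q := by
    obtain ⟨v, hv, v1⟩ := (bot_or_exists_ne_one _).resolve_left (pg_inf_centralizer_ne_bot
      (elemAb_isPGroup hV) hQ lQ fun c => hg (by rw [c, conj_bot]))
    obtain ⟨x, hx, x1⟩ := h.symm.exists_ne_one
    have tr : ∀ u ∈ V, u ≠ 1 → ∃ k, k * u * k⁻¹ = x := fun u hu u1 => by
      obtain ⟨p, -, e⟩ := h.symm.tr hle' hu u1 hx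
      obtain ⟨y, hy, e'⟩ := h.tr hle hx x1 hu
      refine ⟨y⁻¹ * p, ?_⟩
      have : p * u * p⁻¹ = y * x * y⁻¹ := by rw [conj_eq_ce, conj_eq_ce, e, e', l.cent _ (hle hx) _ hu]
      calc _ = y⁻¹ * (p * u * p⁻¹) * y := by group
        _ = x := by rw [this]; group
    refine inf_eq_left.2 (le_centralizer_iff.1 fun u hu => ?_)
    by_cases u1 : u = 1
    · exact u1 ▸ one_mem _
    obtain ⟨k, hk⟩ := tr u hu u1
    obtain ⟨k', hk'⟩ := tr v hv.1 v1
    have e : k⁻¹ * k' * v * (k⁻¹ * k')⁻¹ = u := by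
      rw [mul_inv_rev, mul_assoc k⁻¹, ← mul_assoc, mul_assoc k⁻¹, hk', ← hk]; group
    exact e ▸ conj_mem_of_mem_normalizer (normalizer_le_normalizer_centralizer Q
      (nQ (l.ti _ v hv.1 v1 (e ▸ hu)))) hv.2
  have cV : ⁅P, P⁆ = V := le_antisymm (commutator_le.2 l.comm) fun u hu => by
    obtain ⟨x, hx, x1⟩ := h.symm.exists_ne_one
    obtain ⟨y, hy, rfl⟩ := h.tr hle hx x1 hu
    exact commutator_mem_commutator hy (hle hx)
  refine ⟨hle'.trans (map_mono inf_le_left), fun w hw w1 => ?_,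
    sup_le (nW h hle) ((nW h.symm hle').trans_eq (by rw [sup_comm])), fun _ => h.exists_sl2 hle, ePQ, ?_, ?_, ?_⟩
  · refine existsUnique_of_exists_of_unique ?_ ?_
    · obtain ⟨v, hv, x, hx, rfl⟩ := (mem_sup_of_le_normalizer_left (hle.trans l.le_norm)).1 hw
      by_cases x1 : x = 1
      · exact ⟨V, ⟨1, (conj_eq_of_mem V.one_mem).symm⟩, le_sup_left, by simpa [x1] using hv⟩
      obtain ⟨y, hy, rfl⟩ := h.tr hle hx x1 hv
      exact ⟨_, ⟨y * g, conj_conj _ _ _⟩, (map_mono le_sup_right).trans_eq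
        (conj_eq_iff_mem_normalizer.2 (nW h hle hy)), conj_eq_ce y x ▸ conj_mem_conj hx y⟩
    · rintro _ _ ⟨⟨a, rfl⟩, -, ha⟩ ⟨⟨b, rfl⟩, -, hb⟩
      by_contra c
      exact w1 (Two.disj ⟨l.conj a, ⟨b * a⁻¹, by rw [conj_conj, inv_mul_cancel_right], rfl⟩, c⟩ ha hb)
  · rw [pg_map_frattini_subtype hQ, ← ePQ, cV, sup_eq_left, pg_powerClosure_le_iff]
    exact fun x hx => by simpa [pow_two] using l.sq_mem hx
  · rw [map_subtype_center, ← ePQ]
    exact le_antisymm (fun x hx => l.center hx.1 fun y hy => (mem_centralizer_iff.1 hx.2 y hy).symm)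
      (le_inf l.le fun x hx => mem_centralizer_iff.2 fun y hy => l.cent y hy x hx)
  · rw [map_subtype_commutator, ← ePQ, cV]

end Cfsg.Agent.S1786
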