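import Cfsg.Statements.S3103
import Mathlib
import Cfsg.Agent.Lib.Misc.GL42
import Cfsg.Agent.S1783
import Cfsg.Agent.Lib.Quad.ConjRep
import Cfsg.Agent.Lib.Coprime.Constrained

set_option autoImplicit false
open Cfsg

namespace Cfsg.Agent.S3103

open Cfsg.Lib

theorem exists_hom_sl4 {X : Type*} [Group X] [Finite X] (hc : Cfsg.IsPConstrained 2 X)
    (hO : Cfsg.oddCore X = ⊥) (h4 : Cfsg.SectionalPRankLE 2 4 ↥(Cfsg.pCore 2 X)) :
    ∃ φ : X →* Matrix.SpecialLinearGroup (Fin 4) (ZMod 2), φ.ker = pCore 2 X := by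
  have hC := centralizer_pCore_le_of_isPConstrained hc hO
  set Q := pCore 2 X with hQ
  have hQp : IsPGroup 2 Q := isPGroup_pCore
  set F := (frattini Q).map Q.subtype with hF
  have hFn : F.Normal := inferInstance
  have hcomm : ∀ a ∈ Q, ∀ b ∈ Q, (a : X ⧸ F) * b = b * a := fun a ha b hb => by
    rw [← commutatorElement_eq_one_iff_mul_comm, commutatorElement_def, ← QuotientGroup.mk_inv,
      ← QuotientGroup.mk_inv, ← QuotientGroup.mk_mul, ← QuotientGroup.mk_mul,
      ← QuotientGroup.mk_mul, QuotientGroup.eq_one_iff]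
    exact ⟨_, pg_commutator_le_frattini hQp (Subgroup.commutator_mem_commutator
      (Subgroup.mem_top ⟨a, ha⟩) (Subgroup.mem_top ⟨b, hb⟩)), rfl⟩
  have hpow : ∀ a ∈ Q, (a : X ⧸ F) ^ 2 = 1 := fun a ha => by
    rw [← QuotientGroup.mk_pow, QuotientGroup.eq_one_iff]
    exact ⟨_, pg_pow_mem_frattini hQp ⟨a, ha⟩, rfl⟩
  let V : Subgroup (X ⧸ F) := Q.map (QuotientGroup.mk' F)
  have hV : IsElementaryAbelian 2 V := by
    refine ⟨⟨⟨?_⟩⟩, ?_⟩
    · rintro ⟨_, a, ha, rfl⟩ ⟨_, b, hb, rfl⟩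
      exact Subtype.ext (hcomm a ha b hb)
    · rintro _ ⟨a, ha, rfl⟩
      exact hpow a ha
  have hVn : V.Normal := Subgroup.Normal.map inferInstance _ (QuotientGroup.mk'_surjective F)
  obtain ⟨M, _, _, ⟨m⟩⟩ := Quad.exists_conjModel (H := ⊤) hV Subgroup.le_normalizer_of_normal
  haveI := m.finite
  have hM : Nat.card M ≤ 16 := by
    have h1 := h9_card_range_le_of_sectional h4 (H := ⊤)
      (((QuotientGroup.mk' F).comp Q.subtype).comp (Subgroup.subtype ⊤))
      (fun x y => hcomm _ x.1.2 _ y.1.2) (fun x => hpow _ x.1.2)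
    rw [MonoidHom.range_comp, Subgroup.range_subtype, ← MonoidHom.range_eq_map,
      MonoidHom.range_comp, Subgroup.range_subtype] at h1
    have h2 := m.card_sub ⊤
    rw [m.sub_top] at h2
    rw [Nat.card_congr (Submodule.topEquiv (R := ZMod 2) (M := M)).toEquiv] at h2
    exact h2 ▸ h1
  obtain ⟨φ, hφ⟩ := h9_hom_sl4 (m.rep.comp ((Subgroup.topEquiv.symm.toMonoidHom).comp
    (QuotientGroup.mk' F))) hM
  refine ⟨φ, Subgroup.ext fun x => ?_⟩
  rw [MonoidHom.mem_ker, hφ]
  refine (m.rep_eq_one_iff _).trans ?_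
  change (x : X ⧸ F) ∈ _ ↔ _
  constructor
  · intro h
    refine Cfsg.Agent.S1783.le_pCore_of_frattini hC fun q hq => ?_
    have := h _ ⟨q, hq, rfl⟩
    change _ ∈ F
    rw [← QuotientGroup.eq_one_iff]
    simp only [QuotientGroup.mk'_apply] at this
    simp only [QuotientGroup.mk_mul, QuotientGroup.mk_inv]
    have h2 : (x : X ⧸ F) * q = q * x := this.symm
    rw [h2]
    group
  · rintro h _ ⟨q, hq, rfl⟩
    exact hcomm q hq x h


/-- Let X be a finite 2-constrained group with no nontrivial normal subgroup of odd order such that O₂(X) has sectional 2-rank at most 4. Then X/O₂(X) is isomorphic to a subgroup of the alternating group of degree 8. -/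
theorem result {X : Type*} [Group X] [Finite X] (hc : Cfsg.IsPConstrained 2 X) (hO : Cfsg.oddCore X = ⊥)
    (h4 : Cfsg.SectionalPRankLE 2 4 ↥(Cfsg.pCore 2 X)) :
    ∃ f : X ⧸ Cfsg.pCore 2 X →* ↥(alternatingGroup (Fin 8)), Function.Injective f := by
  obtain ⟨φ, hφ⟩ := exists_hom_sl4 hc hO h4
  obtain ⟨e⟩ := h9_sl42_alt8
  refine ⟨e.toMonoidHom.comp (QuotientGroup.lift _ φ fun x hx => by rwa [← hφ] at hx),
    e.injective.comp ?_⟩
  rw [injective_iff_map_eq_one]
  intro a ha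
  induction a using QuotientGroup.induction_on
  rw [QuotientGroup.eq_one_iff, ← hφ]
  exact ha

end Cfsg.Agent.S3103
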