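import Cfsg.Statements.S3104
import Mathlib
import Cfsg.Agent.Lib.Misc.A8Sub
import Cfsg.Agent.Lib.Misc.Sp42

set_option autoImplicit false
open Cfsg

namespace Cfsg.Agent.S3104

open Cfsg.Lib


/-- Let X be a finite nonsolvable 2-constrained group with no nontrivial normal subgroup of odd order such that O₂(X) has sectional 2-rank at most 4, and write Q for X/O₂(X). Then Q is isomorphic to the projective special linear group of dimension 3 over the field with 2 elements, to an alternating group of degree n with 5 ≤ n ≤ 8, to a symmetric group of degree n with 5 ≤ n ≤ 7, or else O₃(Q) has order 3 and Q/O₃(Q) is isomorphic to the alternating or the symmetric group of degree 5 (so Q is the direct product of a group of order 3 with the alternating group of degree 5, or an extension of that direct product by a group of order 2). If moreover X itself has sectional 2-rank at most 4, then Q is not isomorphic to the symmetric group of degree 6 or 7 nor to the alternating group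 of degree 8. -/
theorem result {X : Type*} [Group X] [Finite X] (hns : ¬ Group.IsSolvable X) (hc : Cfsg.IsPConstrained 2 X) (hO : Cfsg.oddCore X = ⊥)
    (h4 : Cfsg.SectionalPRankLE 2 4 ↥(Cfsg.pCore 2 X)) :
    ((∃ (F : Type) (_ : Field F) (_ : Fintype F), Fintype.card F = 2 ∧
          Nonempty (X ⧸ Cfsg.pCore 2 X ≃* Matrix.ProjectiveSpecialLinearGroup (Fin 3) F)) ∨
        (∃ n : ℕ, 5 ≤ n ∧ n ≤ 8 ∧ Nonempty (X ⧸ Cfsg.pCore 2 X ≃* ↥(alternatingGroup (Fin n)))) ∨
        (∃ n : ℕ, 5 ≤ n ∧ n ≤ 7 ∧ Nonempty (X ⧸ Cfsg.pCore 2 X ≃* Equiv.Perm (Fin n))) ∨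
        (Nat.card ↥(Cfsg.pCore 3 (X ⧸ Cfsg.pCore 2 X)) = 3 ∧
          (Nonempty ((X ⧸ Cfsg.pCore 2 X) ⧸ Cfsg.pCore 3 (X ⧸ Cfsg.pCore 2 X) ≃* ↥(alternatingGroup (Fin 5))) ∨
            Nonempty ((X ⧸ Cfsg.pCore 2 X) ⧸ Cfsg.pCore 3 (X ⧸ Cfsg.pCore 2 X) ≃* Equiv.Perm (Fin 5))))) ∧
      (Cfsg.SectionalPRankLE 2 4 X →
        ¬ (Nonempty (X ⧸ Cfsg.pCore 2 X ≃* Equiv.Perm (Fin 6)) ∨ Nonempty (X ⧸ Cfsg.pCore 2 X ≃* Equiv.Perm (Fin 7)) ∨
            Nonempty (X ⧸ Cfsg.pCore 2 X ≃* ↥(alternatingGroup (Fin 8))))) := by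
  obtain ⟨φ, p, h, -⟩ := h9_exists_fr4 hc hO h4
  obtain ⟨e, he⟩ := h9_sl42_alt8_sp
  let ι : X ⧸ pCore 2 X →* Equiv.Perm (Fin 8) := (alternatingGroup (Fin 8)).subtype.comp
    (e.toMonoidHom.comp (QuotientGroup.lift _ φ fun x hx => by rwa [← h.ker] at hx))
  have hι : InA8 ι := by
    refine ⟨(alternatingGroup (Fin 8)).subtype_injective.comp (e.injective.comp ?_),
      fun x => Subtype.prop _⟩
    rw [injective_iff_map_eq_one]
    intro a ha
    induction a using QuotientGroup.induction_on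
    rw [QuotientGroup.eq_one_iff, ← h.ker]
    exact ha
  have hns' : ¬ Group.IsSolvable (X ⧸ pCore 2 X) := fun hs => hns (by
    haveI : Fact (Nat.Prime 2) := ⟨Nat.prime_two⟩
    haveI := (isPGroup_pCore (G := X) (p := 2)).isNilpotent
    exact (Group.isSolvable_iff_subgroup_quotient (pCore 2 X)).2 ⟨inferInstance, hs⟩)
  have hO2 := pCore_quotient_pCore (G := X) (p := 2)
  have hrange : ∀ s, (e s : Equiv.Perm (Fin 8)) ∈ ι.range → s ∈ φ.range := by
    rintro s ⟨x, hx⟩
    induction x using QuotientGroup.induction_on with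
    | H x => exact ⟨x, e.injective (Subtype.ext hx)⟩
  constructor
  · by_cases h7 : 7 ∣ Nat.card (X ⧸ pCore 2 X)
    · rcases hι.classify_seven h7 hO2 hns' with ⟨hs, h1⟩ | h1 | h1
      · exact Or.inl ⟨ZMod 2, inferInstance, inferInstance, by simp, h9_simple_168 h1 (by simp)⟩
      · exact Or.inr (Or.inl ⟨7, by norm_num, by norm_num, h1⟩)
      · exact Or.inr (Or.inl ⟨8, by norm_num, by norm_num, h1⟩)
    · obtain ⟨O, hO | hO, hO'⟩ := hι.exists_orbit h7 (hι.five_dvd hns' h7)
      · rcases (hι.classify_five hns' hO hO').2 with h1 | h1 | h1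
        · exact Or.inr (Or.inl ⟨5, by norm_num, by norm_num, h1⟩)
        · exact Or.inr (Or.inr (Or.inl ⟨5, by norm_num, by norm_num, h1⟩))
        · exact Or.inr (Or.inr (Or.inr h1))
      · rcases hι.classify_six hns' hO hO' with h1 | h1 | h1 | h1
        · exact Or.inr (Or.inl ⟨5, by norm_num, by norm_num, h1⟩)
        · exact Or.inr (Or.inr (Or.inl ⟨5, by norm_num, by norm_num, h1⟩))
        · exact Or.inr (Or.inl ⟨6, by norm_num, by norm_num, h1⟩)
        · exact Or.inr (Or.inr (Or.inl ⟨6, by norm_num, by norm_num, h1⟩))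
  · rintro hX (⟨⟨f⟩⟩ | ⟨⟨f⟩⟩ | ⟨⟨f⟩⟩)
    · obtain ⟨O, hO, hO'⟩ := hι.stab_of_720 hns' (by
        rw [Nat.card_congr f.toEquiv, Nat.card_perm, Nat.card_eq_fintype_card, Fintype.card_fin]
        rfl)
      obtain ⟨a, b, hab, hc⟩ := Finset.card_eq_two.1 (show Oᶜ.card = 2 by
        rw [Finset.card_compl, hO]; rfl)
      obtain ⟨g, hg0, hg1⟩ : ∃ g : alternatingGroup (Fin 8), g.1 0 = a ∧ g.1 1 = b := by
        haveI := alternatingGroup.isMultiplyPretransitive (Fin 8)
        haveI := MulAction.isMultiplyPretransitive_of_le (G := alternatingGroup (Fin 8))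
          (α := Fin 8) (m := 2) (n := Nat.card (Fin 8) - 2) (by simp) (by simp)
        exact (MulAction.is_two_pretransitive_iff.1 this) (by decide) hab
      refine (h.conj_by (e.symm g)⁻¹).not_sectional (fun s hs => ?_) hX
      have h1 : ∀ y, g.1 y ∈ O ↔ y ∉ ({0, 1} : Finset (Fin 8)) := fun y => by
        rw [← not_iff_not, ← Finset.mem_compl, hc, ← hg0, ← hg1, not_not]; simp
      obtain ⟨x, hx⟩ := hrange (e.symm g * s * (e.symm g)⁻¹) (hO' _ (Subtype.prop _) fun y => by
        obtain ⟨y, rfl⟩ := g.1.surjective y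
        simp only [map_mul, map_inv, MulEquiv.apply_symm_apply, Subgroup.coe_mul,
          Subgroup.coe_inv, Equiv.Perm.mul_apply, Equiv.Perm.coe_inv, Equiv.symm_apply_apply]
        rw [h1, h1, he s hs])
      refine ⟨x, ?_⟩
      simp only [MonoidHom.comp_apply, hx, MulEquiv.coe_toMonoidHom, MulAut.conj_apply]
      group
    · have h1 : Nat.card (X ⧸ pCore 2 X) = 5040 := by
        rw [Nat.card_congr f.toEquiv, Nat.card_perm, Nat.card_eq_fintype_card, Fintype.card_fin]
        rfl
      obtain ⟨-, n, h2, h3⟩ := hι.simple_of_seven (by rw [h1]; norm_num) hO2 hns'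
      omega
    · have h1 := h9_range_eq_alt_of_card ι hι.inj (by
        rw [Nat.card_congr f.toEquiv, h9_card_alt 8 (by norm_num)])
      exact h.not_sectional (fun s _ => hrange s (by rw [h1]; exact Subtype.prop _)) hX

end Cfsg.Agent.S3104
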