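import Cfsg.Statements.S3106
import Cfsg.Agent.S1783
import Cfsg.Agent.Lib.Misc.GL42
import Cfsg.Agent.Lib.Coprime.Constrained
import Cfsg.Agent.Lib.PGroup.DihedralQuaternion
import Cfsg.Agent.Lib.FT.Basic.MinSimple

set_option autoImplicit false
open Cfsg

namespace Cfsg.Agent.S3106

open Subgroup Cfsg.Lib Cfsg.Lib.FT Function

universe u

section

variable {X : Type u} [Group X] [Finite X]

theorem cnt {p : ℕ} [Fact p.Prime] {g : X} {S : Set X} (hg : ∀ x ∈ S, g ^ p * x = x * g ^ p)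
    (hS : ∀ x ∈ S, g * x * g⁻¹ ∈ S) : S.ncard ≡ {x ∈ S | g * x = x * g}.ncard [MOD p] := by
  classical
  let f : Function.End S := fun x => ⟨g * x * g⁻¹, hS x x.2⟩
  have hf : ∀ (n : ℕ) (x : S), ((f ^ n) x).1 = g ^ n * x * (g ^ n)⁻¹ := fun n => by
    induction n with
    | zero => simp [Function.End.one_def]
    | succ n ih =>
      intro x
      rw [pow_succ']
      change g * ((f ^ n) x).1 * g⁻¹ = _
      simp [ih, pow_succ', mul_assoc]
  haveI := Fintype.ofFinite S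
  have := Equiv.Perm.card_fixedPoints_modEq (f := f) (p := p) (n := 1) (funext fun x => Subtype.ext (by
    rw [pow_one, hf, hg x x.2, mul_inv_cancel_right]; rfl))
  rw [← Nat.card_eq_fintype_card, ← Nat.card_eq_fintype_card] at this
  refine this.trans (by
    rw [Nat.card_coe_set_eq, ← Set.ncard_image_of_injective _ Subtype.val_injective]
    congr! 1
    ext x
    simp [f, IsFixedPt, Subtype.ext_iff, mul_inv_eq_iff_eq_mul, and_comm])

theorem cnt' {p : ℕ} [Fact p.Prime] {g : X} {W : Subgroup X} [hW : W.Normal] (hg : g ^ p ∈ C[W]) :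
    Nat.card W ≡ Nat.card ↥(W ⊓ C1[g]) [MOD p] := by
  have := cnt (S := W) (fun x hx => (hg x hx).symm) fun x hx => hW.conj_mem x hx g
  rwa [show {x ∈ (W : Set X) | g * x = x * g} = (W ⊓ C1[g] : Subgroup X) by
    ext x; simp [mem_centralizer_singleton_iff, eq_comm]] at this

omit [Finite X] in
theorem comm_of_sq {W : Subgroup X} (h2 : ∀ x ∈ W, x * x = 1) : ∀ x ∈ W, ∀ y ∈ W, x * y = y * x :=
  fun x hx y hy => by
    rw [← inv_eq_of_mul_eq_one_right (h2 _ (mul_mem hx hy)), mul_inv_rev,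
      inv_eq_of_mul_eq_one_right (h2 x hx), inv_eq_of_mul_eq_one_right (h2 y hy)]

theorem l16 {W : Subgroup X} [hW : W.Normal] (h2 : ∀ x ∈ W, x * x = 1) (h16 : Nat.card W ≤ 16) {s a : X}
    (s5 : s ^ 5 = 1) (a2 : a * a ∈ C[W]) (as : a * s * a⁻¹ * s ∈ C[W]) (hs : ∃ w ∈ W, s * w ≠ w * s) :
    Nat.card W = 16 ∧ (∀ w ∈ W, s * w = w * s → w = 1) ∧ Nat.card ↥(W ⊓ C1[a]) = 4 ∧
      ∀ w ∈ W, a * w = w * a → ∃ x ∈ W, w = x * (a * x * a⁻¹) := by
  haveI : Fact (Nat.Prime 5) := ⟨by norm_num⟩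
  have pW : IsPGroup 2 W := fun x => ⟨1, Subtype.ext (by simpa [sq] using h2 x x.2)⟩
  have c := comm_of_sq h2
  have h1 := cnt' (W := W) (p := 5) (g := s) (s5 ▸ one_mem _)
  have h3 : Nat.card ↥(W ⊓ C1[s]) < Nat.card W := pg_card_lt_of_lt (inf_lt_left.2 fun h => by
    obtain ⟨w, hw, e⟩ := hs
    exact e (mem_centralizer_singleton_iff.1 (h hw)).symm)
  obtain ⟨m, hm⟩ := IsPGroup.iff_card.1 pW
  obtain ⟨k, hk⟩ := IsPGroup.iff_card.1 (pW.to_inf_left (K := C1[s]))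
  have : m = 4 ∧ k = 0 := by
    rw [hm, hk] at h1 h3
    have h4 := (Nat.pow_lt_pow_iff_right one_lt_two).1 h3
    have h5 := (Nat.pow_le_pow_iff_right one_lt_two).1 (hm ▸ h16 : 2 ^ m ≤ 2 ^ 4)
    interval_cases m <;> interval_cases k <;> simp_all [Nat.ModEq]
  obtain ⟨rfl, rfl⟩ := this
  have f : ∀ w ∈ W, s * w = w * s → w = 1 := fun w hw e =>
    mem_bot.1 (card_eq_one.1 hk ▸ mem_inf.2 ⟨hw, mem_centralizer_singleton_iff.2 e.symm⟩)
  obtain ⟨C, hC⟩ : ∃ C, C = W ⊓ C1[a] := ⟨_, rfl⟩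
  have mC : ∀ x, x ∈ C ↔ x ∈ W ∧ a * x = x * a := fun x => by
    rw [hC, mem_inf, mem_centralizer_singleton_iff, eq_comm]
  have d : C ⊓ s •ᶜ C = ⊥ := eq_bot_iff.2 (by
    rintro _ ⟨h4, x, hx, rfl⟩
    obtain ⟨hx, e1⟩ := (mC x).1 hx
    have e2 : a * (s * x * s⁻¹) = s * x * s⁻¹ * a := ((mC _).1 h4).2
    have e3 : s⁻¹ * x * s⁻¹⁻¹ * (a * s * a⁻¹ * s) = _ := as _ (hW.conj_mem x hx s⁻¹)
    have e4 : Commute (s⁻¹ * a * s * a⁻¹) x := (show Commute (s⁻¹ * a * s) x by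
      calc s⁻¹ * a * s * x = s⁻¹ * (a * (s * x * s⁻¹)) * s := by group
        _ = _ := by rw [e2]; group).mul_left (show Commute a x from e1).inv_left
    have : Commute (s ^ 2) x := by
      calc s ^ 2 * x = s ^ 2 * (x * (s⁻¹ * a * s * a⁻¹)) * (s⁻¹ * a * s * a⁻¹)⁻¹ := by group
        _ = s * (a * s * a⁻¹ * s * (s⁻¹ * x * s⁻¹⁻¹)) * s⁻¹ * (s⁻¹ * a * s * a⁻¹)⁻¹ := by rw [← e4.eq]; group
        _ = _ := by rw [← e3, sq]; group
    have := this.pow_left 3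
    rw [← pow_mul, show 2 * 3 = 5 + 1 from rfl, pow_succ, s5, one_mul] at this
    simp [f x hx this])
  have CW : C ≤ W := hC ▸ inf_le_left
  have CW' : s •ᶜ C ≤ W := by rintro _ ⟨x, hx, rfl⟩; exact hW.conj_mem x (CW hx) s
  have h4 := pg_card_sup_mul_card_inf (H := C) (N := s •ᶜ C) fun x hx => pg_mem_normalizer_of_conj_mem
    fun y hy => by rwa [c x (CW hx) y (CW' hy), mul_inv_cancel_right]
  have h5 := card_le_of_le (sup_le CW CW')
  rw [d, card_bot, card_map_of_injective (MulAut.conj s).injective] at h4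
  let φ : W →* X := MonoidHom.mk' (fun x => x * (a * x * a⁻¹)) fun x y => by
    rw [coe_mul, ← conj_mul, mul_assoc x.1, ← mul_assoc y.1, c y y.2 _ (hW.conj_mem x x.2 a)]
    simp only [mul_assoc]
  have h6 : φ.range ≤ C := by
    rintro _ ⟨x, rfl⟩
    refine (mC _).2 ⟨mul_mem x.2 (hW.conj_mem x x.2 a), ?_⟩
    change a * (x * (a * x * a⁻¹)) = x * (a * x * a⁻¹) * a
    rw [c x x.2 _ (hW.conj_mem x x.2 a)]
    calc a * (a * x * a⁻¹ * x) = a * a * x * a⁻¹ * x := by group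
      _ = x * a * x := by rw [← a2 x x.2]; group
      _ = x * (a * x * a⁻¹) * a := by group
      _ = _ := by rw [c x x.2 _ (hW.conj_mem x x.2 a)]
  have h7 : Nat.card φ.ker ≤ Nat.card C := by
    rw [← card_map_of_injective W.subtype_injective]
    refine card_le_of_le ?_
    rintro _ ⟨x, hx, rfl⟩
    exact (mC _).2 ⟨x.2, mul_inv_eq_iff_eq_mul.1 (mul_left_cancel (hx.trans (h2 x x.2).symm))⟩
  have h8 := φ.ker.card_mul_index
  have h9 := card_le_of_le h6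
  rw [index_ker] at h8
  have h10 : Nat.card C ≤ 4 := by nlinarith
  have h11 : 4 ≤ Nat.card φ.range := by nlinarith
  refine ⟨hm, f, hC ▸ by omega, fun w hw e => ?_⟩
  obtain ⟨x, hx⟩ := (eq_of_le_of_card_ge h6 (by omega)).ge ((mC w).2 ⟨hw, e⟩)
  exact ⟨x, x.2, hx.symm⟩

/-- elementary abelian sections have order at most 16 -/
def R4 (X : Type u) [Group X] : Prop :=
  ∀ H D : Subgroup X, D ≤ H → H ≤ N[D] → (∀ x ∈ H, x * x ∈ D) → Nat.card H ≤ 16 * Nat.card D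

structure Hyp (Q F : Subgroup X) (s a r : X) : Prop where
  nQ : Q.Normal
  pQ : IsPGroup 2 Q
  eF : F = Subgroup.closure ((fun x => x * x) '' Q)
  R : R4 X
  s5 : s ^ 5 = 1
  a2 : a * a ∈ Q
  as : a * s * a⁻¹ * s ∈ Q
  r3 : r ^ 3 ∈ Q
  gen : ∀ N : Subgroup X, N.Normal → Q ≤ N → s ∈ N → N = ⊤
  sV : ∃ x ∈ Q, s * x * s⁻¹ * x⁻¹ ∉ F
  rV : ∃ x ∈ Q, r * x * r⁻¹ * x⁻¹ ∉ F

theorem aniso {Q F K : Subgroup X} (FQ : F ≤ Q) (hc : ∀ x ∈ Q, ∀ y ∈ Q, x * y * x⁻¹ * y⁻¹ ∈ F)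
    (hZ : F ≤ C[Q]) (h2 : ∀ x ∈ Q, x * x ∈ F) (hK : ∀ f ∈ F, ∀ g ∈ F, f ∉ K → g ∉ K → f * g ∈ K)
    (h8 : 4 * Nat.card F < Nat.card Q) : ∃ w ∈ Q, w ∉ F ∧ w * w ∈ K := by
  by_contra! h
  have n : ∀ H : Subgroup X, F ≤ H → H ≤ Q → ∀ x ∈ Q, x ∈ N[H] := fun H h1 h2 x hx =>
    pg_mem_normalizer_of_conj_mem fun y hy => by simpa using mul_mem (h1 (hc x hx y (h2 hy))) hy
  have ex : ∀ H : Subgroup X, Nat.card H < Nat.card Q → ∃ x ∈ Q, x ∉ H := fun H h => by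
    by_contra! h'; exact h.not_ge (card_le_of_le h')
  obtain ⟨x, hx, x0⟩ := ex F (by omega)
  have c1 := pg_card_zpowers_sup (p := 2) (n F le_rfl FQ x hx) x0 (by rw [sq]; exact h2 x hx)
  obtain ⟨y, hy, y0⟩ := ex (zpowers x ⊔ F) (by omega)
  have c2 := pg_card_zpowers_sup (p := 2) (n _ le_sup_right (sup_le (zpowers_le.2 hx) FQ) y hy) y0
    (by rw [sq]; exact mem_sup_right (h2 y hy))
  obtain ⟨w, hw, w0⟩ := ex (zpowers y ⊔ (zpowers x ⊔ F)) (by omega)
  have k : ∀ y ∈ Q, y ∉ zpowers x ⊔ F → x * y * x⁻¹ * y⁻¹ ∉ K := fun y hy y0 e => by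
    refine h (x * y) (mul_mem hx hy) (fun e => y0 ((mul_mem_cancel_left (mem_sup_left (mem_zpowers x))).1
      (mem_sup_right e))) ?_
    have := mul_mem (inv_mem e) (hK _ (h2 x hx) _ (h2 y hy) (h x hx x0) (h y hy fun e => y0 (mem_sup_right e)))
    convert this using 1
    rw [eq_inv_mul_iff_mul_eq]
    calc x * y * x⁻¹ * y⁻¹ * (x * y * (x * y)) = x * (x * y * x⁻¹ * y⁻¹ * (y * x)) * y := by
          rw [← mul_assoc x (_ * _), hZ (hc x hx y hy) x hx]; group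
      _ = _ := by group
  refine k (y * w) (mul_mem hy hw) (fun e => w0 ((mul_mem_cancel_left (mem_sup_left (mem_zpowers y))).1
    (mem_sup_right e))) ?_
  convert hK _ (hc x hx y hy) _ (hc x hx w hw) (k y hy y0) (k w hw fun e => w0 (mem_sup_right e)) using 1
  calc x * (y * w) * x⁻¹ * (y * w)⁻¹ = x * y * x⁻¹ * (x * w * x⁻¹ * w⁻¹ * y⁻¹) := by group
    _ = _ := by rw [← hZ (hc x hx w hw) _ (inv_mem hy)]; group

theorem two_ext {U : Subgroup X} {y g : X} (hy : y ∈ N[U]) (h2 : y * y ∈ U) (hg : g ∈ zpowers y ⊔ U) :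
    g ∈ U ∨ ∃ u ∈ U, g = u * y := by
  obtain ⟨_, ⟨n, rfl⟩, b, hb, rfl⟩ := (pg_mem_sup_of_le_normalizer_right (zpowers_le.2 hy)).1 hg
  have : ∀ k : ℤ, y ^ (2 * k) ∈ U := fun k => by rw [zpow_mul, zpow_two]; exact zpow_mem h2 k
  obtain ⟨k, rfl | rfl⟩ := Int.even_or_odd' n
  · exact .inl (mul_mem (this k) hb)
  · exact .inr ⟨_, mul_mem (this k) (pg_conj_mem_of_mem_normalizer hy hb), by group⟩

theorem split {H K : Subgroup X} {t : X} (HK : H ≤ K) (ht : t ∈ K) (t0 : t ∉ H)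
    (hd : ∀ g ∈ K, g ∉ H → t⁻¹ * g ∈ H) (P : X → Prop) :
    {g | g ∈ K ∧ P g}.ncard = {g | g ∈ H ∧ P g}.ncard + {g | g ∈ H ∧ P (t * g)}.ncard := by
  rw [← Set.ncard_image_of_injective {g | g ∈ H ∧ P (t * g)} (mul_right_injective t),
    ← Set.ncard_union_eq (Set.disjoint_left.2 (by
      rintro _ h1 ⟨g, h2, rfl⟩
      exact t0 ((mul_mem_cancel_right h2.1).1 h1.1)))]
  congr 1
  ext g
  refine ⟨fun h => ?_, ?_⟩
  · by_cases e : g ∈ H
    exacts [.inl ⟨e, h.2⟩, .inr ⟨_, ⟨hd g h.1 e, by simpa using h.2⟩, by simp⟩]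
  · rintro (h | ⟨g, h, rfl⟩)
    exacts [⟨HK h.1, h.2⟩, ⟨mul_mem ht (HK h.1), h.2⟩]

namespace Hyp

variable {Q F : Subgroup X} {s a r : X} (h : Hyp Q F s a r)
include h

theorem sq_mem {x : X} (hx : x ∈ Q) : x * x ∈ F := h.eF ▸ subset_closure ⟨x, hx, rfl⟩

theorem le {K : Subgroup X} (hK : ∀ x ∈ Q, x * x ∈ K) : F ≤ K :=
  h.eF ▸ (Subgroup.closure_le K).2 (by rintro _ ⟨x, hx, rfl⟩; exact hK x hx)

theorem FQ : F ≤ Q := h.le fun _ hx => mul_mem hx hx

theorem nF : F.Normal := ⟨fun x hx g => h.le (K := F.comap (MulAut.conj g).toMonoidHom)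
  (fun y hy => by simpa using h.sq_mem (h.nQ.conj_mem y hy g)) hx⟩

theorem comm {x y : X} (hx : x ∈ Q) (hy : y ∈ Q) : x * y * x⁻¹ * y⁻¹ ∈ F := by
  convert mul_mem (mul_mem (h.sq_mem hx) (h.sq_mem (mul_mem (inv_mem hx) hy))) (h.sq_mem (inv_mem hy))
    using 1
  group

theorem quot (K : Subgroup X) [K.Normal] (hK : K ≤ F) : Hyp (Q.map (QuotientGroup.mk' K))
    (F.map (QuotientGroup.mk' K)) (QuotientGroup.mk' K s) (QuotientGroup.mk' K a) (QuotientGroup.mk' K r) := by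
  have e : ∀ g : X, (∃ x ∈ Q, g * x * g⁻¹ * x⁻¹ ∉ F) → ∃ x ∈ Q.map (QuotientGroup.mk' K),
      QuotientGroup.mk' K g * x * (QuotientGroup.mk' K g)⁻¹ * x⁻¹ ∉ F.map (QuotientGroup.mk' K) :=
    fun g ⟨x, hx, e⟩ => ⟨_, mem_map_of_mem _ hx, fun e' => e (by
      rwa [← map_inv, ← map_inv, ← map_mul, ← map_mul, ← map_mul, ← mem_comap,
        comap_map_eq_self (by simpa using hK)] at e')⟩
  refine ⟨h.nQ.map _ (QuotientGroup.mk'_surjective K), h.pQ.map _, ?_, fun H D h1 h2 h3 => ?_,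
    by rw [← map_pow, h.s5, map_one], ⟨_, h.a2, rfl⟩, ⟨_, h.as, rfl⟩, ⟨_, h.r3, rfl⟩, fun N h1 h2 h3 => ?_,
    e s h.sV, e r h.rV⟩
  · rw [h.eF, MonoidHom.map_closure, coe_map, Set.image_image, Set.image_image]; simp
  · have := h.R (H.comap (QuotientGroup.mk' K)) (D.comap (QuotientGroup.mk' K)) (comap_mono h1)
      ((comap_mono h2).trans (le_normalizer_comap _)) fun x hx => h3 _ hx
    rw [pg_card_comap_mk, pg_card_comap_mk, mul_left_comm] at this
    exact Nat.le_of_mul_le_mul_left this Nat.card_pos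
  · exact comap_injective (QuotientGroup.mk'_surjective K)
      (h.gen _ (h1.comap _) (map_le_iff_le_comap.1 h2) h3)

theorem top : Nat.card Q = 16 * Nat.card F ∧ (∀ x ∈ Q, s * x * s⁻¹ * x⁻¹ ∈ F → x ∈ F) ∧
    (∃ U ≤ Q, Nat.card U = 4 * Nat.card F ∧ ∀ x ∈ Q, x ∈ U ↔ a * x * a⁻¹ * x⁻¹ ∈ F) ∧
    (∀ w ∈ Q, a * w * a⁻¹ * w⁻¹ ∈ F → ∃ x ∈ Q, (x * (a * x * a⁻¹))⁻¹ * w ∈ F) ∧
    ∃ U ≤ Q, Nat.card U ≤ 4 * Nat.card F ∧ ∀ x ∈ Q, x ∈ U ↔ r * x * r⁻¹ * x⁻¹ ∈ F := by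
  haveI := h.nF
  haveI : Fact (Nat.Prime 3) := ⟨by norm_num⟩
  have k := h.quot F le_rfl
  rw [(map_eq_bot_iff F).2 (by simp)] at k
  haveI := k.nQ
  have e : ∀ g x : X, QuotientGroup.mk' F g * QuotientGroup.mk' F x = QuotientGroup.mk' F x *
      QuotientGroup.mk' F g ↔ g * x * g⁻¹ * x⁻¹ ∈ F := fun g x => by
    rw [← QuotientGroup.eq_one_iff, ← commutatorElement_eq_one_iff_mul_comm]; rfl
  have cm : ∀ V ≤ Q.map (QuotientGroup.mk' F), V.comap (QuotientGroup.mk' F) ≤ Q := fun V hV =>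
    (comap_mono hV).trans (comap_map_eq_self (by simpa using h.FQ)).le
  have h2 : ∀ x ∈ Q.map (QuotientGroup.mk' F), x * x = 1 := fun x hx => k.sq_mem hx
  have hC : Q.map (QuotientGroup.mk' F) ≤ C[Q.map (QuotientGroup.mk' F)] := fun x hx y hy =>
    comm_of_sq h2 y hy x hx
  obtain ⟨h3, h4, h5, h6⟩ := l16 h2 (by simpa using k.R _ ⊥ bot_le le_normalizer_of_normal h2) k.s5 (hC k.a2)
    (hC k.as) (k.sV.imp fun x hx => ⟨hx.1, fun e => hx.2 (by rw [e]; simp)⟩)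
  have u : ∀ g : X, ∀ x ∈ Q, x ∈ (Q.map (QuotientGroup.mk' F) ⊓ C1[QuotientGroup.mk' F g]).comap
      (QuotientGroup.mk' F) ↔ g * x * g⁻¹ * x⁻¹ ∈ F := fun g x hx => by
    rw [mem_comap, mem_inf, mem_centralizer_singleton_iff, eq_comm, e, and_iff_right (mem_map_of_mem _ hx)]
  refine ⟨?_, fun x hx h7 => (QuotientGroup.eq_one_iff x).1 (h4 _ (mem_map_of_mem _ hx) ((e s x).2 h7)),
    ⟨_, cm _ inf_le_left, by rw [pg_card_comap_mk, h5, mul_comm], u a⟩, fun w hw h7 => ?_,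
    _, cm _ inf_le_left, ?_, u r⟩
  · rw [← comap_map_eq_self (f := QuotientGroup.mk' F) (H := Q) (by simpa using h.FQ), pg_card_comap_mk, h3,
      mul_comm]
  · obtain ⟨_, ⟨x, hx, rfl⟩, h8⟩ := h6 _ (mem_map_of_mem _ hw) ((e a w).2 h7)
    exact ⟨x, hx, QuotientGroup.eq.1 h8.symm⟩
  · rw [pg_card_comap_mk, mul_comm]
    refine Nat.mul_le_mul_right _ ?_
    have h7 := cnt' (hC k.r3)
    have h8 : Nat.card ↥(Q.map (QuotientGroup.mk' F) ⊓ C1[QuotientGroup.mk' F r]) < 2 ^ 4 :=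
      (pg_card_lt_of_lt (inf_lt_left.2 fun h' => by
        obtain ⟨x, hx, e'⟩ := h.rV
        exact e' ((u r x hx).1 (mem_inf.2 ⟨mem_map_of_mem _ hx, h' (mem_map_of_mem _ hx)⟩)))).trans_eq h3
    obtain ⟨m, hm⟩ := IsPGroup.iff_card.1 (k.pQ.to_inf_left (K := C1[QuotientGroup.mk' F r]))
    rw [hm] at h7 h8 ⊢
    rw [h3] at h7
    have := (Nat.pow_lt_pow_iff_right one_lt_two).1 h8
    interval_cases m <;> first | omega | exact absurd h7 (by decide)

theorem surj {y : X} (hy : y ∈ Q) : ∃ x ∈ Q, ∃ f ∈ F, y = f * (s * x * s⁻¹ * x⁻¹) := by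
  haveI := h.nF
  let φ : Q.map (QuotientGroup.mk' F) → Q.map (QuotientGroup.mk' F) := fun x =>
    ⟨QuotientGroup.mk' F s * x * (QuotientGroup.mk' F s)⁻¹ * x⁻¹,
      mul_mem ((h.quot F le_rfl).nQ.conj_mem _ x.2 _) (inv_mem x.2)⟩
  have : Injective φ := by
    rintro ⟨_, x, hx, rfl⟩ ⟨_, y, hy, rfl⟩ e
    have e : (s * x * s⁻¹ * x⁻¹)⁻¹ * (s * y * s⁻¹ * y⁻¹) ∈ F := QuotientGroup.eq.1 (congrArg Subtype.val e)
    refine Subtype.ext (QuotientGroup.eq.2 (h.top.2.1 _ (mul_mem (inv_mem hx) hy) ?_))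
    convert h.nF.conj_mem _ e x⁻¹ using 1
    group
  obtain ⟨⟨_, x, hx, rfl⟩, e⟩ := Finite.surjective_of_injective this ⟨_, mem_map_of_mem _ hy⟩
  have e : y * (s * x * s⁻¹ * x⁻¹)⁻¹ ∈ F :=
    div_eq_mul_inv y _ ▸ QuotientGroup.eq_iff_div_mem.1 (congrArg Subtype.val e).symm
  exact ⟨x, hx, _, e, by group⟩

theorem cen (hc : ∀ f ∈ F, ∀ g ∈ F, f * g = g * f) (hs : F ≤ C1[s]) : F ≤ center X := by
  haveI := h.nF
  have : C[F] = ⊤ := h.gen _ inferInstance (fun y hy f hf => by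
    obtain ⟨x, hx, g, hg, rfl⟩ := h.surj hy
    have e1 : _ = s * _ := hs (h.nF.conj_mem f hf x⁻¹) s rfl |>.symm
    have e2 : _ = s * _ := hs hf s rfl |>.symm
    calc f * (g * (s * x * s⁻¹ * x⁻¹)) = g * (s * x * s⁻¹ * x⁻¹) * (x * s * (x⁻¹ * (s⁻¹ * (f * s)) * x⁻¹⁻¹) *
          s⁻¹ * x⁻¹) := by rw [← mul_assoc, hc f hf g hg]; group
      _ = _ := by rw [e2, inv_mul_cancel_left, mul_assoc x s, ← e1]; group) fun f hf => (hs hf s rfl).symm
  exact fun f hf => mem_center_iff.2 fun g => ((this.ge (mem_top g)) f hf).symm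

theorem sq_mul (hZ : F ≤ center X) {x y : X} (hx : x ∈ Q) (hy : y ∈ Q) :
    x * y * (x * y) = y * x * y⁻¹ * x⁻¹ * (x * x) * (y * y) ∧
      y * x * y⁻¹ * x⁻¹ * (y * x * y⁻¹ * x⁻¹) = 1 := by
  have c := mem_center_iff.1 (hZ (h.comm hy hx))
  refine ⟨?_, ?_⟩
  · calc x * y * (x * y) = x * (y * x * y⁻¹ * x⁻¹) * (x * (y * y)) := by group
      _ = _ := by rw [c]; group
  · calc _ = y * x * y⁻¹ * x⁻¹ * (y * x * y⁻¹ * x⁻¹ * x) * x * x⁻¹ * x⁻¹ := by group
      _ = y * (x * x) * y⁻¹ * x⁻¹ * x⁻¹ := by rw [← c x]; group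
      _ = 1 := by rw [mem_center_iff.1 (hZ (h.sq_mem hx))]; group

theorem ne_four : Nat.card F ≠ 4 := fun h4 => by
  haveI := h.nF
  haveI : Fact (Nat.Prime 5) := ⟨by norm_num⟩
  haveI : Fact (Nat.Prime 3) := ⟨by norm_num⟩
  have hZ : F ≤ center X := by
    haveI := IsPGroup.isMulCommutative_of_card_eq_prime_sq (p := 2) h4
    refine h.cen (fun f hf g hg => setLike_mul_comm hf hg) (inf_eq_left.1 (eq_of_le_of_card_ge inf_le_left ?_))
    have h1 := cnt' (W := F) (p := 5) (g := s) (h.s5 ▸ one_mem _)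
    have h2 := card_le_of_le (inf_le_left : F ⊓ C1[s] ≤ F)
    unfold Nat.ModEq at h1
    omega
  have c := fun f hf => mem_center_iff.1 (hZ (x := f) hf)
  have h2 : ∀ f ∈ F, f * f = 1 := by
    let K : Subgroup X :=
      { carrier := {x | x ∈ F ∧ x * x = 1}
        one_mem' := ⟨one_mem _, mul_one _⟩
        mul_mem' := fun {x y} hx hy => ⟨mul_mem hx.1 hy.1, by
          rw [(show Commute x y from c y hy.1 x).symm.mul_mul_mul_comm, hx.2, hy.2, mul_one]⟩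
        inv_mem' := fun {x} hx => ⟨inv_mem hx.1, by rw [← mul_inv_rev, hx.2, inv_one]⟩ }
    refine fun f hf => (h.le (K := K) (fun y hy => ⟨h.sq_mem hy, ?_⟩) hf).2
    obtain ⟨x, hx, g, hg, rfl⟩ := h.surj hy
    obtain ⟨e1, e2⟩ := h.sq_mul hZ (h.nQ.conj_mem x hx s) (inv_mem hx)
    have e3 : g ^ 4 = 1 := by simpa [h4] using congrArg Subtype.val (pow_card_eq_one' (x := (⟨g, hg⟩ : F)))
    rw [conj_mul, c _ (h.sq_mem hx) s, mul_inv_cancel_right, mul_assoc _ (x * x), ← mul_inv_rev,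
      mul_inv_cancel, mul_one] at e1
    rw [(show Commute _ _ from c g hg _).mul_mul_mul_comm, e1,
      (show Commute _ _ from c _ (mul_mem hg hg) _).mul_mul_mul_comm, e2, mul_one, ← e3]
    simp only [pow_succ, pow_zero, one_mul, mul_assoc]
  have z2 : ∀ f ∈ F, f ≠ 1 → Nat.card (zpowers f) = 2 := fun f hf h1 => by
    rw [Nat.card_zpowers, h9_orderOf_eq_two_iff.2 ⟨h1, h2 f hf⟩]
  obtain ⟨x, hx, x1⟩ : ∃ x ∈ Q, x * x ≠ 1 := by
    by_contra! h'
    have := card_le_of_le (h.le (K := ⊥) h')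
    rw [card_bot] at this; omega
  obtain ⟨y, hy, y1⟩ : ∃ y ∈ Q, y * y ∉ zpowers (x * x) := by
    by_contra! h'
    have := card_le_of_le (h.le h')
    rw [z2 _ (h.sq_mem hx) x1] at this; omega
  have xy : x * x * (y * y) ≠ 1 := fun e => y1 (inv_eq_of_mul_eq_one_right e ▸ inv_mem (mem_zpowers _))
  have hK := mul_mem (h.sq_mem hx) (h.sq_mem hy)
  obtain ⟨w, hw, w0, w1⟩ := aniso (K := zpowers (x * x * (y * y))) h.FQ (fun _ hx _ hy => h.comm hx hy)
    (fun f hf g _ => c f hf g) (fun _ => h.sq_mem) (fun f hf g hg h1 h3 => by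
      have := pg_card_eq_relIndex_mul_card (zpowers_le.2 hK)
      rw [z2 _ hK xy] at this
      exact (mul_mem_iff_of_index_two (H := (zpowers (x * x * (y * y))).subgroupOf F) (by
        change relIndex _ _ = 2; omega) (a := ⟨f, hf⟩) (b := ⟨g, hg⟩)).2 (iff_of_false h1 h3))
    (by have := h.top.1; omega)
  have y0 : y * y ≠ 1 := fun e => y1 (e ▸ one_mem _)
  have w2 := pg_mem_zpowers_order_two (by rw [sq, h2 _ hK]) w1
  have k := h.quot F le_rfl
  rw [(map_eq_bot_iff F).2 (by simp)] at k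
  obtain ⟨k1, k2, -, -, U, -, k3, k4⟩ := k.top
  let T : X → Set (X ⧸ F) := fun d => QuotientGroup.mk' F '' {g | g ∈ Q ∧ g ∉ F ∧ g * g = d}
  have T1 : ∀ d, T d ⊆ (Q.map (QuotientGroup.mk' F) : Set (X ⧸ F)) \ {1} := by
    rintro d _ ⟨g, hg, rfl⟩
    exact ⟨mem_map_of_mem _ hg.1, fun e => hg.2.1 ((QuotientGroup.eq_one_iff g).1 e)⟩
  have T2 : ∀ d e, d ≠ e → Disjoint (T d) (T e) := fun d e de => Set.disjoint_left.2 (by
    rintro _ ⟨g, hg, rfl⟩ ⟨g', hg', e'⟩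
    have e1 := QuotientGroup.eq.1 e'
    refine de ?_
    rw [← hg.2.2, ← hg'.2.2, ← mul_inv_cancel_left g' g,
      (show Commute _ _ from c _ e1 _).symm.mul_mul_mul_comm, h2 _ e1, mul_one])
  have T3 : ∀ d ∈ F, ∀ (t : X), ∀ v ∈ T d, QuotientGroup.mk' F t * v * (QuotientGroup.mk' F t)⁻¹ ∈ T d := by
    rintro d hd t _ ⟨g, hg, rfl⟩
    exact ⟨t * g * t⁻¹, ⟨h.nQ.conj_mem g hg.1 t, fun e => hg.2.1
      (by simpa [mul_assoc] using h.nF.conj_mem _ e t⁻¹),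
      by rw [conj_mul, hg.2.2, c d hd, mul_inv_cancel_right]⟩, rfl⟩
  have U3 : ∀ {W : Subgroup (X ⧸ F)} {A B C : Set (X ⧸ F)}, A ⊆ T (x * x) → B ⊆ T (y * y) →
      C ⊆ T (w * w) → A ∪ B ∪ C ⊆ W → A.ncard + B.ncard + C.ncard + 1 ≤ Nat.card W := by
    intro W A B C h1 h3 h5 h6
    have xy' : x * x ≠ y * y := fun e => y1 (e ▸ mem_zpowers _)
    have xw : x * x ≠ w * w := fun e => w2.elim (fun e' => x1 (e.trans e')) fun e' => y0 (by simpa [← e] using e')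
    have yw : y * y ≠ w * w := fun e => w2.elim (fun e' => y0 (e.trans e')) fun e' => x1 (by simpa [← e] using e')
    rw [← Set.ncard_union_eq ((T2 _ _ xy').mono h1 h3), ← Set.ncard_union_eq (Set.disjoint_union_left.2
      ⟨(T2 _ _ xw).mono h1 h5, (T2 _ _ yw).mono h3 h5⟩), ← Set.ncard_insert_of_notMem (a := 1) (by
        rintro ((e | e) | e)
        exacts [(T1 _ (h1 e)).2 rfl, (T1 _ (h3 e)).2 rfl, (T1 _ (h5 e)).2 rfl])]
    exact Set.ncard_le_ncard (Set.insert_subset W.one_mem h6)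
  have T4 : ∀ g ∈ Q, g ∉ F → (T (g * g)).ncard % 5 = 0 ∧ 0 < (T (g * g)).ncard ∧ (T (g * g)).ncard % 3 =
      {v ∈ T (g * g) | QuotientGroup.mk' F r * v = v * QuotientGroup.mk' F r}.ncard % 3 := fun g hg g0 => by
    refine ⟨?_, (Set.ncard_pos).2 ⟨_, g, ⟨hg, g0, rfl⟩, rfl⟩, cnt (fun v hv => comm_of_sq (fun _ => k.sq_mem) _
      k.r3 _ (T1 _ hv).1) (T3 _ (h.sq_mem hg) r)⟩
    have := cnt (p := 5) (fun v _ => by rw [k.s5, one_mul, mul_one]) (T3 _ (h.sq_mem hg) s)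
    rwa [Set.eq_empty_of_forall_notMem (s := {v ∈ T (g * g) | _}) fun v hv =>
      (T1 _ hv.1).2 (k2 v (T1 _ hv.1).1 (by rw [hv.2]; simp)), Set.ncard_empty] at this
  have a1 := T4 x hx fun e => x1 (h2 x e)
  have a2 := T4 y hy fun e => y0 (h2 y e)
  have a3 := T4 w hw w0
  have a4 := U3 (W := Q.map (QuotientGroup.mk' F)) le_rfl le_rfl le_rfl (by
    rintro v ((e | e) | e) <;> exact (T1 _ e).1)
  have a5 := U3 (W := U) (Set.sep_subset _ fun v => QuotientGroup.mk' F r * v = v * QuotientGroup.mk' F r)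
    (Set.sep_subset _ fun v => QuotientGroup.mk' F r * v = v * QuotientGroup.mk' F r)
    (Set.sep_subset _ fun v => QuotientGroup.mk' F r * v = v * QuotientGroup.mk' F r) (by
    rintro v ((e | e) | e) <;> exact (k4 v (T1 _ e.1).1).2 (by rw [e.2]; simp))
  rw [card_bot] at k1 k3
  have e1 : (T (x * x)).ncard = 5 ∧ (T (y * y)).ncard = 5 ∧ (T (w * w)).ncard = 5 := by omega
  rw [e1.1] at a1
  rw [e1.2.1] at a2
  rw [e1.2.2] at a3
  omega

theorem case2 (hC : F ≤ C[Q]) (h2 : ∀ f ∈ F, f * f = 1) (h16 : Nat.card F = 16)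
    (h4 : Nat.card ↥(F ⊓ C1[a]) = 4) : False := by
  obtain ⟨-, -, ⟨U, UQ, cU, mU⟩, k, -⟩ := h.top
  obtain ⟨x, hx, e⟩ := k _ h.a2 (by simp [mul_assoc])
  obtain ⟨y, hy⟩ : ∃ y, y = x⁻¹ * a := ⟨_, rfl⟩
  have c : ∀ f ∈ F, ∀ g ∈ Q, g * f = f * g := fun f hf g hg => hC hf g hg
  have y2 : y * y ∈ F := by
    convert mul_mem (h.comm (inv_mem hx) (inv_mem (h.nQ.conj_mem x hx a))) e using 1
    rw [hy]; group
  have yc : ∀ f ∈ F, y * f * y⁻¹ = a * f * a⁻¹ := fun f hf => by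
    rw [hy, mul_assoc x⁻¹, mul_inv_rev, ← mul_assoc, mul_assoc x⁻¹, c _ (h.nF.conj_mem f hf a) _ (inv_mem hx)]
    group
  have mD : ∀ f ∈ F, y * f * y⁻¹ = f → f ∈ F ⊓ C1[a] := fun f hf e =>
    ⟨hf, mem_centralizer_singleton_iff.2 (mul_inv_eq_iff_eq_mul.1 ((yc f hf).symm.trans e)).symm⟩
  have mU' : ∀ u ∈ U, y * u * y⁻¹ * u⁻¹ ∈ F := fun u hu => by
    convert mul_mem (h.comm (inv_mem hx) (h.nQ.conj_mem u (UQ hu) a)) ((mU u (UQ hu)).1 hu) using 1
    rw [hy]; group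
  have FU : F ≤ U := fun f hf => (mU f (h.FQ hf)).2 (mul_mem (h.nF.conj_mem f hf a) (inv_mem hf))
  have yU : y ∈ N[U] := pg_mem_normalizer_of_conj_mem fun u hu => by simpa using mul_mem (FU (mU' u hu)) hu
  have y0 : y ∉ U := fun e => by
    have := card_le_of_le fun f hf => mD f hf (by rw [c f hf y (UQ e), mul_inv_cancel_right])
    omega
  have sq : ∀ u ∈ U, u * u ∈ F ⊓ C1[a] := fun u hu => mD _ (h.sq_mem (UQ hu)) (by
    rw [← conj_mul, ← inv_mul_cancel_right (y * u * y⁻¹) u,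
      (show Commute _ _ from c _ (mU' u hu) u (UQ hu)).mul_mul_mul_comm, h2 _ (mU' u hu), one_mul])
  have := h.R (zpowers y ⊔ U) (F ⊓ C1[a]) (inf_le_left.trans (FU.trans le_sup_right)) (fun g hg =>
    pg_mem_normalizer_of_conj_mem fun f hf => by
      rcases two_ext yU (FU y2) hg with hg | ⟨u, hu, rfl⟩
      · rwa [c f hf.1 g (UQ hg), mul_inv_cancel_right]
      · rwa [mul_inv_rev, mul_assoc u, ← mul_assoc, mul_assoc u, yc f hf.1,
          ← mem_centralizer_singleton_iff.1 hf.2, mul_inv_cancel_right, c f hf.1 u (UQ hu),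
          mul_inv_cancel_right]) fun g hg => by
    rcases two_ext yU (FU y2) hg with hg | ⟨u, hu, rfl⟩
    · exact sq g hg
    · have m := mU' u hu
      rw [show u * y * (u * y) = u * (y * u * y⁻¹ * u⁻¹) * u * (y * y) by group, c _ m u (UQ hu),
        mul_assoc _ u u]
      refine mul_mem (mul_mem (mD _ m ?_) (sq u hu)) (mD _ y2 (by group))
      calc _ = y * y * u * (y * y)⁻¹ * u⁻¹ * (y * u * y⁻¹ * u⁻¹)⁻¹ := by group
        _ = _ := by rw [← c _ y2 u (UQ hu), inv_eq_of_mul_eq_one_right (h2 _ m)]; group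
  rw [pg_card_zpowers_sup (p := 2) yU y0 (by rw [_root_.sq]; exact FU y2)] at this
  omega

theorem extra (hF : Nat.card F = 2) : Nat.card Q = 32 ∧ ∃ A B : Subgroup Q, Nonempty (A ≃* QuaternionGroup 2) ∧
    Nonempty (B ≃* DihedralGroup 4) ∧ (∀ a ∈ A, ∀ b ∈ B, a * b = b * a) ∧ A ⊔ B = ⊤ ∧ A ⊓ B = center Q := by
  haveI := h.nF
  haveI := h.nQ
  haveI : Fact (Nat.Prime 5) := ⟨by norm_num⟩
  obtain ⟨k1, k2, -⟩ := h.top
  rw [hF] at k1
  obtain ⟨⟨z, hz⟩, z1, zu⟩ := (Nat.card_eq_two_iff' (1 : F)).1 hF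
  have mF : ∀ f ∈ F, f = 1 ∨ f = z := fun f hf => or_iff_not_imp_left.2 fun e =>
    congrArg Subtype.val (zu ⟨f, hf⟩ fun e' => e (congrArg Subtype.val e'))
  replace z1 : z ≠ 1 := fun e => z1 (Subtype.ext e)
  have zc : ∀ g, g * z = z * g := fun g => mul_inv_eq_iff_eq_mul.1 ((mF _ (h.nF.conj_mem z hz g)).resolve_left
    (by simpa using z1))
  have hZ : F ≤ center X := fun f hf => mem_center_iff.2 fun g => by rcases mF f hf with rfl | rfl <;> simp [zc]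
  have z2 : z * z = 1 := (mF _ (mul_mem hz hz)).resolve_right (by simpa using z1)
  have nc : ∀ x ∈ Q, ∀ y ∈ Q, x * y ≠ y * x → x * y = z * (y * x) := fun x hx y hy e => by
    rw [← (mF _ (h.comm hx hy)).resolve_left (mt commutatorElement_eq_one_iff_mul_comm.1 e)]; group
  have ZF : ∀ x ∈ Q, (∀ y ∈ Q, y * x = x * y) → x ∈ F := by
    have h1 := cnt' (W := Q ⊓ C[Q]) (p := 5) (g := s) (h.s5 ▸ one_mem _)
    have h2 : Q ⊓ C[Q] ⊓ C1[s] = F := le_antisymm (fun x hx => k2 x hx.1.1 (by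
      rw [← mem_centralizer_singleton_iff.1 hx.2]; simp)) fun f hf => ⟨⟨h.FQ hf, center_le_centralizer _ (hZ hf)⟩,
        center_le_centralizer _ (hZ hf)⟩
    have h3 : Nat.card ↥(Q ⊓ C[Q]) < 2 ^ 5 := (pg_card_lt_of_lt (inf_lt_left.2 fun e => ?_)).trans_eq k1
    · obtain ⟨m, hm⟩ := IsPGroup.iff_card.1 (h.pQ.to_inf_left (K := C[Q]))
      have h4 : F = Q ⊓ C[Q] := eq_of_le_of_card_ge (h2 ▸ inf_le_left) (by
        rw [h2, hF, hm] at h1
        rw [hm] at h3 ⊢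
        have := (Nat.pow_lt_pow_iff_right one_lt_two).1 h3
        interval_cases m <;> first | omega | exact absurd h1 (by decide))
      exact fun x hx e => h4 ▸ ⟨hx, e⟩
    refine z1 (h.le (K := ⊥) (fun y hy => ?_) hz)
    obtain ⟨x, hx, g, hg, rfl⟩ := h.surj hy
    have hx' := h.nQ.conj_mem x hx s
    rw [(show Commute _ _ from e (h.FQ hg) _ (mul_mem hx' (inv_mem hx))).mul_mul_mul_comm,
      (show Commute _ _ from e hx' _ (inv_mem hx)).mul_mul_mul_comm, conj_mul,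
      mem_center_iff.1 (hZ (h.sq_mem hx)) s]
    rcases mF g hg with rfl | rfl <;> simp [z2, mul_assoc]
  obtain ⟨x, hx, x0, x2⟩ := aniso (K := ⊥) h.FQ (fun _ hx _ hy => h.comm hx hy)
    (hZ.trans (center_le_centralizer _)) (fun _ => h.sq_mem) (fun f hf g hg h1 h2 => by
      rw [(mF f hf).resolve_left h1, (mF g hg).resolve_left h2]; exact z2) (by omega)
  rw [mem_bot] at x2
  obtain ⟨y, hy, xy, y2⟩ : ∃ y ∈ Q, y * x ≠ x * y ∧ y * y = 1 := by
    obtain ⟨y, hy, e⟩ : ∃ y ∈ Q, y * x ≠ x * y := by by_contra! e; exact x0 (ZF x hx e)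
    rcases mF _ (h.sq_mem hy) with e' | e'
    · exact ⟨y, hy, e, e'⟩
    · refine ⟨x * y, mul_mem hx hy, by rwa [mul_assoc, Ne, mul_right_inj], ?_⟩
      rw [mul_assoc, ← mul_assoc y, nc y hy x hx e, mul_assoc, mul_assoc, e', ← zc, mul_assoc, z2, mul_one, x2]
  have yx := nc y hy x hx xy
  have xy2 : x * y * (x * y) = z := by
    rw [mul_assoc, ← mul_assoc y, yx, mul_assoc, mul_assoc, y2, mul_one, ← zc, ← mul_assoc, x2, one_mul]
  obtain ⟨A, mA⟩ : ∃ A : Subgroup X, ∀ g, g ∈ A ↔ g ∈ Q ∧ g * x = x * g ∧ g * y = y * g :=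
    ⟨Q ⊓ (C1[x] ⊓ C1[y]), fun g => by simp [mem_centralizer_singleton_iff]⟩
  have dec : ∀ g ∈ Q, g ∈ A ∨ x * g ∈ A ∨ y * g ∈ A ∨ x * y * g ∈ A := fun g hg => by
    simp only [mA, mul_mem, hx, hy, hg, true_and]
    by_cases e1 : g * x = x * g <;> by_cases e2 : g * y = y * g
    · exact .inl ⟨e1, e2⟩
    · refine .inr (.inl ⟨by rw [mul_assoc, e1], ?_⟩)
      rw [mul_assoc, nc g hg y hy e2, ← mul_assoc y, yx, ← mul_assoc, zc x]; group
    · refine .inr (.inr (.inl ⟨?_, by rw [mul_assoc, e2]⟩))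
      rw [mul_assoc, nc g hg x hx e1, ← mul_assoc y, zc y, mul_assoc z, ← mul_assoc y, yx, ← mul_assoc,
        ← mul_assoc, ← mul_assoc, z2]; group
    · refine .inr (.inr (.inr ⟨?_, ?_⟩))
      · rw [mul_assoc, nc g hg x hx e1, mul_assoc x, ← mul_assoc y, zc y, mul_assoc z, ← mul_assoc y, yx,
          ← mul_assoc z, ← mul_assoc z, z2]; group
      · rw [mul_assoc, nc g hg y hy e2, ← mul_assoc y, ← mul_assoc y, yx, ← mul_assoc (x * y), zc]; group
  have xi := inv_eq_of_mul_eq_one_right x2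
  have yi := inv_eq_of_mul_eq_one_right y2
  have AQ : A ≤ Q := fun g hg => ((mA g).1 hg).1
  have AC : A ≤ Q ⊓ C1[x] := fun g hg => ⟨AQ hg, mem_centralizer_singleton_iff.2 ((mA g).1 hg).2.1⟩
  have xC : x ∈ Q ⊓ C1[x] := ⟨hx, mem_centralizer_singleton_iff.2 rfl⟩
  have yC : y ∉ Q ⊓ C1[x] := fun e => xy (mem_centralizer_singleton_iff.1 e.2)
  have key : ∀ P : X → Prop, {g | g ∈ Q ∧ P g}.ncard = {g | g ∈ A ∧ P g}.ncard + {g | g ∈ A ∧ P (x * g)}.ncard +
      ({g | g ∈ A ∧ P (y * g)}.ncard + {g | g ∈ A ∧ P (y * (x * g))}.ncard) := fun P => by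
    have d : ∀ g ∈ Q ⊓ C1[x], g ∉ A → x⁻¹ * g ∈ A := fun g hg e => by
      rcases dec g hg.1 with e' | e' | e' | e'
      exacts [absurd e' e, xi.symm ▸ e', absurd ((mul_mem_cancel_right hg).1 (AC e')) yC,
        absurd ((mul_mem_cancel_left xC).1 ((mul_mem_cancel_right hg).1 (AC e'))) yC]
    have x1 : x ∉ A := fun e => xy ((mA x).1 e).2.2.symm
    rw [split inf_le_left hy yC (fun g hg e => by
      rcases dec g hg with e' | e' | e' | e'
      exacts [absurd (AC e') e, absurd ((mul_mem_cancel_left xC).1 (AC e')) e, yi.symm ▸ AC e',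
        yi.symm ▸ (mul_mem_cancel_left xC).1 (mul_assoc x y g ▸ AC e')]) P, split AC xC x1 d, split AC xC x1 d]
  have cA : Nat.card A = 8 := by
    have := key fun _ => True
    simp only [and_true] at this
    change Nat.card Q = Nat.card A + Nat.card A + (Nat.card A + Nat.card A) at this
    omega
  have FA : F ≤ A := fun f hf => (mA f).2 ⟨h.FQ hf, (mem_center_iff.1 (hZ hf) _).symm, (mem_center_iff.1 (hZ hf) _).symm⟩
  have A4 : ∀ g ∈ A, g ∉ F → g * g = z := by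
    have k := key fun g => g * g = z
    have e : ∀ t, (∀ g ∈ A, g * t = t * g) → ∀ c, {g | g ∈ A ∧ t * g * (t * g) = t * t * c} =
        {g | g ∈ A ∧ g * g = c} := fun t ht c => Set.ext fun g => and_congr_right fun hg => by
      rw [(show Commute _ _ from ht g hg).mul_mul_mul_comm, mul_right_inj]
    have e1 := e x (fun g hg => ((mA g).1 hg).2.1) z
    have e2 := e y (fun g hg => ((mA g).1 hg).2.2) z
    have e3 := e (y * x) (fun g hg => (show Commute g y from ((mA g).1 hg).2.2).mul_right ((mA g).1 hg).2.1) 1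
    rw [x2, one_mul] at e1
    rw [y2, one_mul] at e2
    rw [yx, (show Commute _ _ from zc _).mul_mul_mul_comm, z2, xy2, one_mul, mul_one, ← yx] at e3
    simp only [← mul_assoc y x, e1, e2, e3] at k
    have e4 := cnt (p := 5) (g := s) (S := {g | g ∈ Q ∧ g * g = z}) (fun v _ => by rw [h.s5, one_mul, mul_one])
      fun g hg => ⟨h.nQ.conj_mem g hg.1 s, by rw [conj_mul, hg.2, zc, mul_inv_cancel_right]⟩
    rw [Set.eq_empty_of_forall_notMem (s := {v ∈ _ | s * v = v * s}) fun v hv => by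
      rcases mF v (k2 v hv.1.1 (by rw [hv.2]; simp)) with rfl | rfl
      exacts [z1 (by simpa using hv.1.2.symm), z1 (hv.1.2.symm.trans z2)], Set.ncard_empty, k] at e4
    have e5 : {g | g ∈ A ∧ g * g = z}.ncard + {g | g ∈ A ∧ g * g = 1}.ncard = 8 := by
      rw [← Set.ncard_union_eq (Set.disjoint_left.2 fun g h1 h2 => z1 (h1.2.symm.trans h2.2)), ← cA]
      exact congrArg _ (Set.ext fun g => ⟨fun e => e.elim And.left And.left, fun e =>
        (mF _ (h.sq_mem (AQ e))).symm.imp (⟨e, ·⟩) (⟨e, ·⟩)⟩)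
    have e6 : (F : Set X) ⊆ {g | g ∈ A ∧ g * g = 1} := fun f hf => ⟨FA hf, by
      rcases mF f hf with rfl | rfl <;> simp [z2]⟩
    have e7 : Nat.card F ≤ _ := Set.ncard_le_ncard e6
    have e9 : {g | g ∈ A ∧ g * g = z}.ncard ≠ 1 := fun e => by
      obtain ⟨g, e⟩ := Set.ncard_eq_one.1 e
      have : g ∈ {g | g ∈ A ∧ g * g = z} := e ▸ rfl
      have : z * g = g := e.le ⟨mul_mem (FA hz) this.1, by
        rw [(show Commute _ _ from zc _).mul_mul_mul_comm, z2, one_mul, this.2]⟩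
      exact z1 (by simpa using this)
    intro g hg g0
    exact (mF _ (h.sq_mem (AQ hg))).resolve_left fun e' => g0 ((Set.eq_of_subset_of_ncard_le e6 (by
      change _ ≤ Nat.card F
      unfold Nat.ModEq at e4
      omega)).ge ⟨hg, e'⟩)
  have ex : ∀ H : Subgroup X, Nat.card H < 8 → ∃ x ∈ A, x ∉ H := fun H h => by
    by_contra! h'; exact h.not_ge (cA ▸ card_le_of_le h')
  have o4 : ∀ g, g * g = z → orderOf g = 4 := fun g e => orderOf_eq_prime_pow (p := 2) (n := 1)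
    (by rwa [pow_one, sq, e]) (by rw [show 2 ^ (1 + 1) = 2 * 2 from rfl, pow_mul, sq, sq, e, z2])
  have Fz : ∀ g, g * g = z → F ≤ zpowers g := fun g e f hf => by
    rcases mF f hf with rfl | rfl
    exacts [one_mem _, e ▸ mul_mem (mem_zpowers g) (mem_zpowers g)]
  obtain ⟨u, hu, u0⟩ := ex F (by omega)
  have u2 := A4 u hu u0
  obtain ⟨v, hv, v0⟩ := ex (zpowers u) (by rw [Nat.card_zpowers, o4 u u2]; norm_num)
  have v2 := A4 v hv fun e => v0 (Fz u u2 e)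
  have uv := A4 _ (mul_mem hu hv) fun e => v0 ((mul_mem_cancel_left (mem_zpowers u)).1 (Fz u u2 e))
  obtain ⟨iA⟩ := pg_nonempty_mulEquiv_quaternion (G := A) (n := 2) (a := ⟨u, hu⟩) (b := ⟨v, hv⟩)
    ((orderOf_mk _ _).trans (o4 u u2)) cA (fun ⟨k, e⟩ => v0 ⟨k, congrArg Subtype.val e⟩)
    (Subtype.ext (by simp [sq, u2, v2])) (Subtype.ext (by
      change v * u * v⁻¹ = u⁻¹
      calc _ = u⁻¹ * (u * v * (u * v)) * (v * v)⁻¹ := by group
        _ = _ := by rw [uv, v2, mul_inv_cancel_right]))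
  obtain ⟨B, hB⟩ : ∃ B, B = zpowers x ⊔ zpowers (x * y) := ⟨_, rfl⟩
  have xB : x ∈ B := hB ▸ mem_sup_left (mem_zpowers _)
  have wB : x * y ∈ B := hB ▸ mem_sup_right (mem_zpowers _)
  have xw : x * (x * y) * x⁻¹ = (x * y)⁻¹ := by rw [← mul_assoc, x2, one_mul, mul_inv_rev, yi]
  have xN : x ∈ N[zpowers (x * y)] := pg_mem_normalizer_of_conj_mem (by
    rintro _ ⟨k, rfl⟩
    rw [← conj_zpow, xw]
    exact zpow_mem (inv_mem (mem_zpowers _)) k)
  have x1 : x ∉ zpowers (x * y) := fun ⟨k, e⟩ => xy (by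
    have := (Commute.refl (x * y)).zpow_right k
    rw [show (x * y) ^ k = x from e] at this
    simpa [mul_assoc] using this.eq)
  have cB : Nat.card B = 2 * 4 := by
    rw [hB, pg_card_zpowers_sup (p := 2) xN x1 (by rw [sq, x2]; exact one_mem _), Nat.card_zpowers, o4 _ xy2]
  obtain ⟨iB⟩ := pg_nonempty_mulEquiv_dihedral (G := B) (n := 4) (a := ⟨x * y, wB⟩) (b := ⟨x, xB⟩)
    ((orderOf_mk _ _).trans (o4 _ xy2)) cB (fun ⟨k, e⟩ => x1 ⟨k, congrArg Subtype.val e⟩)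
    (Subtype.ext (by simp [sq, x2])) (Subtype.ext xw)
  have BQ : B ≤ Q := hB ▸ sup_le (zpowers_le.2 hx) (zpowers_le.2 (mul_mem hx hy))
  have AB : ∀ g ∈ A, B ≤ C1[g] := fun g hg => hB ▸ sup_le
    (zpowers_le.2 (mem_centralizer_singleton_iff.2 ((mA g).1 hg).2.1.symm)) (zpowers_le.2 (mul_mem
      (mem_centralizer_singleton_iff.2 ((mA g).1 hg).2.1.symm) (mem_centralizer_singleton_iff.2 ((mA g).1 hg).2.2.symm)))
  have T : ∀ g ∈ Q, g ∈ A ⊔ B := fun g hg => by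
    have yB : y ∈ B := (mul_mem_cancel_left xB).1 wB
    rcases dec g hg with e | e | e | e
    exacts [mem_sup_left e, (mul_mem_cancel_left (mem_sup_right xB)).1 (mem_sup_left e),
      (mul_mem_cancel_left (mem_sup_right yB)).1 (mem_sup_left e),
      (mul_mem_cancel_left (mem_sup_right wB)).1 (mem_sup_left e)]
  refine ⟨k1, A.subgroupOf Q, B.subgroupOf Q, ⟨(subgroupOfEquivOfLe AQ).trans iA⟩,
    ⟨(subgroupOfEquivOfLe BQ).trans iB⟩, fun g hg w hw => Subtype.ext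
      (mem_centralizer_singleton_iff.1 (AB g hg hw)).symm, ?_, le_antisymm (fun g hg => ?_) fun g hg => ?_⟩
  · rw [← subgroupOf_sup AQ BQ, subgroupOf_eq_top]; exact T
  · refine mem_center_iff.2 fun w => Subtype.ext (mem_centralizer_singleton_iff.1 ((sup_le (fun t ht => ?_)
      (AB g hg.1) : A ⊔ B ≤ C1[g.1]) (T w w.2)))
    exact mem_centralizer_singleton_iff.2 (mem_centralizer_singleton_iff.1 (AB t ht hg.2)).symm
  · have := ZF g g.2 fun w hw => congrArg Subtype.val (mem_center_iff.1 hg ⟨w, hw⟩)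
    exact ⟨FA this, (hB ▸ le_sup_right : zpowers (x * y) ≤ B) (Fz _ xy2 this)⟩

end Hyp

theorem card_le (n : ℕ) : ∀ (X : Type u) [Group X] [Finite X] (Q F : Subgroup X) (s a r : X),
    Nat.card X ≤ n → Hyp Q F s a r → Nat.card F ≤ 2 := by
  induction n with
  | zero => intro X _ _ Q F s a r h; exact absurd h (not_le.2 Nat.card_pos)
  | succ n ih =>
    intro X _ _ Q F s a r hn h
    haveI : Fact (Nat.Prime 5) := ⟨by norm_num⟩
    haveI := h.nQ
    haveI := h.nF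
    rcases eq_or_ne F ⊥ with rfl | hF
    · simp
    obtain ⟨K, ⟨nK, KF, K0⟩, hm⟩ := exists_minimal_of_wellFoundedLT
      (fun K : Subgroup X => K.Normal ∧ K ≤ F ∧ K ≠ ⊥) ⟨F, h.nF, le_rfl, hF⟩
    have pK := h.pQ.to_le (KF.trans h.FQ)
    have hC : K ≤ C[Q] := (hm ⟨inferInstance, inf_le_left.trans KF, pg_inf_centralizer_ne_bot pK h.pQ
      le_normalizer_of_normal K0⟩ inf_le_left).trans inf_le_right
    obtain ⟨z, hz, z2, -⟩ := pg_exists_fixed_of_order_p pK h.pQ le_normalizer_of_normal K0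
    have h2 : ∀ x ∈ K, x * x = 1 := by
      let K' : Subgroup X :=
        { carrier := {x | x ∈ K ∧ x * x = 1}
          one_mem' := ⟨one_mem _, mul_one _⟩
          mul_mem' := fun {x y} hx hy => ⟨mul_mem hx.1 hy.1, by
            rw [(show Commute x y from hC hy.1 x (h.FQ (KF hx.1))).symm.mul_mul_mul_comm, hx.2, hy.2, mul_one]⟩
          inv_mem' := fun {x} hx => ⟨inv_mem hx.1, by rw [← mul_inv_rev, hx.2, inv_one]⟩ }
      exact fun x hx => (hm (y := K') ⟨⟨fun x hx g => ⟨nK.conj_mem x hx.1 g, by rw [conj_mul, hx.2]; simp⟩⟩,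
        fun x hx => KF hx.1, fun e => (h9_orderOf_eq_two_iff.1 z2).1 (mem_bot.1
          (e ▸ ⟨hz, (h9_orderOf_eq_two_iff.1 z2).2⟩))⟩ (fun x hx => hx.1) hx).2
    have h1 := ih _ _ _ _ _ _ (by
      have := K.card_mul_index
      have := (one_lt_card_iff_ne_bot K).2 K0
      have := Nat.card_pos (α := X ⧸ K)
      rw [index_eq_card] at *
      nlinarith) (h.quot K KF)
    have h3 := pg_card_comap_mk K (F.map (QuotientGroup.mk' K))
    rw [comap_map_eq_self (by simpa using KF)] at h3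
    have h0 := Nat.card_pos (α := F.map (QuotientGroup.mk' K))
    by_cases hs : ∃ w ∈ K, s * w ≠ w * s
    · obtain ⟨k1, k2, k3, -⟩ := l16 h2 (by simpa using h.R _ ⊥ bot_le le_normalizer_of_normal h2) h.s5
        (le_centralizer_iff.1 hC h.a2) (le_centralizer_iff.1 hC h.as) hs
      exfalso
      rcases eq_or_ne K F with rfl | hne
      · exact h.case2 hC h2 k1 k3
      have h4 := pg_card_lt_of_lt (lt_of_le_of_ne KF hne)
      have h5 : Nat.card F = 32 := by rw [k1] at h3; omega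
      have h6 := cnt' (W := F) (p := 5) (g := s) (h.s5 ▸ one_mem _)
      obtain ⟨c, hc, c2, -⟩ := pg_exists_fixed_of_order_p ((h.pQ.to_le h.FQ).to_inf_left (K := C1[s]))
        IsPGroup.of_bot bot_le fun e => by rw [e, h5, card_bot] at h6; exact absurd h6 (by decide)
      rw [h9_orderOf_eq_two_iff] at c2
      have := h.R (zpowers c ⊔ K) ⊥ bot_le le_normalizer_of_normal fun g hg => by
        rcases two_ext (le_normalizer_of_normal (mem_top c)) (c2.2 ▸ one_mem _) hg with hg | ⟨u, hu, rfl⟩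
        · exact h2 g hg
        · rw [(show Commute c u from hC hu c (h.FQ hc.1)).mul_mul_mul_comm, h2 u hu, c2.2, mul_one]
          exact one_mem _
      rw [pg_card_zpowers_sup (p := 2) (le_normalizer_of_normal (mem_top c))
        (fun e => c2.1 (k2 c e (mem_centralizer_singleton_iff.1 hc.2).symm)) (by rw [sq, c2.2]; exact one_mem _),
        card_bot] at this
      omega
    · push Not at hs
      have e := h.gen C[K] inferInstance (le_centralizer_iff.1 hC) fun w hw => (hs w hw).symm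
      have := card_le_of_le (hm (y := zpowers z) ⟨⟨fun w hw g => by
        rwa [← e.ge (mem_top g) w (zpowers_le.2 hz hw), mul_inv_cancel_right]⟩, zpowers_le.2 (KF hz), by simpa using (h9_orderOf_eq_two_iff.1 z2).1⟩
        (zpowers_le.2 hz))
      rw [Nat.card_zpowers, z2] at this
      obtain ⟨m, hm⟩ := IsPGroup.iff_card.1 (h.pQ.to_le h.FQ)
      have h4 := h.ne_four
      have h5 : 2 ^ m ≤ 2 ^ 2 := by nlinarith
      have := (Nat.pow_le_pow_iff_right one_lt_two).1 h5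
      interval_cases m <;> omega

end


/-- Let X be a finite nonsolvable 2-constrained group with no nontrivial normal subgroup of odd order and of sectional 2-rank at most 4, and suppose X/O₂(X) contains a subgroup isomorphic to the alternating group of degree 5. Then O₂(X) is elementary abelian of order 16, or O₂(X) is a central product of a quaternion group of order 8 and a dihedral group of order 8 (it has order 32 and is generated by two elementwise-commuting subgroups, one quaternion of order 8 and one dihedral of order 8, meeting in the centre). -/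
theorem result {X : Type*} [Group X] [Finite X] (hns : ¬ Group.IsSolvable X) (hc : Cfsg.IsPConstrained 2 X) (hO : Cfsg.oddCore X = ⊥)
    (h4 : Cfsg.SectionalPRankLE 2 4 X)
    (hQ : ∃ A : Subgroup (X ⧸ Cfsg.pCore 2 X), Nonempty (↥A ≃* ↥(alternatingGroup (Fin 5)))) :
    (Cfsg.IsElementaryAbelian 2 (Cfsg.pCore 2 X) ∧ Nat.card ↥(Cfsg.pCore 2 X) = 16) ∨
      (Nat.card ↥(Cfsg.pCore 2 X) = 32 ∧ ∃ A B : Subgroup ↥(Cfsg.pCore 2 X),
        Nonempty (↥A ≃* QuaternionGroup 2) ∧ Nonempty (↥B ≃* DihedralGroup 4) ∧ (∀ a ∈ A, ∀ b ∈ B, a * b = b * a) ∧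
          A ⊔ B = ⊤ ∧ A ⊓ B = Subgroup.center ↥(Cfsg.pCore 2 X)) := by
  obtain ⟨A, ⟨e⟩⟩ := hQ
  have hC := centralizer_pCore_le_of_isPConstrained hc hO
  have pQ : IsPGroup 2 (pCore 2 X) := isPGroup_pCore
  have R : R4 X := fun H D h1 h2 h3 => by
    haveI := (normal_subgroupOf_iff_le_normalizer h1).2 h2
    have h5 : ∀ x ∈ (⊤ : Subgroup (H ⧸ D.subgroupOf H)), x * x = 1 := fun x _ => by
      obtain ⟨x, rfl⟩ := QuotientGroup.mk_surjective x
      exact (QuotientGroup.eq_one_iff (x * x)).2 (h3 x x.2)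
    have := h4 H (D.subgroupOf H) ⊤ ⟨⟨fun x y => Subtype.ext (comm_of_sq h5 x x.2 y y.2)⟩⟩
      fun x hx => by rw [sq, h5 x hx]
    rw [card_top] at this
    rw [card_eq_card_quotient_mul_card_subgroup (D.subgroupOf H), Nat.card_congr (subgroupOfEquivOfLe h1).toEquiv]
    exact Nat.mul_le_mul_right _ this
  obtain ⟨Y, hY⟩ : ∃ Y, Y = A.comap (QuotientGroup.mk' (pCore 2 X)) := ⟨_, rfl⟩
  have QY : pCore 2 X ≤ Y := fun x hx => by
    rw [hY, mem_comap, QuotientGroup.mk'_apply, (QuotientGroup.eq_one_iff x).2 hx]; exact one_mem _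
  obtain ⟨φ, φs, φk⟩ : ∃ φ : Y →* alternatingGroup (Fin 5), Surjective φ ∧ φ.ker = (pCore 2 X).subgroupOf Y := by
    subst hY
    refine ⟨e.toMonoidHom.comp ((QuotientGroup.mk' _).subgroupComap A), e.surjective.comp
      (MonoidHom.subgroupComap_surjective_of_surjective _ _ (QuotientGroup.mk'_surjective _)), ?_⟩
    ext x
    exact (map_eq_one_iff e e.injective).trans (Subtype.ext_iff.trans (QuotientGroup.eq_one_iff x.1))
  obtain ⟨s', a', r', s5, s1, a2, as, r3, r1⟩ : ∃ s a r : alternatingGroup (Fin 5), s ^ 5 = 1 ∧ s ≠ 1 ∧ a * a = 1 ∧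
      a * s * a⁻¹ * s = 1 ∧ r ^ 3 = 1 ∧ r ≠ 1 :=
    ⟨⟨c[0, 1, 2, 3, 4], Equiv.Perm.mem_alternatingGroup.2 (by decide)⟩,
      ⟨Equiv.swap 1 4 * Equiv.swap 2 3, Equiv.Perm.mem_alternatingGroup.2 (by decide)⟩,
      ⟨c[0, 1, 2], Equiv.Perm.mem_alternatingGroup.2 (by decide)⟩, by decide +kernel, by decide, by decide, by decide,
      by decide, by decide⟩
  obtain ⟨a, rfl⟩ := φs a'
  obtain ⟨r, rfl⟩ := φs r'
  have pQ' : IsPGroup 2 φ.ker := φk ▸ pQ.of_equiv (subgroupOfEquivOfLe QY).symm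
  obtain ⟨s, rfl, s5'⟩ : ∃ s, φ s = s' ∧ s ^ 5 = 1 := by
    obtain ⟨s, rfl⟩ := φs s'
    obtain ⟨k, hk⟩ := pQ' ⟨s ^ 5, by rw [MonoidHom.mem_ker, map_pow, s5]⟩
    refine ⟨s ^ 16 ^ k, ?_, ?_⟩
    · rw [map_pow, ← Nat.div_add_mod (16 ^ k) 5, pow_add, pow_mul, s5, Nat.pow_mod]; simp
    · rw [← pow_mul, mul_comm, pow_mul, show 16 = 2 * 8 from rfl, mul_pow, pow_mul,
        show (s ^ 5) ^ 2 ^ k = 1 from congrArg Subtype.val hk, one_pow]
  have nt : ∀ g, φ g ≠ 1 → ∃ x ∈ φ.ker, g * x * g⁻¹ * x⁻¹ ∉ Subgroup.closure ((fun x => x * x) '' φ.ker) :=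
    fun g hg => by
      by_contra! h
      refine hg (φk.ge (Cfsg.Agent.S1783.le_pCore_of_frattini hC fun q hq => ?_))
      refine ((Subgroup.closure_le (((frattini (pCore 2 X)).map (pCore 2 X).subtype).comap Y.subtype)).2 ?_)
        (h ⟨q, QY hq⟩ (φk.ge hq))
      rintro _ ⟨x, hx, rfl⟩
      exact ⟨_, pg_pow_mem_frattini pQ ⟨x, φk.le hx⟩, sq x.1⟩
  have h : Hyp φ.ker _ s a r := ⟨inferInstance, pQ', rfl, fun H D h1 h2 h3 => by
      have := R (H.map Y.subtype) (D.map Y.subtype) (map_mono h1) ((map_mono h2).trans (le_normalizer_map _))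
        (by rintro _ ⟨x, hx, rfl⟩; exact ⟨_, h3 x hx, rfl⟩)
      rwa [card_map_of_injective Y.subtype_injective, card_map_of_injective Y.subtype_injective] at this,
    s5', by simpa using a2, by simpa using as, by simpa using r3, fun N hN h1 h2 => by
      rw [← comap_map_eq_self h1, ((hN.map φ φs).eq_bot_or_eq_top).resolve_left fun e =>
        s1 (mem_bot.1 (e ▸ mem_map_of_mem φ h2)), comap_top], nt s s1, nt r r1⟩
  have i : φ.ker ≃* pCore 2 X := (MulEquiv.subgroupCongr φk).trans (subgroupOfEquivOfLe QY)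
  have h1 := card_le _ _ _ _ _ _ _ le_rfl h
  have h2 := h.top.1
  rw [Nat.card_congr i.toEquiv] at h2
  rcases (Nat.le_succ_iff.1 h1).imp_left (le_antisymm · Nat.card_pos) with h3 | h3
  · have h5 : ∀ x ∈ pCore 2 X, x * x = 1 := fun x hx => congrArg Subtype.val
      (mem_bot.1 ((card_eq_one.1 h3).le (h.sq_mem (x := ⟨x, QY hx⟩) (φk.ge hx))))
    exact .inl ⟨⟨⟨⟨fun x y => Subtype.ext (comm_of_sq h5 x x.2 y y.2)⟩⟩, fun x hx => by rw [sq, h5 x hx]⟩,
      by rw [h2, h3]⟩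
  obtain ⟨-, C, B, ⟨iC⟩, ⟨iB⟩, h5, h6, h7⟩ := h.extra h3
  refine .inr ⟨by rw [h2, h3], C.map i.toMonoidHom, B.map i.toMonoidHom, ⟨(i.subgroupMap C).symm.trans iC⟩,
    ⟨(i.subgroupMap B).symm.trans iB⟩, ?_, ?_, ?_⟩
  · rintro _ ⟨x, hx, rfl⟩ _ ⟨y, hy, rfl⟩
    rw [← map_mul, h5 x hx y hy, map_mul]
  · rw [← Subgroup.map_sup, h6, map_top_of_surjective _ i.surjective]
  · rw [← map_inf _ _ _ i.injective, h7]
    ext x
    obtain ⟨x, rfl⟩ := i.surjective x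
    rw [mem_center_iff, i.surjective.forall]
    simp only [← map_mul, i.injective.eq_iff]
    exact (mem_map_iff_mem i.injective).trans mem_center_iff

end Cfsg.Agent.S3106
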