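import Cfsg.Statements.S3116
import Mathlib
import Cfsg.Agent.Lib.Misc.TI2
import Cfsg.Agent.Lib.PGroup.CyclicIndex

set_option autoImplicit false
open Cfsg

namespace Cfsg.Agent.S3116

open Cfsg.Lib

theorem aux {X : Type*} [Group X] [Finite X] (h2 : IsPGroup 2 X) (a : X)
    (hi : (Subgroup.zpowers a).index = 2)
    (hch : ∀ x : X, orderOf x = orderOf a → x ∈ Subgroup.zpowers a) : IsPGroup 2 (MulAut X) := by
  rw [isPGroup_iff_primeFactors_card_subset (by norm_num)]
  intro r hr
  have hrp := Nat.prime_of_mem_primeFactors hr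
  have := Fact.mk hrp
  by_contra hr2
  have hne : r ≠ 2 := by rintro rfl; exact hr2 (by simp [Nat.prime_two])
  obtain ⟨σ, hσ⟩ := exists_prime_orderOf_dvd_card' r (Nat.dvd_of_mem_primeFactors hr)
  have hT : IsPGroup r (Subgroup.zpowers σ) :=
    h9_isPGroup_zpowers (k := 1) (by rw [pow_one, ← hσ, pow_orderOf_eq_one])
  have hmap : ∀ t : MulAut X, ∀ x ∈ Subgroup.zpowers a, t x ∈ Subgroup.zpowers a := by
    rintro t _ ⟨n, rfl⟩
    simp only [map_zpow]
    exact Subgroup.zpow_mem _ (hch _ (t.orderOf_eq a)) n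
  have hfix : ∀ S : Set X, (∀ t : MulAut X, ∀ x ∈ S, t x ∈ S) → (∃ k, Nat.card S = 2 ^ k) →
      ∃ x ∈ S, σ x = x := by
    rintro S hS ⟨k, hk⟩
    let Y : SubMulAction (Subgroup.zpowers σ) X :=
      { carrier := S
        smul_mem' := fun c {x} hx => hS c x hx }
    have hnd : ¬ r ∣ Nat.card Y := by
      have : Nat.card Y = 2 ^ k := hk
      rw [this]
      intro h
      exact hne ((Nat.prime_dvd_prime_iff_eq hrp Nat.prime_two).1 (hrp.dvd_of_dvd_pow h))
    obtain ⟨y, hy⟩ := hT.nonempty_fixed_point_of_prime_not_dvd_card Y hnd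
    exact ⟨y, y.2, congrArg Subtype.val (hy ⟨σ, Subgroup.mem_zpowers σ⟩)⟩
  obtain ⟨m, hm⟩ := (IsPGroup.iff_orderOf.1 h2) a
  have hcardA : Nat.card (Subgroup.zpowers a) = 2 ^ m := by rw [Nat.card_zpowers, hm]
  -- a fixed generator
  obtain ⟨x, hx, hσx⟩ := hfix {x | orderOf x = orderOf a} (fun t x hx => (t.orderOf_eq x).trans hx) (by
    classical
    have : Nat.card {x : X | orderOf x = orderOf a} =
        Nat.card {x : Subgroup.zpowers a | orderOf x = orderOf a} := by
      refine Nat.card_congr ⟨fun x => ⟨⟨x.1, hch _ x.2⟩, (Subgroup.orderOf_mk _ _).trans x.2⟩,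
        fun x => ⟨x.1.1, (Subgroup.orderOf_coe _).trans x.2⟩, fun _ => rfl, fun _ => rfl⟩
    rw [this]
    have := Fintype.ofFinite (Subgroup.zpowers a)
    have h3 := IsCyclic.card_orderOf_eq_totient (α := Subgroup.zpowers a) (d := orderOf a)
      (by rw [← Nat.card_eq_fintype_card, Nat.card_zpowers])
    rw [Nat.card_eq_card_toFinset, Set.toFinset_ofPred, h3, hm]
    rcases m with _ | m
    · exact ⟨0, by simp⟩
    · exact ⟨m, by rw [Nat.totient_prime_pow_succ Nat.prime_two]; simp⟩)
  obtain ⟨y, hy, hσy⟩ := hfix (Subgroup.zpowers a : Set X)ᶜ (fun t x hx h => hx (by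
    simpa using hmap t⁻¹ _ h)) ⟨m, by
      have h3 := Set.ncard_add_ncard_compl (Subgroup.zpowers a : Set X)
      have h4 := (Subgroup.zpowers a).card_mul_index
      rw [Nat.card_coe_set_eq]
      have h5 : (Subgroup.zpowers a : Set X).ncard = 2 ^ m := hcardA
      rw [hi, hcardA] at h4
      omega⟩
  have hxa : Subgroup.zpowers x = Subgroup.zpowers a := by
    apply Subgroup.eq_of_le_of_card_ge
    · rw [Subgroup.zpowers_le]; exact hch x hx
    · rw [Nat.card_zpowers, Nat.card_zpowers, hx]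
  have htop := pg_zpowers_sup_eq_top_of_index_prime (p := 2) hi hy
  have hle : (⊤ : Subgroup X) ≤ σ.toMonoidHom.eqLocus (MonoidHom.id X) := by
    rw [← htop, ← hxa, sup_le_iff, Subgroup.zpowers_le, Subgroup.zpowers_le]
    exact ⟨hσy, hσx⟩
  have : σ = 1 := by
    ext z
    exact hle (Subgroup.mem_top z)
  rw [this, orderOf_one] at hσ
  exact hrp.one_lt.ne hσ


/-- The automorphism group of a dihedral 2-group of order at least 8, or of a quasi-dihedral (semidihedral) 2-group of order at least 16, is a 2-group. -/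
theorem result {X : Type*} [Group X] [Finite X] (h2 : IsPGroup 2 X)
    (h : (∃ n : ℕ, 4 ≤ n ∧ Nonempty (X ≃* DihedralGroup n)) ∨ Cfsg.IsQuasiDihedral X) : IsPGroup 2 (MulAut X) := by
  rcases h with ⟨n, hn, ⟨e⟩⟩ | ⟨n, hn, hcard, x, y, hx, hy, hxy⟩
  · have : NeZero n := ⟨by omega⟩
    have h3 : IsPGroup 2 (MulAut (DihedralGroup n)) := by
      apply aux (h2.of_equiv e) (DihedralGroup.r 1)
      · have h4 := (Subgroup.zpowers (DihedralGroup.r (1 : ZMod n))).card_mul_index
        rw [Nat.card_zpowers, DihedralGroup.orderOf_r_one, DihedralGroup.nat_card, mul_comm] at h4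
        exact Nat.eq_of_mul_eq_mul_right (by omega) h4
      · rintro (i | i) hi
        · refine ⟨i.val, ?_⟩
          simp
        · rw [DihedralGroup.orderOf_sr, DihedralGroup.orderOf_r_one] at hi
          omega
    exact h3.of_equiv (MulAut.congr e).symm
  · have hi : (Subgroup.zpowers x).index = 2 := by
      have h4 := (Subgroup.zpowers x).card_mul_index
      rw [Nat.card_zpowers, hx, hcard, pow_succ] at h4
      exact Nat.eq_of_mul_eq_mul_left (by positivity) h4
    obtain ⟨k, rfl⟩ : ∃ k, n = k + 3 := ⟨n - 3, by omega⟩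
    have hk : k + 3 - 1 = k + 2 := by omega
    rw [hk] at hxy
    have hpos : 1 ≤ 2 ^ k := Nat.one_le_two_pow
    have hyx : y ∉ Subgroup.zpowers x := by
      rintro ⟨j, rfl⟩
      have h5 : x ^ j * x * (x ^ j)⁻¹ = x := by group
      simp only at hxy
      rw [h5] at hxy
      have h6 : x ^ (2 ^ (k + 2) - 2) = 1 := by
        apply mul_right_cancel (b := x)
        rw [← pow_succ, one_mul]
        nth_rewrite 2 [hxy]
        congr 1
        rw [pow_add]; omega
      have h7 := Nat.le_of_dvd (by rw [pow_add]; omega) (orderOf_dvd_of_pow_eq_one h6)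
      rw [hx, pow_add, pow_add] at h7
      omega
    apply aux h2 x hi
    intro z hz
    by_contra hzx
    have h5 : z * y ∈ Subgroup.zpowers x := by
      rw [Subgroup.mul_mem_iff_of_index_two hi]; tauto
    obtain ⟨j, hj⟩ := (mem_powers_iff_mem_zpowers.2 h5)
    have hy2 : y * y = 1 := (h9_orderOf_eq_two_iff.1 hy).2
    have hz' : z = x ^ j * y := by
      simp only at hj
      rw [hj, mul_assoc, hy2, mul_one]
    have h6 : z ^ 2 = (x ^ 2 ^ (k + 2)) ^ j := by
      calc z ^ 2 = x ^ j * (y * x ^ j * y⁻¹) * (y * y) := by rw [hz', pow_two]; group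
        _ = x ^ j * (x ^ (2 ^ (k + 2) - 1)) ^ j := by rw [hy2, mul_one, ← conj_pow, hxy]
        _ = _ := by
          rw [← pow_mul, ← pow_mul, ← pow_add]
          congr 1
          have : 1 ≤ 2 ^ (k + 2) := Nat.one_le_two_pow
          obtain ⟨c, hc⟩ := Nat.exists_eq_add_of_le this
          rw [hc]; simp; ring
    have h7 : z ^ 4 = 1 := by
      rw [show 4 = 2 * 2 by rfl, pow_mul, h6, ← pow_mul, ← pow_mul, mul_comm j 2, ← mul_assoc,
        ← pow_succ, pow_mul, ← hx, pow_orderOf_eq_one, one_pow]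
    have h8 := Nat.le_of_dvd (by norm_num) (orderOf_dvd_of_pow_eq_one h7)
    rw [hz, hx, pow_add] at h8
    omega

end Cfsg.Agent.S3116
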