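import Cfsg.Statements.S3117
import Cfsg.Agent.Lib.Misc.ThreeInv

set_option autoImplicit false
open Cfsg

namespace Cfsg.Agent.S3117

open Subgroup Cfsg.Lib Cfsg.Lib.ThreeInv
open scoped commutatorElement

theorem two_iff {X : Type*} [Group X] {x : X} : orderOf x = 2 ↔ x ≠ 1 ∧ x * x = 1 := by
  constructor
  · intro h
    refine ⟨fun e => by simp [e] at h, ?_⟩
    rw [← sq, ← h, pow_orderOf_eq_one]
  · rintro ⟨h1, h2⟩
    haveI : Fact (Nat.Prime 2) := ⟨Nat.prime_two⟩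
    exact orderOf_eq_prime (by rw [sq, h2]) h1

theorem four {X : Type*} [Group X] [Finite X] (h2 : IsPGroup 2 X)
    (h3 : Nat.card {x : X // orderOf x = 2} = 3) :
    ∃ z s : X, Four z s ∧ ∀ x, x * z = z * x := by
  classical
  haveI : Fact (Nat.Prime 2) := ⟨Nat.prime_two⟩
  have h3' : Set.ncard {x : X | orderOf x = 2} = 3 := h3
  obtain ⟨a, b, c, hab, hac, hbc, hs⟩ := Set.ncard_eq_three.1 h3'
  have ha : orderOf a = 2 := (hs ▸ (by simp) : a ∈ {x : X | orderOf x = 2})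
  have hb : orderOf b = 2 := (hs ▸ (by simp) : b ∈ {x : X | orderOf x = 2})
  haveI : Nontrivial X := ⟨a, b, hab⟩
  haveI := h2.center_nontrivial
  obtain ⟨n, hn0, hn⟩ := (h2.to_subgroup (center X)).nontrivial_iff_card.1 inferInstance
  obtain ⟨z, hz⟩ := exists_prime_orderOf_dvd_card' (G := center X) 2
    (hn ▸ dvd_pow_self 2 hn0.ne')
  have hz' : orderOf (z : X) = 2 := by rw [orderOf_coe, hz]
  have hzc : ∀ x : X, x * z = z * x := mem_center_iff.1 z.2
  obtain ⟨s, hs2, hsz⟩ : ∃ s : X, orderOf s = 2 ∧ s ≠ z := by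
    by_cases e : a = z
    · exact ⟨b, hb, fun e' => hab (e.trans e'.symm)⟩
    · exact ⟨a, ha, e⟩
  obtain ⟨z1, zz⟩ := two_iff.1 hz'
  obtain ⟨s1, ss⟩ := two_iff.1 hs2
  have ww : (z : X) * s * (z * s) = 1 := by
    rw [mul_assoc, ← mul_assoc s, hzc s, mul_assoc, ss, mul_one, zz]
  have w1 : (z : X) * s ≠ 1 := fun e => hsz (by rw [← one_mul s, ← zz, mul_assoc, e, mul_one])
  have hsub : ({(z : X), s, z * s} : Set X) = {x : X | orderOf x = 2} := by
    refine Set.eq_of_subset_of_ncard_le ?_ ?_ (Set.toFinite _)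
    · rintro x (rfl | rfl | rfl)
      exacts [hz', hs2, two_iff.2 ⟨w1, ww⟩]
    · rw [h3', Set.ncard_insert_of_notMem (by simp [hsz.symm, s1]),
        Set.ncard_pair (by simp [z1])]
  refine ⟨z, s, ⟨z1, s1, hsz, fun x => ⟨fun hx => ?_, ?_⟩⟩, hzc⟩
  · by_cases h1 : x = 1
    · exact Or.inl h1
    · have : x ∈ ({(z : X), s, z * s} : Set X) := hsub ▸ two_iff.2 ⟨h1, hx⟩
      exact Or.inr this
  · rintro (rfl | rfl | rfl | rfl)
    exacts [one_mul _, zz, ss, ww]

theorem hcomm {X : Type*} [Group X] {z s : X} (h : Four z s) (hz : ∀ x, x * z = z * x) {w x : X}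
    (hw : w * w = 1) (hx : x * x * (x * x) = 1) : w * x = x * w := by
  have key : s * x = x * s := by
    by_contra hne
    have hc : x * s * x⁻¹ = z * s := by
      have : x * s * x⁻¹ * (x * s * x⁻¹) = 1 := by rw [conj_mul, h.vv]; simp
      rcases (h.iff _).1 this with e | e | e | e
      · exact absurd (by simpa using e) h.v1
      · refine absurd ?_ h.vu
        rw [mul_inv_eq_iff_eq_mul, ← hz x] at e
        exact mul_left_cancel e
      · exact absurd (mul_inv_eq_iff_eq_mul.1 e).symm hne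
      · exact e
    have hU : ∀ y : X, y * y = 1 → s * y = y * s := fun y hy => by
      rcases (h.iff _).1 hy with rfl | rfl | rfl | rfl
      · simp
      · exact hz s
      · rfl
      · rw [h.vw, h.wv]
    rcases (h.iff _).1 hx with e | e | e | e
    · exact hne (hU x e)
    · have : x * s * (x * s) = 1 := by
        calc x * s * (x * s) = x * s * x⁻¹ * (x * x) * s := by group
          _ = 1 := by rw [hc, e, h.wu, h.vv]
      have := hU _ this
      exact hne (mul_right_cancel (b := s) (by rw [mul_assoc, this]))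
    · exact hne (by rw [← e, mul_assoc])
    · apply hne
      have e' : s = z * (x * x) := by rw [e, h.uw]
      rw [e', ← mul_assoc x, hz x]; group
  rcases (h.iff _).1 hw with rfl | rfl | rfl | rfl
  · simp
  · exact (hz x).symm
  · exact key
  · rw [mul_assoc, key, ← mul_assoc, ← hz x, mul_assoc]

theorem crit {X : Type*} [Group X] [Finite X] (h2 : IsPGroup 2 X) (T : Subgroup X)
    (hT : ∀ α : MulAut X, ∀ x ∈ T, α x ∈ T) :
    ∃ C : Subgroup X, (∀ α : MulAut X, ∀ x ∈ C, α x ∈ C) ∧ C ≤ T ∧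
      ⁅C, C⁆ ≤ centralizer (C : Set X) ∧ T ⊓ centralizer (C : Set X) ≤ C := by
  haveI : Fact (Nat.Prime 2) := ⟨Nat.prime_two⟩
  let G := X ⋊[MonoidHom.id (MulAut X)] MulAut X
  haveI : Finite G := Finite.of_equiv _ SemidirectProduct.equivProd.symm
  let ι : X →* G := SemidirectProduct.inl
  have hι : Function.Injective ι := SemidirectProduct.inl_injective
  have hconj : ∀ (g : G) (x : X), g * ι x * g⁻¹ = ι ((MulAut.conj g.left * g.right) x) := by
    intro g x
    ext <;> simp [ι, G]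
  haveI : (T.map ι).Normal := ⟨by
    rintro _ ⟨x, hx, rfl⟩ g
    exact ⟨_, hT _ x hx, (hconj g x).symm⟩⟩
  obtain ⟨C, hn, h1, h3, h4⟩ := pg_exists_critical (T := T.map ι) (p := 2)
    ((h2.to_subgroup T).map ι)
  have hCT : C.comap ι ≤ T := fun x hx => by
    obtain ⟨y, hy, e⟩ := h1 hx
    exact hι e ▸ hy
  refine ⟨C.comap ι, fun α x hx => ?_, hCT, ?_, fun x hx => ?_⟩
  · have := hn.conj_mem _ hx (SemidirectProduct.inr α)
    rw [hconj] at this
    simpa using this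
  · rw [commutator_le]
    intro x hx y hy c hc
    apply hι
    have : ⁅ι x, ι y⁆ ∈ pgZc C := h3 (commutator_mem_commutator hx ⟨y, hCT hy, rfl⟩)
    have := (mem_inf.1 this).2 (ι c) hc
    rw [map_mul, map_mul, map_commutatorElement]
    exact this
  · refine h4 (mem_inf.2 ⟨⟨x, (mem_inf.1 hx).1, rfl⟩, fun c hc => ?_⟩)
    obtain ⟨y, -, rfl⟩ := h1 hc
    rw [← map_mul, ← map_mul, (mem_inf.1 hx).2 y hc]

theorem step {X : Type*} [Group X] {α : MulAut X} {x c : X} (h1 : α c = c)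
    (h2 : α (x * c * x⁻¹) = x * c * x⁻¹) : c * (x⁻¹ * α x) = x⁻¹ * α x * c := by
  rw [map_mul, map_mul, map_inv, h1] at h2
  calc c * (x⁻¹ * α x) = x⁻¹ * (x * c * x⁻¹) * α x := by group
    _ = _ := by rw [← h2]; group

theorem cnt_mod {X : Type*} [Group X] [Finite X] {α : MulAut X} {p : ℕ} [Fact p.Prime]
    (hp : α ^ p = 1) {E : Subgroup X} (hE : ∀ x ∈ E, α x ∈ E) {u : X} (hu : α u = u) :
    cnt E u ≡ cnt (E ⊓ α.toMonoidHom.eqLocus (MonoidHom.id X)) u [MOD p] := by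
  classical
  haveI := Fintype.ofFinite X
  let f : Function.End {x : X // x ∈ E ∧ x * x = u} :=
    fun x => ⟨α x, hE _ x.2.1, by rw [← map_mul, x.2.2, hu]⟩
  have hf : ∀ n x, ((f ^ n) x).1 = (α ^ n) x := by
    intro n
    induction n with
    | zero => intro x; rfl
    | succ n ih =>
      intro x
      rw [pow_succ', pow_succ', MulAut.mul_apply, ← ih]; rfl
  have := Equiv.Perm.card_fixedPoints_modEq (f := f) (p := p) (n := 1)
    (funext fun x => Subtype.ext (by rw [hf, pow_one, hp]; rfl))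
  rw [← Nat.card_eq_fintype_card, ← Nat.card_eq_fintype_card] at this
  refine this.trans (Nat.ModEq.rfl.trans ?_)
  rw [cnt]
  rw [Nat.card_congr (β := {x : X // x ∈ E ⊓ α.toMonoidHom.eqLocus (MonoidHom.id X) ∧ x * x = u})
    ⟨fun x => ⟨x.1.1, ⟨x.1.2.1, congrArg Subtype.val x.2⟩, x.1.2.2⟩,
      fun x => ⟨⟨x.1, x.2.1.1, x.2.2⟩, Subtype.ext x.2.1.2⟩, fun _ => rfl, fun _ => rfl⟩]

theorem main {X : Type*} [Group X] [Finite X] (h2 : IsPGroup 2 X) {z s : X} (h : Four z s)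
    (hz : ∀ x, x * z = z * x) : ∃ q : ℕ, q.Prime ∧ ∀ (α : MulAut X) (p : ℕ), p.Prime → p ≠ 2 →
      orderOf α = p → (∀ w, w * w = 1 → α w = w) → p = q := by
  haveI : Fact (Nat.Prime 2) := ⟨Nat.prime_two⟩
  obtain ⟨T, hT⟩ : ∃ T : Subgroup X, T = centralizer {w : X | w * w = 1} := ⟨_, rfl⟩
  have mT : ∀ x, x ∈ T ↔ ∀ w, w * w = 1 → w * x = x * w := fun x => by rw [hT]; rfl
  obtain ⟨C, hC, hCT, hc2, hself⟩ := crit h2 T fun α x hx => (mT _).2 fun w hw => by
    have := (mT _).1 hx (α.symm w) (by rw [← map_mul, hw, map_one])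
    simpa using congrArg α this
  have hUC : ∀ w, w * w = 1 → w ∈ C := fun w hw =>
    hself (mem_inf.2 ⟨(mT _).2 fun y hy => hcomm h hz hy (by rw [hw, one_mul]),
      fun c hc => ((mT _).1 (hCT hc) w hw).symm⟩)
  have cc : ∀ x ∈ C, ∀ y ∈ C, ∀ c ∈ C, c * (x⁻¹ * y * x * y⁻¹) = x⁻¹ * y * x * y⁻¹ * c :=
    fun x hx y hy c hc => by
      have := hc2 (commutator_mem_commutator (C.inv_mem hx) hy) c hc
      simpa [commutatorElement_def] using this
  have sq : ∀ x ∈ C, ∀ y ∈ C, x * x * y = y * (x * x) →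
      x * y * (x * y) = x * x * (y * y) * (x⁻¹ * y * x * y⁻¹) ∧
      x⁻¹ * y * x * y⁻¹ * (x⁻¹ * y * x * y⁻¹) = 1 := fun x hx y hy hxy => by
    constructor
    · rw [mul_assoc (x * x), cc x hx y hy _ (C.mul_mem hy hy)]; group
    · calc x⁻¹ * y * x * y⁻¹ * (x⁻¹ * y * x * y⁻¹)
          = (x⁻¹ * y * x * y⁻¹ * x⁻¹) * y * x * y⁻¹ := by group
        _ = x⁻¹ * x⁻¹ * (y * (x * x)) * y⁻¹ := by rw [← cc x hx y hy _ (C.inv_mem hx)]; group
        _ = 1 := by rw [← hxy]; group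
  let E : Subgroup X :=
    { carrier := {x | x ∈ C ∧ x * x * (x * x) = 1}
      one_mem' := ⟨C.one_mem, by simp⟩
      inv_mem' := fun {x} hx => ⟨C.inv_mem hx.1, by
        rw [← mul_inv_rev, ← mul_inv_rev, hx.2, inv_one]⟩
      mul_mem' := fun {x y} hx hy => ⟨C.mul_mem hx.1 hy.1, by
        obtain ⟨e1, e2⟩ := sq x hx.1 y hy.1 (hcomm h hz hx.2 hy.2)
        rw [e1]; exact h.mul (h.mul hx.2 hy.2) e2⟩ }
  have mE : ∀ x, x ∈ E ↔ x ∈ C ∧ x * x * (x * x) = 1 := fun _ => Iff.rfl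
  have hUE : ∀ w, w * w = 1 → w ∈ E := fun w hw => ⟨hUC w hw, by rw [hw, one_mul]⟩
  have hsol := h.core h2 (hUE _ h.uu) (hUE _ h.vv) (fun x hx => hx.2)
    fun w hw x hx => hcomm h hz hw hx.2
  refine ⟨if (cnt E z, cnt E s, cnt E (z * s)) = (20, 20, 20) then 5 else 3,
    by split_ifs <;> norm_num, fun α p hp hp2 ho hα => ?_⟩
  haveI : Fact p.Prime := ⟨hp⟩
  have hαp : α ^ p = 1 := ho ▸ pow_orderOf_eq_one α
  have hcop : Nat.Coprime 2 p := (Nat.coprime_primes Nat.prime_two hp).2 hp2.symm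
  have fix : ∀ x, α (x⁻¹ * α x) = x⁻¹ * α x → α x = x := fun x hx =>
    pg_aut_fixed_of_fixed hαp hcop (h2 _) hx
  have hαE : ∀ x ∈ E, α x ∈ E := fun x hx => ⟨hC α x hx.1, by simp only [← map_mul, hx.2, map_one]⟩
  obtain ⟨F, hF⟩ : ∃ F, F = E ⊓ α.toMonoidHom.eqLocus (MonoidHom.id X) := ⟨_, rfl⟩
  have mF : ∀ x, x ∈ F ↔ x ∈ E ∧ α x = x := fun x => by rw [hF]; rfl
  have hFE : F ≠ E := fun e => by
    have hE : ∀ x ∈ E, α x = x := fun x hx => ((mF x).1 (e ▸ hx)).2
    have hC' : ∀ x ∈ C, α x = x := by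
      by_contra hne
      push Not at hne
      obtain ⟨H, hHC, hH, ⟨x, hx, hx'⟩, -, -, h5, h6⟩ :=
        pg_exists_minimal_invariant hαp hcop (h2.to_subgroup C) (hC α) hne
      have hp2 : ∀ y ∈ H, y * y ∈ ⁅H, H⁆ ⊔ powerClosure 2 1 H := fun y hy =>
        mem_sup_right (subset_closure ⟨y, hy, by rw [pow_one, _root_.sq]⟩)
      obtain ⟨e1, e2⟩ := sq x⁻¹ (C.inv_mem (hHC hx)) (α x) (hHC (hH x hx))
        (h6 (hp2 _ (H.inv_mem hx)) _ (hH x hx)).symm
      refine hx' (fix x (hE _ ⟨C.mul_mem (C.inv_mem (hHC hx)) (hHC (hH x hx)), ?_⟩))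
      rw [e1, ← map_mul, h5 _ (hp2 x hx), show x⁻¹ * x⁻¹ * (x * x) = 1 by group, one_mul, e2]
    have hT' : ∀ x ∈ T, α x = x := fun x hx => by
      have hαx : α x ∈ T := (mT _).2 fun w hw => by
        have := congrArg α ((mT _).1 hx w hw)
        rwa [map_mul, map_mul, hα w hw] at this
      exact fix x (hC' _ (hself (mem_inf.2 ⟨T.mul_mem (T.inv_mem hx) hαx, fun c hc =>
        step (hC' c hc) (hC' _ (hC (MulAut.conj x) c hc))⟩)))
    have : α = 1 := MulEquiv.ext fun x => fix x (hT' _ ((mT _).2 fun w hw =>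
      step (hα w hw) (hα _ (by rw [conj_mul, hw]; simp))))
    rw [this, orderOf_one] at ho
    exact hp.one_lt.ne ho
  have hFle : F ≤ E := fun x hx => ((mF x).1 hx).1
  have hUF : ∀ w, w * w = 1 → w ∈ F := fun w hw => (mF w).2 ⟨hUE w hw, hα w hw⟩
  have hsol' := h.core h2 (hUF _ h.uu) (hUF _ h.vv) (fun x hx => (hFle hx).2)
    fun w hw x hx => hcomm h hz hw (hFle hx).2
  have s1 := h.cnt_sum (hUE _ h.uu) (hUE _ h.vv) (fun x hx => hx.2)
  have s2 := h.cnt_sum (hUF _ h.uu) (hUF _ h.vv) (fun x hx => (hFle hx).2)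
  have hlt : Nat.card F < Nat.card E := by
    refine lt_of_le_of_ne (card_le_of_le hFle) fun e => hFE (eq_of_le_of_card_ge hFle e.ge)
  have m1 := cnt_mod hαp hαE (hα _ h.uu)
  have m2 := cnt_mod hαp hαE (hα _ h.vv)
  have m3 := cnt_mod hαp hαE (hα _ h.ww)
  rw [← hF] at m1 m2 m3
  have hle := sols_le _ hsol
  have hp61 : p < 61 := by
    have := ((m1.add m2).add m3).symm
    have := Nat.le_of_dvd (by omega) ((Nat.modEq_iff_dvd' (by omega)).1 this)
    simp only at hle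
    omega
  exact (num2 _ hsol _ hsol' p hp61 (by simp only; omega) m1 m2 m3
    (Nat.odd_iff.1 (hp.odd_of_ne_two hp2))).resolve_left hp.one_lt.ne'

/-- If X is a finite 2-group containing exactly three involutions, then the automorphism group of X is solvable. -/
theorem result {X : Type*} [Group X] [Finite X] (h2 : IsPGroup 2 X) (h3 : Nat.card {x : X // orderOf x = 2} = 3) : Group.IsSolvable (MulAut X) := by
  obtain ⟨z, s, h, hz⟩ := four h2 h3
  obtain ⟨q, hq, H⟩ := main h2 h hz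
  let φ : MulAut X →* Equiv.Perm {x : X // orderOf x = 2} :=
    { toFun := fun α => Equiv.Perm.subtypePerm α.toEquiv fun x => by simp
      map_one' := by ext; rfl
      map_mul' := fun _ _ => by ext; rfl }
  haveI : Group.IsSolvable (Equiv.Perm {x : X // orderOf x = 2}) :=
    burnside_solvable_of_card_dvd (a := 1) (b := 1) Nat.prime_two Nat.prime_three
      (by rw [Nat.card_perm, h3]; decide)
  obtain ⟨k, m, hm, e⟩ := Nat.exists_eq_two_pow_mul_odd (n := Nat.card φ.ker) Nat.card_pos.ne'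
  have hm' := Nat.eq_prime_pow_of_unique_prime_dvd (n := m) (p := q) hm.pos.ne' fun {p} hp hd => by
    haveI : Fact p.Prime := ⟨hp⟩
    obtain ⟨α, hα⟩ := exists_prime_orderOf_dvd_card' (G := φ.ker) p (e ▸ hd.mul_left _)
    refine H α p hp ?_ (by rw [orderOf_coe, hα]) fun w hw => ?_
    · rintro rfl
      exact (Nat.not_even_iff_odd.2 hm) (even_iff_two_dvd.2 hd)
    · by_cases h1 : w = 1
      · rw [h1, map_one]
      · exact congrArg Subtype.val (DFunLike.congr_fun (MonoidHom.mem_ker.1 α.2)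
          ⟨w, two_iff.2 ⟨h1, hw⟩⟩)
  haveI : Group.IsSolvable φ.ker :=
    burnside_solvable_of_card_dvd Nat.prime_two hq (by rw [e, hm'])
  exact Group.isSolvable_of_ker_le_range φ.ker.subtype φ (by simp)

end Cfsg.Agent.S3117
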