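import Cfsg.Statements.S3121
import Cfsg.Agent.Lib.Big.ZD
import Cfsg.Agent.Lib.Core.FStar

set_option autoImplicit false
open Cfsg Subgroup Cfsg.Lib Cfsg.Lib.FT Cfsg.Lib.Bender Cfsg.Lib.ZD
open scoped commutatorElement

namespace Cfsg.Agent.S3121

/-- Let G be a finite group whose generalized Fitting subgroup F*(G) is a non-abelian simple group, let H be a tightly embedded subgroup of G and N its normalizer. If H^g ∩ N has odd order for every element g of G outside N, then either H is normal in G or F*(G) has a strongly embedded subgroup. -/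
theorem result {G : Type*} [Group G] [Finite G]
    (hF : IsSimpleGroup ↥(Cfsg.generalizedFittingSubgroup G)) (hF' : ¬ IsMulCommutative ↥(Cfsg.generalizedFittingSubgroup G))
    (H : Subgroup G) (hH : Cfsg.IsTightlyEmbedded H)
    (hodd : ∀ g : G, g ∉ Subgroup.normalizer (H : Set G) →
      Odd (Nat.card ↥(H.map (MulAut.conj g).toMonoidHom ⊓ Subgroup.normalizer (H : Set G)))) :
    H.Normal ∨ ∃ M : Subgroup ↥(Cfsg.generalizedFittingSubgroup G), Cfsg.IsStronglyEmbedded M := by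
  refine (em H.Normal).imp_right fun hn => ?_
  have hM : normalizer (H : Set G) ≠ ⊤ := fun e => hn (normalizer_eq_top_iff.1 e)
  set M := normalizer (H : Set G)
  set F := generalizedFittingSubgroup G
  let D : Set G := {d | ∃ u ∈ H, IsInv u ∧ ∃ g : G, g * u * g⁻¹ = d}
  have hinv : ∀ d ∈ D, ∀ g : G, g * d * g⁻¹ ∈ D := by
    rintro _ ⟨u, hu, hi, k, rfl⟩ g
    exact ⟨u, hu, hi, g * k, by group⟩
  have key : ∀ u ∈ H, IsInv u → ∀ g : G, g * u * g⁻¹ ∈ M → g ∈ M := fun u hu hi g hg => by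
    by_contra h
    exact (hi.conj g).not_mem_of_odd (hodd g h) ⟨⟨u, hu, rfl⟩, hg⟩
  have hH' : ∀ d ∈ D, d ∈ M → d ∈ H ∧ IsInv d := by
    rintro _ ⟨u, hu, hi, k, rfl⟩ h
    exact ⟨conj_mem_of_mem_normalizer (key u hu hi k h) hu, hi.conj k⟩
  have hfix : ∀ d ∈ D, d ∈ M → ∀ g : G, g * d * g⁻¹ ∈ M → g ∈ M := fun d hd h =>
    key d (hH' d hd h).1 (hH' d hd h).2
  obtain ⟨s, hs, hsi⟩ := exists_isInv_of_even hH.1
  have hsD : s ∈ D := ⟨s, hs, hsi, 1, by simp⟩
  have hp := Big.zd_pure hM (D := D) (by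
      rintro _ ⟨u, -, hi, k, rfl⟩; exact isInv_iff_orderOf.1 (hi.conj k)) hinv
    ⟨s, hsD, le_normalizer hs⟩ hfix fun x hx y hy h1 h2 hne hc =>
      ⟨_, mul_mem (hH' x hx h1).1 (hH' y hy h2).1,
        (hH' x hx h1).2.mul_of_comm (hH' y hy h2).2 hne hc, 1, by simp⟩
  have hL : (closure D).Normal := normalizer_eq_top_iff.1 (eq_top_iff.2 fun g _ =>
    mem_normalizer_closure fun x hx => hinv x hx g)
  have hFL : F ≤ closure D := by
    rcases hF.eq_bot_or_eq_top_of_normal ((closure D).subgroupOf F) inferInstance with e | e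
    · have h1 : closure D ≤ C[F] := commutator_eq_bot_iff_le_centralizer.1 (eq_bot_iff.2
        ((commutator_le_inf _ _).trans (subgroupOf_eq_bot.1 e).le_bot))
      have h2 := subset_closure hsD
      exact (hsi.1 (mem_bot.1 ((subgroupOf_eq_bot.1 e).le_bot ⟨h2, centralizer_fstar_le (h1 h2)⟩))).elim
    · exact subgroupOf_eq_top.1 e
  have hpF : ∀ u ∈ F, IsInv u → u ∈ D := fun u hu hi => hp u (hFL hu) (isInv_iff_orderOf.1 hi)
  have he : Even (Nat.card F) := Nat.not_odd_iff_even.1 fun ho =>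
    hF' ⟨⟨IsSimpleGroup.comm_iff_isSolvable.2 (odd_order_solvable ho)⟩⟩
  obtain ⟨v, hv, hvi⟩ := exists_isInv_of_even he
  obtain ⟨u, hu, hi, k, rfl⟩ := hpF v hv hvi
  have huF : u ∈ F := by simpa [mul_assoc] using Normal.conj_mem inferInstance _ hv k⁻¹
  refine ⟨M.subgroupOf F, fun e => hM (eq_top_iff.2 fun g _ => key u hu hi g
    (subgroupOf_eq_top.1 e (Normal.conj_mem inferInstance _ huF g))), Nat.not_odd_iff_even.1 fun ho =>
      (isInv_coe.1 hi).not_mem_of_odd (u := ⟨u, huF⟩) ho (le_normalizer hu),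
    fun g hg => Nat.not_even_iff_odd.1 fun he => ?_⟩
  obtain ⟨_, ⟨h1, w, hw, rfl⟩, hwi⟩ := exists_isInv_of_even he
  have h2 : IsInv w := by simpa [mul_assoc] using hwi.conj' g
  exact hg (hfix w (hpF w w.2 (isInv_coe.2 h2)) hw g h1)

end Cfsg.Agent.S3121
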